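import Cfsg.Agent.E6AltSection65.Blocks

/-!
Block diagonal matrices on the sixteen coordinates, and the Weyl group element exchanging the two
functions while preserving the sixteen roots.
-/

set_option autoImplicit false

namespace CfsgLib.E6Alt65

open Cfsg.Lie CfsgLib.Chevalley
open scoped Matrix

local notation "S" => sysE6

/-- Positions as pairs of a place in a block and a block. -/
def e16 : Fin 4 × Fin 4 ≃ Fin 16 where
  toFun x := pos4 x.2 x.1
  invFun t := (⟨(t : ℕ) % 4, Nat.mod_lt _ (by norm_num)⟩, ⟨(t : ℕ) / 4, by omega⟩)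
  left_inv x := Prod.ext (Fin.ext (by simp [pos4])) (Fin.ext (by simp [pos4]; omega))
  right_inv t := Fin.ext (by simp [pos4]; omega)

/-- The block of a position. -/
def blkOf (t : Fin 16) : Fin 4 := (e16.symm t).2

theorem blkOf_pos4 (i a : Fin 4) : blkOf (pos4 i a) = i :=
  congrArg Prod.snd (e16.symm_apply_apply (a, i))

variable {F : Type*} [Field F]

/-- The block diagonal matrix with the given blocks. -/
def Φ (M : Fin 4 → Matrix (Fin 4) (Fin 4) F) : Matrix (Fin 16) (Fin 16) F :=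
  (Matrix.blockDiagonal M).submatrix e16.symm e16.symm

theorem Φ_apply (M : Fin 4 → Matrix (Fin 4) (Fin 4) F) (i j a b : Fin 4) :
    Φ M (pos4 i a) (pos4 j b) = if i = j then M i a b else 0 := by
  show Matrix.blockDiagonal M (e16.symm (e16 (a, i))) (e16.symm (e16 (b, j))) = _
  rw [Equiv.symm_apply_apply, Equiv.symm_apply_apply]
  rfl

theorem Φ_mul (M N : Fin 4 → Matrix (Fin 4) (Fin 4) F) : Φ (fun i => M i * N i) = Φ M * Φ N := by
  rw [Φ, Φ, Φ, Matrix.submatrix_mul_equiv, Matrix.blockDiagonal_mul]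

theorem Φ_one : Φ (fun _ => (1 : Matrix (Fin 4) (Fin 4) F)) = 1 := by
  rw [Φ, show (fun _ : Fin 4 => (1 : Matrix (Fin 4) (Fin 4) F)) = 1 from rfl,
    Matrix.blockDiagonal_one, Matrix.submatrix_one_equiv]

theorem Φ_smul (c : F) (M : Fin 4 → Matrix (Fin 4) (Fin 4) F) :
    Φ (fun i => c • M i) = c • Φ M := by
  rw [Φ, Φ, show (fun i => c • M i) = c • M from rfl, Matrix.blockDiagonal_smul,
    Matrix.submatrix_smul]
  rfl

theorem Φ_neg (M : Fin 4 → Matrix (Fin 4) (Fin 4) F) : Φ (fun i => -M i) = -Φ M := by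
  rw [Φ, Φ, show (fun i => -M i) = -M from rfl, Matrix.blockDiagonal_neg, Matrix.submatrix_neg]
  rfl

theorem Φ_pow (M : Fin 4 → Matrix (Fin 4) (Fin 4) F) (n : ℕ) :
    Φ (fun i => M i ^ n) = Φ M ^ n := by
  induction n with
  | zero => simpa using Φ_one
  | succ n ih => simp only [pow_succ, Φ_mul, ih]

theorem Φ_injective : Function.Injective (Φ (F := F)) := fun M N h => by
  funext i
  ext a b
  have := congrFun (congrFun h (pos4 i a)) (pos4 i b)
  simpa [Φ_apply] using this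

theorem Φ_diagonal (c : Fin 4 → F) :
    Φ (fun i => c i • (1 : Matrix (Fin 4) (Fin 4) F)) = Matrix.diagonal fun t => c (blkOf t) := by
  ext t u
  obtain ⟨⟨a, i⟩, rfl⟩ := e16.surjective t
  obtain ⟨⟨b, j⟩, rfl⟩ := e16.surjective u
  show Φ _ (pos4 i a) (pos4 j b) = _
  rw [Φ_apply, show e16 (a, i) = pos4 i a from rfl, show e16 (b, j) = pos4 j b from rfl]
  by_cases h : i = j
  · subst h
    by_cases h' : a = b
    · subst h'; simp [blkOf_pos4]
    · have hne : pos4 i a ≠ pos4 i b :=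
        fun e => h' (congrArg Prod.fst (e16.injective (a₁ := (a, i)) (a₂ := (b, i)) e))
      simp [Matrix.diagonal_apply_ne _ hne, h']
  · have hne : pos4 i a ≠ pos4 j b :=
      fun e => h (congrArg Prod.snd (e16.injective (a₁ := (a, i)) (a₂ := (b, j)) e))
    simp [Matrix.diagonal_apply_ne _ hne, h]

theorem Φ_mulVec (M : Fin 4 → Matrix (Fin 4) (Fin 4) F) (v : Fin 16 → F) (i a : Fin 4) :
    (Φ M *ᵥ v) (pos4 i a) = (M i *ᵥ fun b => v (pos4 i b)) a := by
  simp only [Matrix.mulVec, dotProduct]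
  rw [← Equiv.sum_comp e16, Fintype.sum_prod_type_right, Finset.sum_eq_single i]
  · exact Finset.sum_congr rfl fun b _ => by
      rw [show e16 (b, i) = pos4 i b from rfl, Φ_apply, if_pos rfl]
  · intro j _ hj
    refine Finset.sum_eq_zero fun b _ => ?_
    rw [show e16 (b, j) = pos4 j b from rfl, Φ_apply, if_neg (Ne.symm hj), zero_mul]
  · exact fun h => absurd (Finset.mem_univ i) h

/-- The sixteen by sixteen submatrix. -/
def blk16 (g : GL chevE6.Idx F) : Matrix (Fin 16) (Fin 16) F :=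
  (g : Matrix chevE6.Idx chevE6.Idx F).submatrix ix16 ix16

/-- A four by four submatrix. -/
def blk4 (i : Fin 4) (g : GL chevE6.Idx F) : Matrix (Fin 4) (Fin 4) F :=
  (g : Matrix chevE6.Idx chevE6.Idx F).submatrix (ix4 i) (ix4 i)

theorem blk16_mul {g h : GL chevE6.Idx F} (hh : h ∈ Pres ix16) :
    blk16 (g * h) = blk16 g * blk16 h := by
  ext a b
  rw [Matrix.mul_apply]
  exact mulApply_pres ix16_injective g h hh (ix16 a) b

theorem blk16_one : blk16 (1 : GL chevE6.Idx F) = 1 := by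
  rw [blk16, Units.val_one]
  exact Matrix.submatrix_one ix16 ix16_injective

theorem blk16_eq {g : GL chevE6.Idx F} (h : ∀ i, g ∈ Pres (ix4 i)) :
    blk16 g = Φ fun i => blk4 i g := by
  ext t u
  obtain ⟨⟨a, i⟩, rfl⟩ := e16.surjective t
  obtain ⟨⟨b, j⟩, rfl⟩ := e16.surjective u
  show (g : Matrix chevE6.Idx chevE6.Idx F) (ix4 i a) (ix4 j b) = Φ _ (pos4 i a) (pos4 j b)
  rw [Φ_apply]
  by_cases hij : i = j
  · subst hij; rw [if_pos rfl]; rfl
  · rw [if_neg hij]
    refine (h j).1 _ ?_ b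
    rintro ⟨c, hc⟩
    exact hij (congrArg Prod.snd (e16.injective (a₁ := (c, j)) (a₂ := (a, i))
      (ix16_injective hc))).symm

theorem blk16_isLog [Fact (Nat.Prime 5)] {ζ : Fˣ} {t : GL chevE6.Idx F} {f : Fin chevE6.nroots → ZMod 5}
    (h : IsLog ζ t f) :
    blk16 t = Matrix.diagonal fun k => ((ζ : F) ^ (f (r16 k)).val) := by
  ext a b
  by_cases hab : a = b
  · subst hab
    rw [Matrix.diagonal_apply_eq, ← Units.val_pow_eq_pow_val]
    exact h.entry (r16 a)
  · rw [Matrix.diagonal_apply_ne _ hab]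
    obtain ⟨-, c, rfl, -⟩ := h
    exact Sys.tor_diag S F c fun e => hab (ix16_injective e)

/-- A word exchanging the two functions. -/
def Wsw : List (Fin chevE6.rank) :=
  ([1, 2, 0, 4, 3, 1, 2, 0, 3, 2, 4, 5, 4, 3, 1, 2, 0, 3, 2, 4] : List (Fin 6))

/-- Its action on the positions. -/
def wT : Fin 16 → Fin 16 := ![4, 8, 2, 14, 0, 12, 6, 10, 1, 13, 7, 11, 5, 9, 3, 15]

/-- The inverse action on the positions. -/
def wT' : Fin 16 → Fin 16 := ![4, 8, 2, 14, 0, 12, 6, 10, 1, 13, 7, 11, 5, 9, 3, 15]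

theorem wperm_Wsw (t : Fin 16) : Sys.wperm S Wsw (r16 t) = r16 (wT t) := by
  refine Fin.ext ?_
  rw [wperm_val]
  revert t
  decide +kernel

theorem wT_table : (∀ t, wT (wT' t) = t) ∧ ∀ i j : Fin 4, ∃ t, blkOf t = j ∧ blkOf (wT t) = i := by
  decide +kernel

theorem fA_Wsw (s : Fin chevE6.nroots) : fA (Sys.wperm S Wsw s) = fB s := by
  refine congrFun (vals_inj (isLin_wperm (isLin_mkLin _) Wsw) (isLin_mkLin _) ?_) s
  change vals (fun s => fA (Sys.wperm S Wsw s)) = vals fB
  rw [vals_wperm (f := fA) (isLin_mkLin _), vals_fA, vals_fB, ← imgs_val]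
  decide +kernel

theorem fB_Wsw (s : Fin chevE6.nroots) : fB (Sys.wperm S Wsw s) = fA s := by
  refine congrFun (vals_inj (isLin_wperm (isLin_mkLin _) Wsw) (isLin_mkLin _) ?_) s
  change vals (fun s => fB (Sys.wperm S Wsw s)) = vals fA
  rw [vals_wperm (f := fB) (isLin_mkLin _), vals_fA, vals_fB, ← imgs_val]
  decide +kernel

/-- The exchanging monomial element. -/
noncomputable def nsw (F : Type*) [Field F] : GL chevE6.Idx F :=
  ((Sys.wN S F Wsw : ↥(chevE6.monomialSubgroup F)) : GL chevE6.Idx F)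

theorem mono_mem_pres16 (n : ↥(chevE6.monomialSubgroup F)) (τ : Fin 16 → Fin 16)
    (h : ∀ t, Sys.perm S F n (r16 t) = r16 (τ t)) (row : chevE6.Idx)
    (hrow : row ∉ Set.range ix16) (b : Fin 16) :
    ((n : GL chevE6.Idx F) : Matrix chevE6.Idx chevE6.Idx F) row (ix16 b) = 0 := by
  have hm : Mono chevE6 ((n : GL chevE6.Idx F) : Matrix chevE6.Idx chevE6.Idx F) (Sys.perm S F n) :=
    (Sys.exists_mono S F n.2).choose_spec
  rcases row with i | u
  · exact hm.2.1 i _
  · by_contra hne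
    exact hrow ⟨τ b, congrArg Sum.inr ((hm.1 u (r16 b) hne).trans (h b)).symm⟩

theorem nsw_mem_pres : nsw F ∈ Pres ix16 := by
  refine ⟨mono_mem_pres16 (Sys.wN S F Wsw) wT fun t => by rw [Sys.perm_wN, wperm_Wsw],
    mono_mem_pres16 (Sys.wN S F Wsw)⁻¹ wT' fun t => ?_⟩
  rw [map_inv, Equiv.Perm.inv_def, Equiv.symm_apply_eq, Sys.perm_wN, wperm_Wsw, wT_table.1]

/-- Off the permutation the exchanging element has zero entries, on it nonzero ones. -/
theorem nsw_entry (t : Fin 16) : blk16 (nsw F) (wT t) t ≠ 0 := by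
  intro h0
  have hm : Mono chevE6 (nsw F : Matrix chevE6.Idx chevE6.Idx F) (Sys.perm S F (Sys.wN S F Wsw)) :=
    (Sys.exists_mono S F (Sys.wN S F Wsw).2).choose_spec
  have hcol : ∀ a, blk16 (nsw F) a t = 0 := by
    intro a
    by_contra hne
    have e := hm.1 (r16 a) (r16 t) hne
    rw [Sys.perm_wN, wperm_Wsw] at e
    exact hne (by rw [r16_injective e]; exact h0)
  have h1 : blk16 ((nsw F)⁻¹ * nsw F) t t = 1 := by
    rw [inv_mul_cancel, blk16_one, Matrix.one_apply_eq]
  rw [blk16_mul nsw_mem_pres, Matrix.mul_apply] at h1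
  simp [hcol] at h1

end CfsgLib.E6Alt65
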