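import Cfsg.Agent.E6AltSection65.Toral
import Cfsg.Agent.Chevalley.CentralizerFix
import Cfsg.Agent.Chevalley.Eval

/-!
The two tori of order five: their centralisers, the sixteen roots they move in pairs, and the sign
torus element.
-/

set_option autoImplicit false

namespace CfsgLib.E6Alt65

open Cfsg.Lie CfsgLib.Chevalley
open scoped Matrix

local notation "S" => sysE6

/-- The sixteen roots, sorted by the value of the base function. -/
def R16 : List ℕ := [36, 38, 41, 45, 49, 52, 54, 55, 4, 7, 9, 10, 12, 13, 14, 15]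

theorem R16_lt : ∀ k : Fin 16, R16.getD k 0 < chevE6.nroots := by decide +kernel

/-- The root with the given position among the sixteen. -/
def r16 (k : Fin 16) : Fin chevE6.nroots := ⟨R16.getD k 0, R16_lt k⟩

/-- The coordinate of the root with the given position. -/
def ix16 (k : Fin 16) : chevE6.Idx := Sum.inr (r16 k)

/-- The position of the `k`-th root of the `i`-th block. -/
def pos4 (i k : Fin 4) : Fin 16 := ⟨4 * i + k, by omega⟩

/-- The coordinates of a block. -/
def ix4 (i : Fin 4) (k : Fin 4) : chevE6.Idx := ix16 (pos4 i k)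

theorem r16_injective : Function.Injective r16 := by decide +kernel

theorem ix16_injective : Function.Injective ix16 :=
  Sum.inr_injective.comp r16_injective

theorem ix4_injective (i : Fin 4) : Function.Injective (ix4 i) :=
  ix16_injective.comp fun a b h => Fin.ext (by
    simp only [pos4, Fin.mk.injEq] at h
    omega)

variable {F : Type*} [Field F]

/-- The elements preserving the subspace spanned by the given coordinates. -/
def Pres {d : ℕ} (e : Fin d → chevE6.Idx) : Subgroup (GL chevE6.Idx F) where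
  carrier := {g | (∀ row, row ∉ Set.range e → ∀ b, (g : Matrix chevE6.Idx chevE6.Idx F) row (e b) = 0) ∧
    ∀ row, row ∉ Set.range e → ∀ b,
      ((g⁻¹ : GL chevE6.Idx F) : Matrix chevE6.Idx chevE6.Idx F) row (e b) = 0}
  one_mem' := by
    refine ⟨fun row hrow b => ?_, fun row hrow b => ?_⟩ <;>
      simp only [inv_one, Units.val_one] <;>
      exact Matrix.one_apply_ne fun h => hrow ⟨b, h.symm⟩
  inv_mem' {g} hg := ⟨hg.2, by simpa only [inv_inv] using hg.1⟩
  mul_mem' {g h} hg hh := by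
    have key : ∀ x y : Matrix chevE6.Idx chevE6.Idx F,
        (∀ row, row ∉ Set.range e → ∀ b, x row (e b) = 0) →
        (∀ row, row ∉ Set.range e → ∀ b, y row (e b) = 0) →
        ∀ row, row ∉ Set.range e → ∀ b, (x * y) row (e b) = 0 := by
      intro x y hx hy row hrow b
      rw [Matrix.mul_apply]
      refine Finset.sum_eq_zero fun c _ => ?_
      by_cases hc : c ∈ Set.range e
      · obtain ⟨a, rfl⟩ := hc
        rw [hx row hrow a, zero_mul]
      · rw [hy c hc b, mul_zero]
    refine ⟨?_, ?_⟩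
    · rw [Units.val_mul]
      exact key _ _ hg.1 hh.1
    · rw [mul_inv_rev, Units.val_mul]
      exact key _ _ hh.2 hg.2

theorem mulApply_pres {d : ℕ} {e : Fin d → chevE6.Idx} (he : Function.Injective e)
    (g h : GL chevE6.Idx F) (hh : h ∈ Pres e) (row : chevE6.Idx) (b : Fin d) :
    ((g * h : GL chevE6.Idx F) : Matrix chevE6.Idx chevE6.Idx F) row (e b) =
      ∑ a : Fin d, (g : Matrix chevE6.Idx chevE6.Idx F) row (e a) *
        (h : Matrix chevE6.Idx chevE6.Idx F) (e a) (e b) := by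
  classical
  rw [Units.val_mul, Matrix.mul_apply]
  refine (Finset.sum_subset (Finset.subset_univ (Finset.univ.image e)) fun c _ hc => ?_).symm.trans ?_
  · have hc' : c ∉ Set.range e := fun ⟨a, ha⟩ => hc (Finset.mem_image.mpr ⟨a, Finset.mem_univ _, ha⟩)
    rw [hh.1 c hc' b, mul_zero]
  · exact Finset.sum_image fun x _ y _ h' => he h'

/-- The restriction to the subspace. -/
noncomputable def res {d : ℕ} (e : Fin d → chevE6.Idx) (he : Function.Injective e) :
    ↥(Pres (F := F) e) →* GL (Fin d) F :=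
  MonoidHom.toHomUnits
    { toFun := fun g => (g.1 : Matrix chevE6.Idx chevE6.Idx F).submatrix e e
      map_one' := by
        simp only [OneMemClass.coe_one, Units.val_one]
        exact Matrix.submatrix_one e he
      map_mul' := fun g h => by
        ext a b
        simp only [Matrix.submatrix_apply, Subgroup.coe_mul, Matrix.mul_apply]
        exact mulApply_pres he g.1 h.1 h.2 (e a) b }

theorem res_apply {d : ℕ} {e : Fin d → chevE6.Idx} (he : Function.Injective e)
    (g : ↥(Pres (F := F) e)) (a b : Fin d) :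
    (res e he g : Matrix (Fin d) (Fin d) F) a b =
      (g.1 : Matrix chevE6.Idx chevE6.Idx F) (e a) (e b) := rfl

theorem diagonal_le_pres {d : ℕ} (e : Fin d → chevE6.Idx) :
    chevE6.diagonalSubgroup F ≤ Pres e := by
  have key : ∀ t ∈ chevE6.diagonalSubgroup F, ∀ row, row ∉ Set.range e → ∀ b,
      (t : Matrix chevE6.Idx chevE6.Idx F) row (e b) = 0 := by
    intro t ht row hrow b
    obtain ⟨c, rfl⟩ := (Sys.diagonal_eq S (F := F)) ▸ ht
    exact Sys.tor_diag S F c fun h => hrow ⟨b, h.symm⟩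
  exact fun t ht => ⟨key t ht, key _ (inv_mem ht)⟩

/-- Check: the root element maps the coordinates into their span. -/
def chkPres (Z B : List ℕ) : Bool :=
  Z.all fun r => B.all fun s => (colTerms chevE6 r (6 + s)).all fun q => (B.map (6 + ·)).contains q.1

theorem xG_mem_pres {Z B : List ℕ} (h : chkPres Z B = true) (hB : ∀ s ∈ B, s < chevE6.nroots)
    {d : ℕ} {e : Fin d → chevE6.Idx} (he : ∀ b, ∃ s : Fin chevE6.nroots, (s : ℕ) ∈ B ∧ e b = Sum.inr s)
    (hBe : ∀ s : Fin chevE6.nroots, (s : ℕ) ∈ B → Sum.inr s ∈ Set.range e)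
    {r : ℕ} (hr : r ∈ Z) (hrl : r < chevE6.nroots) (t : F) : Sys.xG S F r t ∈ Pres e := by
  simp only [chkPres, List.all_eq_true, List.contains_iff_mem, List.mem_map] at h
  have key : ∀ t : F, ∀ row, row ∉ Set.range e → ∀ b,
      (Sys.xG S F r t : Matrix chevE6.Idx chevE6.Idx F) row (e b) = 0 := by
    intro t row hrow b
    obtain ⟨s, hs, hes⟩ := he b
    have e1 : (Sys.xG S F r t : Matrix chevE6.Idx chevE6.Idx F) row (e b) =
        (chevE6.x F r t *ᵥ bv chevE6 F (chevE6.rank + s)) row := by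
      rw [hes, bv_inr, Matrix.mulVec_single, Sys.xG_val]
      simp
    rw [e1, x_bv (Sys.wf S) hrl (by omega) t, list_sum_apply]
    refine List.sum_eq_zero fun x hx => ?_
    simp only [List.mem_map] at hx
    obtain ⟨_, ⟨q, hq, rfl⟩, rfl⟩ := hx
    obtain ⟨u, hu, hu'⟩ := h r hr s hs q hq
    rw [Pi.smul_apply, ← hu']
    have hrow' : bv chevE6 F (6 + u) row = 0 := by
      refine bv_apply_ne ?_
      intro henc
      rcases row with i | v
      · have := i.isLt
        simp only [enc] at henc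
        have h6 : chevE6.rank = 6 := rfl
        omega
      · simp only [enc] at henc
        have h6 : chevE6.rank = 6 := rfl
        have : (v : ℕ) = u := by omega
        exact hrow (hBe v (this ▸ hu))
    rw [hrow', smul_zero]
  exact ⟨key t, by rw [Sys.xG_inv]; exact key (-t)⟩

/-- The roots on which a function modulo five vanishes. -/
def zeroList (φ : List ℕ) : List ℕ := (List.range 72).filter fun r => vmod 5 φ r == 0

/-- The torus together with the root subgroups of these roots. -/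
def Mz (F : Type*) [Field F] (φ : List ℕ) : Subgroup (GL chevE6.Idx F) :=
  chevE6.diagonalSubgroup F ⊔ genSub chevE6 F {r | r ∈ zeroList φ}

theorem mem_zeroList_lt {φ : List ℕ} {r : ℕ} (h : r ∈ zeroList φ) : r < chevE6.nroots :=
  List.mem_range.mp (List.mem_filter.mp h).1

theorem xG_mem_Mz {φ : List ℕ} {r : ℕ} (h : r ∈ zeroList φ) (t : F) :
    Sys.xG S F r t ∈ Mz F φ :=
  Subgroup.mem_sup_right (Sys.xG_mem_genSub S F (A := {r | r ∈ zeroList φ}) h t)

/-- The `i`-th block. -/
def block (i : Fin 4) : List ℕ := (List.range 4).map fun k => R16.getD (4 * i + k) 0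

theorem chk_blocks : ∀ i : Fin 4, chkPres (zeroList a0) (block i) = true := by decide +kernel

theorem chk_sixteen : chkPres (zeroList a0) R16 = true ∧ chkPres (zeroList b0) R16 = true := by
  decide +kernel

theorem R16_mem : ∀ k : Fin 16, R16.getD k 0 ∈ R16 := by decide

theorem mem_R16 : ∀ s : Fin 72, (s : ℕ) ∈ R16 → ∃ k : Fin 16, R16.getD k 0 = s := by decide +kernel

theorem R16_bound : ∀ s ∈ R16, s < chevE6.nroots := by decide +kernel

theorem mem_block : ∀ i : Fin 4, ∀ s : Fin 72, (s : ℕ) ∈ block i →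
    ∃ k : Fin 4, R16.getD (4 * (i : ℕ) + k) 0 = s := by decide +kernel

theorem Mz_le_pres16 {φ : List ℕ} (h : chkPres (zeroList φ) R16 = true) :
    Mz F φ ≤ Pres ix16 := by
  refine sup_le (diagonal_le_pres ix16) (Sys.genSub_le S F fun r hr t => ?_)
  refine xG_mem_pres h (fun s hs => ?_) (fun b => ⟨r16 b, R16_mem b, rfl⟩) (fun s hs => ?_) hr
    (mem_zeroList_lt hr) t
  · revert s; decide +kernel
  · obtain ⟨k, hk⟩ := mem_R16 s hs
    exact ⟨k, congrArg Sum.inr (Fin.ext hk)⟩

theorem Mz_le_pres4 (i : Fin 4) : Mz F a0 ≤ Pres (ix4 i) := by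
  refine sup_le (diagonal_le_pres _) (Sys.genSub_le S F fun r hr t => ?_)
  refine xG_mem_pres (chk_blocks i) (fun s hs => ?_) (fun b => ⟨r16 (pos4 i b), ?_, rfl⟩)
    (fun s hs => ?_) hr (mem_zeroList_lt hr) t
  · revert s; revert i; decide +kernel
  · exact List.mem_map.mpr ⟨b, List.mem_range.mpr b.isLt, rfl⟩
  · obtain ⟨k, hk⟩ := mem_block i s hs
    exact ⟨k, congrArg Sum.inr (Fin.ext hk)⟩

/-- The base function. -/
noncomputable def fA : Fin chevE6.nroots → ZMod 5 := mkLin ![1, 1, 0, 0, 0, 1]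

/-- The second function. -/
noncomputable def fB : Fin chevE6.nroots → ZMod 5 := mkLin ![1, 0, 3, 3, 1, 2]

theorem vals_fA : vals fA = a0 := by simp [vals, fA, mkLin_sf, a0]; rfl

theorem vals_fB : vals fB = b0 := by
  simp [vals, fB, mkLin_sf, b0]
  decide

/-- The table of values of the two functions on the sixteen roots. -/
theorem vals16 : ∀ k : Fin 16, vmod 5 a0 (R16.getD k 0) = k / 4 + 1 ∧
    vmod 5 b0 (R16.getD k 0) = [2, 3, 1, 4, 1, 4, 2, 3, 1, 4, 2, 3, 2, 3, 1, 4].getD k 0 := by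
  decide +kernel

theorem fA_r16 (k : Fin 16) : (fA (r16 k)).val = k / 4 + 1 := by
  rw [← vmod_vals (f := fA) (isLin_mkLin _), vals_fA]
  exact (vals16 k).1

theorem fB_r16 (k : Fin 16) :
    (fB (r16 k)).val = [2, 3, 1, 4, 1, 4, 2, 3, 1, 4, 2, 3, 2, 3, 1, 4].getD k 0 := by
  rw [← vmod_vals (f := fB) (isLin_mkLin _), vals_fB]
  exact (vals16 k).2

theorem fA_J0 (i : Fin chevE6.rank) (hi : (i : ℕ) ∈ J0) (s : Fin chevE6.nroots) :
    fA (Sys.wperm S [i] s) = fA s := by
  refine congrFun (vals_inj (isLin_wperm (isLin_mkLin _) [i]) (isLin_mkLin _) ?_) s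
  rw [show (fun s => mkLin ![(1 : ZMod 5), 1, 0, 0, 0, 1] (Sys.wperm S [i] s)) =
      fun s => fA (Sys.wperm S [i] s) from rfl, ← rf_vals (f := fA) (isLin_mkLin _) i,
    show mkLin ![(1 : ZMod 5), 1, 0, 0, 0, 1] = fA from rfl, vals_fA]
  have : ∀ j : Fin 6, (j : ℕ) ∈ J0 → rf 5 a0 j = a0 := by decide +kernel
  exact this i hi

theorem simpleRoots_zero : ∀ j ∈ J0, chevE6.simple j ∈ zeroList a0 ∧
    chevE6.neg (chevE6.simple j) ∈ zeroList a0 := by decide +kernel

variable [Fintype F] {ζ : Fˣ} {t : GL chevE6.Idx F}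

theorem eq_one_of_isLog (hζ : orderOf ζ = 5) {c : ℕ → Fˣ} {f : Fin chevE6.nroots → ZMod 5}
    (hc : ∀ s : Fin chevE6.nroots, torusVal chevE6 c s = ζ ^ (f s).val) {s : Fin chevE6.nroots}
    (h : torusVal chevE6 c s = 1) : f s = 0 := by
  haveI : Fact (Nat.Prime 5) := ⟨by norm_num⟩
  refine zeta_inj hζ ?_
  rw [← hc, h, ZMod.val_zero, pow_zero]

/-- The structure of the monomial elements commuting with the first torus element. -/
theorem monomial_cent (hζ : orderOf ζ = 5) (ht : IsLog ζ t fA)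
    (n : ↥(chevE6.monomialSubgroup F)) (hn : (n : GL chevE6.Idx F) * t = t * n) :
    ∃ M : List (Fin chevE6.rank), (∀ i ∈ M, (i : ℕ) ∈ J0) ∧ Sys.perm S F n = Sys.wperm S M ∧
      imgW M ∈ stabImgs := by
  haveI : Fact (Nat.Prime 5) := ⟨by norm_num⟩
  obtain ⟨L, hL⟩ := Sys.exists_wperm S F n
  have hfix : ∀ s, fA (Sys.wperm S L s) = fA s := fun s => by
    rw [← hL]
    exact ht.conj hζ ht n (by rw [hn, mul_inv_cancel_right]) s
  obtain ⟨M, hM, e, -⟩ := stab_word ht.1 vals_fA hfix
  refine ⟨M, hM, hL.trans e, ?_⟩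
  have := mem_stab ht.1 vals_fA hfix
  rwa [show imgW L = imgW M by simp only [imgW, e]] at this

theorem monomial_mem_Mz (hζ : orderOf ζ = 5) (ht : IsLog ζ t fA)
    (n : ↥(chevE6.monomialSubgroup F)) (hn : (n : GL chevE6.Idx F) * t = t * n) :
    (n : GL chevE6.Idx F) ∈ Mz F a0 := by
  obtain ⟨M, hM, e, -⟩ := monomial_cent hζ ht n hn
  have hw : ((Sys.wN S F M : ↥(chevE6.monomialSubgroup F)) : GL chevE6.Idx F) ∈ Mz F a0 := by
    clear e
    induction M with
    | nil => simp [Sys.wN]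
    | cons i M ih =>
      rw [Sys.wN_cons, Subgroup.coe_mul]
      refine mul_mem (Subgroup.mem_sup_right ?_) (ih fun j hj => hM j (List.mem_cons_of_mem _ hj))
      obtain ⟨h1, h2⟩ := simpleRoots_zero i (hM i (List.mem_cons_self ..))
      exact Sys.nG_mem_genSub S F h1 h2 1
  have h : (Sys.wN S F M)⁻¹ * n ∈ hSub chevE6 F := by
    rw [← Sys.ker_perm S F, MonoidHom.mem_ker, map_mul, map_inv, Sys.perm_wN, e, inv_mul_cancel]
  rw [hSub, Subgroup.mem_subgroupOf, Subgroup.coe_mul, Subgroup.coe_inv] at h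
  have := mul_mem hw (Subgroup.mem_sup_left (T := genSub chevE6 F {r | r ∈ zeroList a0}) h : _ ∈ Mz F a0)
  rwa [mul_inv_cancel_left] at this

theorem centralizer_le_Mz (hζ : orderOf ζ = 5) (ht : IsLog ζ t fA) {g : GL chevE6.Idx F}
    (hg : g ∈ chevE6.group F) (hc : g * t = t * g) : g ∈ Mz F a0 := by
  obtain ⟨hl, c, rfl, hcv⟩ := ht
  refine centralizer_tor S hg hc le_sup_left (fun r _ hr h a => ?_)
    (monomial_mem_Mz hζ ⟨hl, c, rfl, hcv⟩)
  refine xG_mem_Mz (List.mem_filter.mpr ⟨List.mem_range.mpr hr, beq_iff_eq.mpr ?_⟩) a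
  rw [← vals_fA, show r = ((⟨r, hr⟩ : Fin chevE6.nroots) : ℕ) from rfl, vmod_vals hl,
    eq_one_of_isLog hζ hcv (s := ⟨r, hr⟩) h, ZMod.val_zero]

theorem stab_fix : stabImgs.all (fun σ => stabWords.all fun L => !(imgs L == σ) ||
    (!(R16.all fun s => L.foldr (fun i r => chevE6.reflectRoot i r) s == s) ||
      σ == (List.range 6).map sp)) = true := by decide +kernel

/-- Roots among the sixteen with given differences. -/
theorem diff16 : ∀ j : Fin 6, ∀ m : Fin 6,
    (coef ([15, 12, 7, 9, 10, 36].getD j 0) m : ℤ) - 4 -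
      ([0, 1, 1, 1, 1, 0].getD j 0 : ℤ) * ((coef ([15, 9, 4, 7, 9, 36].getD j 0) m : ℤ) - 4) =
    ([-1, 1, 1, 1, 1, 1].getD j 0 : ℤ) * (if (m : ℕ) = j then 1 else 0) := by decide +kernel

theorem tor_trivial16 {c : ℕ → Fˣ} (h : ∀ k : Fin 16, torusVal chevE6 c (r16 k) = 1) :
    tor chevE6 F c = 1 := by
  refine Sys.tor_eq_one_of_simple S F c fun j hj => ?_
  have key : ∀ s : Fin chevE6.nroots, (s : ℕ) ∈ R16 → torusVal chevE6 c s = 1 := fun s hs => by
    obtain ⟨k, hk⟩ := mem_R16 s hs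
    rw [show s = r16 k from Fin.ext hk.symm]; exact h k
  set v : Fin 6 → Fˣ := fun m => torusVal chevE6 c (sf m) with hv
  have hval : ∀ s : Fin chevE6.nroots, torusVal chevE6 c s =
      ∏ m : Fin 6, v m ^ ((coef s m : ℤ) - 4) := fun s => by
    rw [F4AltSection.torusVal_vec S c s.isLt, Finset.prod_range]
    refine Finset.prod_congr rfl fun m _ => ?_
    rw [← vec_eq m s]
    rfl
  have hm1 : ∀ j : Fin 6, [15, 12, 7, 9, 10, 36].getD j 0 ∈ R16 := by decide
  have hm2 : ∀ j : Fin 6, [15, 9, 4, 7, 9, 36].getD j 0 ∈ R16 := by decide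
  have hm3 : ∀ j : Fin 6, ([15, 12, 7, 9, 10, 36].getD j 0 < chevE6.nroots) ∧
      ([15, 9, 4, 7, 9, 36].getD j 0 < chevE6.nroots) := by decide +kernel
  set J : Fin 6 := ⟨j, hj⟩
  have e1 := key ⟨_, (hm3 J).1⟩ (hm1 J)
  have e2 := key ⟨_, (hm3 J).2⟩ (hm2 J)
  rw [hval] at e1 e2
  have e3 : ∏ m : Fin 6, v m ^ (([-1, 1, 1, 1, 1, 1].getD J 0 : ℤ) * (if (m : ℕ) = J then 1 else 0))
      = 1 := by
    simp only [← diff16]
    generalize hA : ([0, 1, 1, 1, 1, 0].getD (J : ℕ) 0 : ℤ) = A
    have e4 : ∀ m : Fin 6, v m ^ ((coef ([15, 12, 7, 9, 10, 36].getD (J : ℕ) 0) m : ℤ) - 4 -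
        A * ((coef ([15, 9, 4, 7, 9, 36].getD (J : ℕ) 0) m : ℤ) - 4)) =
        v m ^ ((coef ([15, 12, 7, 9, 10, 36].getD (J : ℕ) 0) m : ℤ) - 4) *
          ((v m ^ ((coef ([15, 9, 4, 7, 9, 36].getD (J : ℕ) 0) m : ℤ) - 4)) ^ A)⁻¹ := fun m => by
      rw [zpow_sub, mul_comm A, zpow_mul]
    simp only [e4, Finset.prod_mul_distrib, Finset.prod_inv_distrib, Finset.prod_zpow]
    exact (congrArg₂ (fun a b : Fˣ => a * (b ^ A)⁻¹) e1 e2).trans (by simp)
  rw [Finset.prod_eq_single J (fun b _ hb => by rw [if_neg fun h => hb (Fin.ext h), mul_zero,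
    zpow_zero]) (fun h => absurd (Finset.mem_univ J) h), if_pos rfl, mul_one] at e3
  have hvJ : v J = 1 := by
    have : ([-1, 1, 1, 1, 1, 1].getD J 0 : ℤ) = 1 ∨ ([-1, 1, 1, 1, 1, 1].getD J 0 : ℤ) = -1 := by
      generalize J = J'; revert J'; decide
    rcases this with h1 | h1 <;> rw [h1] at e3
    · simpa using e3
    · simpa using e3
  show (torusVal chevE6 c (chevE6.simple j) : F) = 1
  rw [show chevE6.simple j = ((sf J : Fin chevE6.nroots) : ℕ) from rfl, show
    torusVal chevE6 c (sf J) = v J from rfl, hvJ, Units.val_one]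

/-- An element centralising the first torus element and fixing the sixteen vectors is unipotent. -/
theorem trivial16 (hζ : orderOf ζ = 5) (ht : IsLog ζ t fA) {g : GL chevE6.Idx F}
    (hg : g ∈ chevE6.group F) (hc : g * t = t * g) (hgP : g ∈ Pres ix16)
    (h1 : res ix16 ix16_injective ⟨g, hgP⟩ = 1) : g ∈ chevE6.posUnipotent F := by
  obtain ⟨hl, c, rfl, hcv⟩ := ht
  obtain ⟨v, hv, d, n, u, hu, e, hn⟩ := centralizer_decomp S hg hc
  have ht' : IsLog ζ (tor chevE6 F c) fA := ⟨hl, c, rfl, hcv⟩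
  have hle : uSub chevE6 F {r | torusVal chevE6 c r = 1} ≤ Mz F a0 := by
    refine Sys.uSub_le S F fun r hr _ h2 a => xG_mem_Mz (List.mem_filter.mpr
      ⟨List.mem_range.mpr h2, beq_iff_eq.mpr ?_⟩) a
    rw [← vals_fA, show r = ((⟨r, h2⟩ : Fin chevE6.nroots) : ℕ) from rfl, vmod_vals hl,
      eq_one_of_isLog hζ hcv (s := ⟨r, h2⟩) hr, ZMod.val_zero]
  have huP : u ∈ Pres ix16 := Mz_le_pres16 chk_sixteen.1 (hle hu)
  have hdn : tor chevE6 F d * (n : GL chevE6.Idx F) = v⁻¹ * g * u⁻¹ := by rw [e]; group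
  have huni : v⁻¹ * u⁻¹ ∈ uniSub F (pos chevE6) 1 :=
    Sys.posUnipotent_le S F (mul_mem (inv_mem (uSub_le_posUnipotent F _ hv))
      (inv_mem (uSub_le_posUnipotent F _ hu)))
  have hgcol : ∀ row (b : Fin 16), (g : Matrix chevE6.Idx chevE6.Idx F) row (ix16 b) =
      (1 : Matrix chevE6.Idx chevE6.Idx F) row (ix16 b) := by
    intro row b
    by_cases hrow : row ∈ Set.range ix16
    · obtain ⟨a, rfl⟩ := hrow
      rw [← res_apply ix16_injective ⟨g, hgP⟩, h1, Units.val_one, Matrix.one_apply, Matrix.one_apply]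
      simp only [ix16_injective.eq_iff]
    · rw [hgP.1 row hrow b, Matrix.one_apply_ne fun h => hrow ⟨b, h.symm⟩]
  have hdiag : ∀ k : Fin 16, ((tor chevE6 F d * (n : GL chevE6.Idx F) : GL chevE6.Idx F) :
      Matrix chevE6.Idx chevE6.Idx F) (ix16 k) (ix16 k) = 1 := by
    intro k
    rw [hdn, mulApply_pres ix16_injective _ _ (inv_mem huP)]
    have e2 : ∀ a : Fin 16, ((v⁻¹ * g : GL chevE6.Idx F) : Matrix chevE6.Idx chevE6.Idx F)
        (ix16 k) (ix16 a) = ((v⁻¹ : GL chevE6.Idx F) : Matrix chevE6.Idx chevE6.Idx F)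
        (ix16 k) (ix16 a) := fun a => by
      rw [Units.val_mul, Matrix.mul_apply, Finset.sum_eq_single (ix16 a)
        (fun b _ hb => by rw [hgcol, Matrix.one_apply_ne hb, mul_zero])
        (fun h => absurd (Finset.mem_univ _) h), hgcol, Matrix.one_apply_eq, mul_one]
    simp only [e2]
    rw [← mulApply_pres ix16_injective _ _ (inv_mem huP)]
    by_contra hne
    have := huni.1 (ix16 k) (ix16 k) (by
      rw [Matrix.sub_apply, Matrix.one_apply_eq, sub_ne_zero]; exact hne)
    omega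
  have hdd : tor chevE6 F d ∈ chevE6.diagonalSubgroup F := by
    rw [Sys.diagonal_eq S]; exact ⟨d, rfl⟩
  let m : ↥(chevE6.monomialSubgroup F) := ⟨tor chevE6 F d, Subgroup.mem_sup_left hdd⟩ * n
  have hmono := (Sys.exists_mono S F m.2).choose_spec
  change Mono chevE6 ((m : GL chevE6.Idx F) : Matrix chevE6.Idx chevE6.Idx F) (Sys.perm S F m) at hmono
  have hpm : Sys.perm S F m = Sys.perm S F n := by
    rw [map_mul, Sys.perm_of_mem_hSub S F (by rw [hSub, Subgroup.mem_subgroupOf]; exact hdd), one_mul]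
  have hfix : ∀ k : Fin 16, Sys.perm S F n (r16 k) = r16 k := fun k => by
    rw [← hpm]
    refine (hmono.1 (r16 k) (r16 k) ?_).symm
    show ((tor chevE6 F d * (n : GL chevE6.Idx F) : GL chevE6.Idx F) :
      Matrix chevE6.Idx chevE6.Idx F) (ix16 k) (ix16 k) ≠ 0
    rw [hdiag k]; exact one_ne_zero
  obtain ⟨M, -, eM, hσ⟩ := monomial_cent hζ ht' n hn
  have hid : Sys.perm S F n = 1 := by
    rw [eM]
    refine imgW_eq_sp ?_
    have hw := hσ
    rw [← stabImgs_eq] at hw
    obtain ⟨W, hW, eW⟩ := List.mem_map.mp hw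
    have h := List.all_eq_true.mp (List.all_eq_true.mp stab_fix _ hσ) W hW
    simp only [eW, beq_self_eq_true, Bool.not_true, Bool.false_or, Bool.or_eq_true,
      Bool.not_eq_true', beq_iff_eq] at h
    refine h.resolve_left fun hall => ?_
    rw [List.all_eq_false] at hall
    obtain ⟨s, hs, hne⟩ := hall
    refine hne (beq_iff_eq.mpr ?_)
    have hs' : s < chevE6.nroots := R16_bound s hs
    obtain ⟨k, hk⟩ := mem_R16 ⟨s, hs'⟩ hs
    have hWJ : ∀ i ∈ W, i < chevE6.rank := fun i hi => by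
      have : ∀ V ∈ stabWords, ∀ i ∈ V, i < 6 := by decide
      exact this W hW i hi
    let W' : List (Fin chevE6.rank) := W.pmap (fun i hi => ⟨i, hi⟩) hWJ
    have hW' : W'.map Fin.val = W := by simp [W', List.map_pmap, List.pmap_eq_map]
    have he : Sys.wperm S W' = Sys.wperm S M := imgW_inj (by rw [← imgs_val, hW', eW])
    have := congrArg Fin.val (hfix k)
    rw [eM, ← he, wperm_val, hW'] at this
    rw [show s = (r16 k : ℕ) from hk.symm]
    exact this
  have hdiagM : (m : GL chevE6.Idx F) ∈ chevE6.diagonalSubgroup F := by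
    have : m ∈ hSub chevE6 F := by rw [← Sys.ker_perm S F, MonoidHom.mem_ker, hpm, hid]
    exact Subgroup.mem_subgroupOf.mp this
  obtain ⟨d', hd'⟩ := (Sys.diagonal_eq S (F := F)) ▸ hdiagM
  have hdn1 : tor chevE6 F d * (n : GL chevE6.Idx F) = 1 := by
    rw [show tor chevE6 F d * (n : GL chevE6.Idx F) = (m : GL chevE6.Idx F) from rfl, ← hd']
    refine tor_trivial16 fun k => Units.ext ?_
    have := hdiag k
    rw [show tor chevE6 F d * (n : GL chevE6.Idx F) = (m : GL chevE6.Idx F) from rfl, ← hd',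
      Sys.tor_val S] at this
    simpa [dg, ix16] using this
  rw [e, mul_assoc v, hdn1, mul_one]
  exact mul_mem (uSub_le_posUnipotent F _ hv) (uSub_le_posUnipotent F _ hu)

/-- The parameters of the sign element. -/
def cS : ℕ → Fˣ := fun j => if j = 2 ∨ j = 4 then -1 else 1

/-- Parity of the exponent of the sign element. -/
theorem sign_table :
    ((zeroList a0 ++ zeroList b0).all fun r => (chevE6.cartan 2 r + chevE6.cartan 4 r) % 2 == 0) = true ∧
    (R16.all fun r => (chevE6.cartan 2 r + chevE6.cartan 4 r) % 2 == 1) = true := by decide +kernel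

theorem torusVal_cS (r : ℕ) :
    torusVal chevE6 (cS (F := F)) r = (-1 : Fˣ) ^ (chevE6.cartan 2 r + chevE6.cartan 4 r) := by
  rw [torusVal, show chevE6.rank = 6 from rfl]
  simp [Finset.prod_range_succ, cS, zpow_add]

theorem signTor_centralises {φ : List ℕ} (hφ : φ = a0 ∨ φ = b0) :
    Mz F φ ≤ Subgroup.centralizer {tor chevE6 F cS} := by
  refine sup_le (fun x hx => ?_) (Sys.genSub_le S F fun r hr a => ?_)
  · rw [Subgroup.mem_centralizer_singleton_iff]
    exact Sys.diagonal_comm S F hx (by rw [Sys.diagonal_eq S]; exact ⟨_, rfl⟩)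
  · rw [Subgroup.mem_centralizer_singleton_iff]
    have hev : (chevE6.cartan 2 r + chevE6.cartan 4 r) % 2 = 0 := by
      refine beq_iff_eq.mp (List.all_eq_true.mp sign_table.1 r (List.mem_append.mpr ?_))
      rcases hφ with rfl | rfl
      · exact Or.inl hr
      · exact Or.inr hr
    have h := Sys.tor_conj S F (cS (F := F)) (mem_zeroList_lt hr) a
    rw [torusVal_cS, (Int.even_iff.mpr hev).neg_one_zpow, Units.val_one, one_mul,
      mul_inv_eq_iff_eq_mul] at h
    exact h.symm

theorem signTor_entry (k : Fin 16) :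
    ((tor chevE6 F cS : GL chevE6.Idx F) : Matrix chevE6.Idx chevE6.Idx F) (ix16 k) (ix16 k) = -1 := by
  have hodd : (chevE6.cartan 2 (r16 k) + chevE6.cartan 4 (r16 k)) % 2 = 1 :=
    beq_iff_eq.mp (List.all_eq_true.mp sign_table.2 _ (R16_mem k))
  rw [Sys.tor_val S]
  simp [dg, ix16, torusVal_cS, (Int.odd_iff.mpr hodd).neg_one_zpow]

/-- A word carrying the second function to the base function. -/
theorem exists_swap : ∃ W : List (Fin chevE6.rank), ∀ s, fB (Sys.wperm S W s) = fA s := by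
  obtain ⟨W, -, e⟩ := walk_sound (f := fB) (isLin_mkLin _) walkA (J := List.range 6)
    (fun i hi => List.mem_range.mp hi) 30
  rw [vals_fB, walk_b0] at e
  exact ⟨W, fun s => congrFun (vals_inj (isLin_wperm (isLin_mkLin _) W) (isLin_mkLin _)
    (e.trans vals_fA.symm)) s⟩

/-- The centraliser of the second torus element. -/
theorem centralizer_le_Mz_b0 (hζ : orderOf ζ = 5) (ht : IsLog ζ t fB) {g : GL chevE6.Idx F}
    (hg : g ∈ chevE6.group F) (hc : g * t = t * g) : g ∈ Mz F b0 := by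
  haveI : Fact (Nat.Prime 5) := ⟨by norm_num⟩
  obtain ⟨W, hW⟩ := exists_swap
  set n := Sys.wN S F W
  have ht' := ht.exists_conj hζ n (Sys.perm_wN S F W)
  rw [show (fun s => fB (Sys.wperm S W s)) = fA from funext hW] at ht'
  have hmem := centralizer_le_Mz hζ ht'
    (g := (n : GL chevE6.Idx F)⁻¹ * g * (n : GL chevE6.Idx F))
    (mul_mem (mul_mem (inv_mem (Sys.monomial_le_group S F n.2)) hg) (Sys.monomial_le_group S F n.2))
    (by
      calc _ = (n : GL chevE6.Idx F)⁻¹ * (g * t) * (n : GL chevE6.Idx F) := by group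
        _ = _ := by rw [hc]; group)
  have hconj : Mz F a0 ≤ (Mz F b0).comap (MulAut.conj (n : GL chevE6.Idx F)).toMonoidHom := by
    refine sup_le (fun x hx => ?_) (Sys.genSub_le S F fun r hr a => ?_)
    · exact Subgroup.mem_sup_left
        ((Subgroup.mem_normalizer_iff.mp (Sys.monomial_le_normalizer S F n.2) x).mp hx)
    · have hr' := mem_zeroList_lt hr
      obtain ⟨c, -, hc'⟩ := Sys.conj_root S F n ⟨r, hr'⟩
      show (n : GL chevE6.Idx F) * Sys.xG S F r a * (n : GL chevE6.Idx F)⁻¹ ∈ Mz F b0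
      rw [show Sys.xG S F r a = Sys.xG S F (⟨r, hr'⟩ : Fin chevE6.nroots) a from rfl, (hc' a).1]
      refine xG_mem_Mz (List.mem_filter.mpr ⟨List.mem_range.mpr (Fin.isLt _), beq_iff_eq.mpr ?_⟩) _
      rw [← vals_fB, vmod_vals (f := fB) (isLin_mkLin _), Sys.perm_wN, hW,
        ← vmod_vals (f := fA) (isLin_mkLin _), vals_fA]
      exact beq_iff_eq.mp (List.mem_filter.mp hr).2
  have := hconj hmem
  simpa [mul_assoc] using this

end CfsgLib.E6Alt65
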