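import Cfsg.Agent.E6AltSection65.Main
import Cfsg.Agent.TwistedLie.Base
import Cfsg.Prelude.Def_LieTwisted

/-!
The bound on the degree of an alternating section of the groups of type E6, and the inclusion of the
twisted groups.
-/

set_option autoImplicit false

namespace CfsgLib.E6Alt65

open Cfsg.Lie CfsgLib.Chevalley

/-- The degree bound. -/
theorem section_bound {F : Type*} [Field F] [Fintype F] (p : ℕ) [Fact p.Prime] [CharP F p] {r : ℕ}
    {H : Type*} [Group H] (i : H →* ↥(chevE6.group F)) (hi : Function.Injective i)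
    (π : H →* ↥(alternatingGroup (Fin r))) (hπ : Function.Surjective π) :
    r ≤ 11 + (if p = 2 ∨ p = 3 ∨ p = 5 then 1 else 0) := by
  by_contra hr
  split_ifs at hr with hp
  · exact no_thirteen p (by omega) (r := r) (by omega) i hi π hπ
  · push Not at hp
    obtain ⟨φ, hφ⟩ := F4AltSection.exists_altHom (n := 12) (r := r) (by omega)
    let U : Subgroup H := φ.range.comap π
    let π' : ↥U →* ↥(alternatingGroup (Fin 12)) :=
      (MonoidHom.ofInjective hφ).symm.toMonoidHom.comp
        ((π.comp U.subtype).codRestrict φ.range fun u => u.2)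
    refine no_twelve p hp.1 hp.2.1 hp.2.2 (i.comp U.subtype) (hi.comp U.subtype_injective) π'
      fun q => ?_
    obtain ⟨h, hh⟩ := hπ (φ q)
    refine ⟨⟨h, q, hh.symm⟩, hφ ?_⟩
    exact (congrArg Subtype.val ((MonoidHom.ofInjective hφ).apply_symm_apply
      ⟨π h, q, hh.symm⟩)).trans hh

/-- The twisted group lies in the Chevalley group. -/
theorem twisted_le {K : Type*} [Field K] (q : ℕ) : twistedE6 K q ≤ chevE6.group K := by
  refine TwistedLie.gen_le sysE6 K ?_
  intro v hv
  refine Sys.wG_mem sysE6 K ?_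
  intro x hx
  rcases hv with ⟨t, -, r, hr, rfl⟩ | ⟨t, rs, hrs, rfl⟩
  · rw [List.mem_singleton] at hx
    subst hx
    exact (by decide : ∀ r ∈ [e6p2, e6m2, e6p4, e6m4], r < chevE6.nroots) r hr
  · have h := (by decide : ∀ rs ∈ [(e6p1, e6p6), (e6m1, e6m6), (e6p3, e6p5), (e6m3, e6m5)],
      rs.1 < chevE6.nroots ∧ rs.2 < chevE6.nroots) rs hrs
    simp only [List.mem_cons, List.not_mem_nil, or_false] at hx
    rcases hx with rfl | rfl
    exacts [h.1, h.2]

end CfsgLib.E6Alt65
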