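import Mathlib.GroupTheory.SpecificGroups.Alternating
import Mathlib.GroupTheory.Perm.Fin
import Mathlib.LinearAlgebra.Matrix.GeneralLinearGroup.Defs
import Mathlib.Tactic

/-!
Shared definitions for the alternating sections of the groups of type E6: scalar matrices, invariant
subspaces, and the permutations used in degrees seven and twelve.
-/

set_option autoImplicit false

namespace CfsgLib.E6Alt65

open scoped Matrix

/-- The invertible matrix is a scalar. -/
def IsScalarMat {n : Type*} [Fintype n] [DecidableEq n] {F : Type*} [Field F] (g : GL n F) : Prop :=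
  ∃ c : F, (g : Matrix n n F) = c • 1

/-- No proper nonzero invariant subspace. -/
def Irred {n : Type*} [Fintype n] [DecidableEq n] {F : Type*} [Field F] {H : Type*} [Group H]
    (ρ : H →* GL n F) : Prop :=
  ∀ W : Submodule F (n → F), (∀ h : H, ∀ v ∈ W, (ρ h : Matrix n n F) *ᵥ v ∈ W) → W = ⊥ ∨ W = ⊤

/-- `(01)(23)` in degree seven. -/
def u7 : ↥(alternatingGroup (Fin 7)) :=
  ⟨Equiv.swap 0 1 * Equiv.swap 2 3, Equiv.Perm.mem_alternatingGroup.mpr (by decide)⟩

/-- `(02)(13)` in degree seven. -/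
def v7 : ↥(alternatingGroup (Fin 7)) :=
  ⟨Equiv.swap 0 2 * Equiv.swap 1 3, Equiv.Perm.mem_alternatingGroup.mpr (by decide)⟩

/-- `(456)` in degree seven. -/
def c7 : ↥(alternatingGroup (Fin 7)) :=
  ⟨Equiv.swap 4 5 * Equiv.swap 5 6, Equiv.Perm.mem_alternatingGroup.mpr (by decide)⟩

/-- `(01)(45)`, inverting `(456)`. -/
def x7 : ↥(alternatingGroup (Fin 7)) :=
  ⟨Equiv.swap 0 1 * Equiv.swap 4 5, Equiv.Perm.mem_alternatingGroup.mpr (by decide)⟩

/-- `(56)(78)` in degree twelve. -/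
def u12 : ↥(alternatingGroup (Fin 12)) :=
  ⟨Equiv.swap 5 6 * Equiv.swap 7 8, Equiv.Perm.mem_alternatingGroup.mpr (by decide)⟩

/-- `(57)(68)` in degree twelve. -/
def v12 : ↥(alternatingGroup (Fin 12)) :=
  ⟨Equiv.swap 5 7 * Equiv.swap 6 8, Equiv.Perm.mem_alternatingGroup.mpr (by decide)⟩

/-- `(9 10 11)` in degree twelve. -/
def c12 : ↥(alternatingGroup (Fin 12)) :=
  ⟨Equiv.swap 9 10 * Equiv.swap 10 11, Equiv.Perm.mem_alternatingGroup.mpr (by decide)⟩

/-- `(56)(9 10)`, inverting `(9 10 11)`. -/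
def x12 : ↥(alternatingGroup (Fin 12)) :=
  ⟨Equiv.swap 5 6 * Equiv.swap 9 10, Equiv.Perm.mem_alternatingGroup.mpr (by decide)⟩

theorem x7_inverts : x7 * c7 * x7⁻¹ = c7⁻¹ := by decide +kernel

theorem x12_inverts : x12 * c12 * x12⁻¹ = c12⁻¹ := by decide +kernel

end CfsgLib.E6Alt65
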