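import Cfsg.Agent.E6AltSection65.Toral
import Cfsg.Agent.F4AltSection.Alternating
import Cfsg.Agent.ChevField.Map
import Mathlib.FieldTheory.Finite.Extension

/-!
Base change of the group of type E6, and the impossibility of alternating sections of degree
thirteen outside characteristic eleven.
-/

set_option autoImplicit false

namespace CfsgLib.E6Alt65

open Cfsg.Lie CfsgLib.Chevalley

local notation "S" => sysE6

/-- Base change to a finite extension with `m ∣ q - 1`, for `m` prime to the characteristic. -/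
theorem exists_baseChange {F : Type*} [Field F] [Fintype F] (p : ℕ) [Fact p.Prime] [CharP F p]
    {m : ℕ} (hm : Nat.Coprime p m) :
    ∃ (E : Type) (_ : Field E) (_ : Fintype E) (_ : CharP E p)
      (f : ↥(chevE6.group F) →* ↥(chevE6.group E)),
      Function.Injective f ∧ m ∣ Fintype.card E - 1 := by
  have hm0 : m ≠ 0 := by
    rintro rfl
    exact (Fact.out : p.Prime).ne_one (by simpa using hm)
  haveI : NeZero m.totient := ⟨(Nat.totient_pos.mpr (Nat.pos_of_ne_zero hm0)).ne'⟩
  haveI : Module.Finite F (FiniteField.Extension F p m.totient) := Module.Finite.of_finite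
  let E := FiniteField.Extension F p m.totient
  haveI : Fintype E := Fintype.ofFinite E
  let ι : F →+* E := algebraMap F E
  haveI : CharP E p := charP_of_injective_ringHom ι.injective p
  refine ⟨E, inferInstance, inferInstance, inferInstance,
    ((CfsgLib.ChevField.gmap chevE6 ι).comp (chevE6.group F).subtype).codRestrict _
      fun g => CfsgLib.ChevField.gmap_mem S ι g.2, fun a b h => ?_, ?_⟩
  · exact Subtype.ext (CfsgLib.ChevField.gmap_injective ι (congrArg Subtype.val h))
  · rw [← Nat.card_eq_fintype_card (α := E), Module.natCard_eq_pow_finrank (K := F),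
      FiniteField.finrank_extension F p m.totient, Nat.card_eq_fintype_card]
    obtain ⟨a, -, ha⟩ := FiniteField.card F p
    refine (Nat.modEq_iff_dvd' (Nat.one_le_pow _ _ Fintype.card_pos)).mp ?_
    exact (Nat.ModEq.pow_totient (by rw [ha]; exact hm.pow_left _)).symm

/-- In degree thirteen an element of order eleven is conjugate to its square. -/
theorem exists_thirteen {r : ℕ} (hr : 13 ≤ r) :
    ∃ s c : ↥(alternatingGroup (Fin r)), orderOf s = 11 ∧ c * s * c⁻¹ = s ^ 2 := by
  haveI : Fact (Nat.Prime 11) := ⟨by norm_num⟩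
  let s₀ : Equiv.Perm (Fin 13) := ⟨![1, 2, 3, 4, 5, 6, 7, 8, 9, 10, 0, 11, 12],
    ![10, 0, 1, 2, 3, 4, 5, 6, 7, 8, 9, 11, 12], by decide, by decide⟩
  let c₀ : Equiv.Perm (Fin 13) := ⟨![0, 2, 4, 6, 8, 10, 1, 3, 5, 7, 9, 12, 11],
    ![0, 6, 1, 7, 2, 8, 3, 9, 4, 10, 5, 12, 11], by decide, by decide⟩
  have h : Equiv.Perm.sign s₀ = 1 ∧ Equiv.Perm.sign c₀ = 1 ∧ c₀ * s₀ * c₀⁻¹ = s₀ ^ 2 ∧
      s₀ ^ 11 = 1 ∧ s₀ ≠ 1 := by decide +kernel
  obtain ⟨h1, h2, h3, h4, h5⟩ := h
  obtain ⟨φ, hφ⟩ := F4AltSection.exists_altHom hr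
  let s : ↥(alternatingGroup (Fin 13)) := ⟨s₀, Equiv.Perm.mem_alternatingGroup.mpr h1⟩
  let c : ↥(alternatingGroup (Fin 13)) := ⟨c₀, Equiv.Perm.mem_alternatingGroup.mpr h2⟩
  refine ⟨φ s, φ c, ?_, ?_⟩
  · rw [orderOf_injective φ hφ, ← Subgroup.orderOf_coe]
    exact orderOf_eq_prime h4 h5
  · rw [← map_inv, ← map_mul, ← map_mul, ← map_pow]
    exact congrArg φ (Subtype.ext h3)

/-- A monomial element inducing conjugation between torus elements. -/
theorem exists_perm_scale {F : Type*} [Field F] [Fintype F] {ℓ : ℕ} [Fact ℓ.Prime] {ζ : Fˣ}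
    (hζ : orderOf ζ = ℓ) {t g : GL chevE6.Idx F} (hg : g ∈ chevE6.group F)
    {f : Fin chevE6.nroots → ZMod ℓ} (h : IsLog ζ t f) {j : ℕ} (e : g * t * g⁻¹ = t ^ j) :
    ∃ L : List (Fin chevE6.rank), ∀ s, (j : ZMod ℓ) * f (Sys.wperm S L s) = f s := by
  obtain ⟨n, hn⟩ := F4AltSection.exists_monomial_conj S hg
  have htd := mem_diagonal_of_isLog h
  have e' : (n : GL chevE6.Idx F) * t * (n : GL chevE6.Idx F)⁻¹ = t ^ j := by
    rw [← hn t htd (e ▸ pow_mem htd j), e]
  obtain ⟨L, hL⟩ := Sys.exists_wperm S F n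
  exact ⟨L, fun s => by rw [← hL]; exact h.conj hζ (h.pow hζ j) n e' s⟩

/-- No alternating section of degree thirteen or more outside characteristic eleven. -/
theorem no_thirteen {F : Type*} [Field F] [Fintype F] (p : ℕ) [Fact p.Prime] [CharP F p]
    (hp : p ≠ 11) {r : ℕ} (hr : 13 ≤ r) {H : Type*} [Group H] (i : H →* ↥(chevE6.group F))
    (hi : Function.Injective i) (π : H →* ↥(alternatingGroup (Fin r)))
    (hπ : Function.Surjective π) : False := by
  haveI : Fact (Nat.Prime 11) := ⟨by norm_num⟩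
  obtain ⟨s, c, hs, hc⟩ := exists_thirteen hr
  obtain ⟨E, _, _, _, f, hf, hq⟩ := exists_baseChange (F := F) p (m := 11)
    ((Nat.coprime_primes Fact.out (by norm_num)).mpr hp)
  have hW : ¬ 11 ∣ (Sys.wSet S (List.range chevE6.rank)).card := by
    rw [← F4AltSection.natCard_weylPerms, natCard_weyl]; norm_num
  have hfi : Function.Injective (f.comp i) := hf.comp hi
  obtain ⟨z, hz, hlift⟩ := F4AltSection.exists_lift_toral S hq hW (f.comp i) hfi π hπ hs
  obtain ⟨x, -, hx⟩ := hlift c 2 hc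
  obtain ⟨g, hg⟩ := F4AltSection.exists_toral S hq hW (P := Subgroup.zpowers (f.comp i z))
    (IsPGroup.of_card (n := 1) (by
      rw [Nat.card_zpowers, orderOf_injective _ hfi, hz, pow_one]))
  classical
  obtain ⟨ζ, hζ⟩ := exists_prime_orderOf_dvd_card (G := Eˣ) 11 (by rwa [Fintype.card_units])
  let κ : H →* GL chevE6.Idx E :=
    (chevE6.group E).subtype.comp ((MulAut.conj g).toMonoidHom.comp (f.comp i))
  have hκ : Function.Injective κ :=
    Subtype.val_injective.comp ((MulAut.conj g).injective.comp hfi)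
  have hzd : κ z ∈ chevE6.diagonalSubgroup E := hg _ (Subgroup.mem_zpowers _)
  obtain ⟨φ, hφ⟩ := exists_log hζ hzd (by rw [← map_pow, ← hz, pow_orderOf_eq_one, map_one])
  obtain ⟨L, hL⟩ := exists_perm_scale hζ (g := κ x) (Subtype.coe_prop _) hφ (j := 2)
    (by rw [← map_inv, ← map_mul, ← map_mul, hx, map_pow])
  refine no_eleven_scaling (f := φ) hφ.1 ?_ (L := L.reverse) fun s => ?_
  · intro h0
    have h1 : κ z = 1 := (h0 ▸ hφ).unique (isLog_one ζ)
    rw [← map_one κ] at h1
    rw [hκ h1, orderOf_one] at hz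
    norm_num at hz
  · have := hL (Sys.wperm S L.reverse s)
    rw [Sys.wperm_reverse, Equiv.Perm.inv_def, Equiv.apply_symm_apply] at this
    rw [Sys.wperm_reverse, Equiv.Perm.inv_def]
    exact this.symm

end CfsgLib.E6Alt65
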