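import Cfsg.Agent.E6AltSection65.WeylSound
import Cfsg.Agent.Chevalley.Parabolic
import Mathlib.RingTheory.RootsOfUnity.PrimitiveRoots

/-!
Torus elements of prime order as linear functions on the roots, and their centralisers.
-/

set_option autoImplicit false

namespace CfsgLib.E6Alt65

open Cfsg.Lie CfsgLib.Chevalley

/-- The decomposition of an element centralising a torus element. -/
theorem centralizer_decomp {D : ChevalleyDatum} (S : Sys D) {F : Type*} [Field F] {c : ℕ → Fˣ}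
    {g : GL D.Idx F} (hg : g ∈ D.group F) (hc : g * tor D F c = tor D F c * g) :
    ∃ v ∈ uSub D F {r | torusVal D c r = 1}, ∃ d : ℕ → Fˣ, ∃ n : ↥(D.monomialSubgroup F),
      ∃ u ∈ uSub D F {r | torusVal D c r = 1}, g = v * tor D F d * (n : GL D.Idx F) * u ∧
        (n : GL D.Idx F) * tor D F c = tor D F c * (n : GL D.Idx F) := by
  obtain ⟨b, hb, n, u, hu, rfl⟩ := S.normal_form_exists F hg
  set z := tor D F c with hz
  have hzd : z ∈ D.diagonalSubgroup F := by rw [S.diagonal_eq]; exact ⟨c, rfl⟩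
  have hu' : z * u * z⁻¹ ∈ uSub D F (S.flipSet F n) := S.tor_conj_uSub F c hu
  have hflip : ∀ u, u ∈ uSub D F (S.flipSet F n) →
      (n : GL D.Idx F) * u * (n : GL D.Idx F)⁻¹ ∈ D.negUnipotent F := by
    intro u hu
    refine closure_conj_mem ?_ hu
    rintro x ⟨r, s, ⟨⟨hr, hr1⟩, -⟩, hx⟩
    obtain ⟨d, -, hdt⟩ := S.conj_root F n ⟨r, hr⟩
    rw [S.eq_xG F hx, show S.xG F r s = S.xG F (⟨r, hr⟩ : Fin D.nroots) s from rfl, (hdt s).1]
    exact S.xG_mem_negUnipotent F hr1 _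
  set δ := z * (n : GL D.Idx F) * z⁻¹ * (n : GL D.Idx F)⁻¹ with hδ
  have hnz : (n : GL D.Idx F) * z⁻¹ * (n : GL D.Idx F)⁻¹ ∈ D.diagonalSubgroup F :=
    (Subgroup.mem_normalizer_iff.mp (S.monomial_le_normalizer F n.2) _).mp (inv_mem hzd)
  have hδd : δ ∈ D.diagonalSubgroup F := by
    rw [hδ, show z * (n : GL D.Idx F) * z⁻¹ * (n : GL D.Idx F)⁻¹ =
      z * ((n : GL D.Idx F) * z⁻¹ * (n : GL D.Idx F)⁻¹) by group]
    exact mul_mem hzd hnz
  have hzb : z * b * z⁻¹ * δ ∈ D.borelSubgroup F :=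
    mul_mem (mul_mem (mul_mem (Subgroup.mem_sup_right hzd) hb) (Subgroup.mem_sup_right (inv_mem hzd)))
      (Subgroup.mem_sup_right hδd)
  have heq : z * b * z⁻¹ * δ * n * (z * u * z⁻¹) = b * n * u := by
    calc _ = z * (b * n * u) * z⁻¹ := by rw [hδ]; group
      _ = b * n * u := by rw [← hc, mul_inv_cancel_right]
  obtain ⟨e1, e2⟩ := S.normal_form_unique F hzb hb (hflip _ hu') (hflip _ hu) heq
  have huM : ∀ v ∈ D.posUnipotent F, z * v * z⁻¹ = v → v ∈ uSub D F {r | torusVal D c r = 1} := by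
    intro v hv hfix
    rw [← uSub_univ] at hv
    obtain ⟨t, ht, rfl⟩ := S.exists_ordProd_half F S.closed_univ hv
    have hconj : ∀ d m, D.nroots - m ≤ d → z * S.ordProd F t m * z⁻¹ =
        S.ordProd F (fun r => (torusVal D c r : F) * t r) m := by
      intro d
      induction d with
      | zero => intro m hm; simp [S.ordProd_of_le F _ (show D.nroots ≤ m by omega)]
      | succ d ih =>
        intro m hm
        by_cases hml : m < D.nroots
        · rw [S.ordProd_succ F _ hml, S.ordProd_succ F _ hml, ← ih (m + 1) (by omega),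
            ← S.tor_conj F c hml, ← hz]
          group
        · simp [S.ordProd_of_le F _ (show D.nroots ≤ m by omega)]
    rw [hconj _ _ le_rfl] at hfix
    have hval : ∀ r, t r ≠ 0 → torusVal D c r = 1 := fun r hr => by
      obtain ⟨-, h1, h2⟩ := ht r hr
      have := S.ordProd_inj_half F hfix h1 h2
      exact Units.ext (mul_right_cancel₀ hr (this.trans (one_mul _).symm))
    refine S.ordProd_mem F t le_rfl fun r h1 h2 => ?_
    by_cases hr : t r = 0
    · exact Or.inr hr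
    · exact Or.inl (hval r hr)
  obtain ⟨v, hv, d, rfl⟩ := (S.mem_borel F).mp hb
  have hd : tor D F d ∈ D.diagonalSubgroup F := by rw [S.diagonal_eq]; exact ⟨d, rfl⟩
  have hv' : z * v * z⁻¹ ∈ D.posUnipotent F :=
    (Subgroup.mem_normalizer_iff.mp (S.diagonal_le_normalizer F hzd) v).mp hv
  have e3 : (z * v * z⁻¹)⁻¹ * v ∈ D.posUnipotent F ⊓ D.diagonalSubgroup F := by
    refine Subgroup.mem_inf.mpr ⟨mul_mem (inv_mem hv') hv, ?_⟩
    have : (z * v * z⁻¹)⁻¹ * v = z * tor D F d * z⁻¹ * δ * (tor D F d)⁻¹ := by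
      calc (z * v * z⁻¹)⁻¹ * v = (z * v * z⁻¹)⁻¹ * (v * tor D F d) * (tor D F d)⁻¹ := by group
        _ = (z * v * z⁻¹)⁻¹ * (z * (v * tor D F d) * z⁻¹ * δ) * (tor D F d)⁻¹ := by rw [e1]
        _ = _ := by group
    rw [this]
    exact mul_mem (mul_mem (mul_mem (mul_mem hzd hd) (inv_mem hzd)) hδd) (inv_mem hd)
  rw [S.posUnipotent_inf_diagonal F, Subgroup.mem_bot, inv_mul_eq_one] at e3
  have hδ1 : δ = 1 := by
    have h1 : z * tor D F d * z⁻¹ = tor D F d := by
      rw [S.diagonal_comm F hzd hd, mul_inv_cancel_right]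
    have h2 : z * (v * tor D F d) * z⁻¹ * δ = v * tor D F d := e1
    rw [show z * (v * tor D F d) * z⁻¹ = z * v * z⁻¹ * (z * tor D F d * z⁻¹) by group, e3, h1] at h2
    exact mul_eq_left.mp h2
  have hn : (n : GL D.Idx F) * z = z * n := by
    rw [hδ, mul_inv_eq_one, mul_inv_eq_iff_eq_mul] at hδ1
    exact hδ1.symm
  have huP : u ∈ D.posUnipotent F := uSub_le_posUnipotent F _ hu
  exact ⟨v, huM v hv e3, d, n, u, huM u huP e2, rfl, hn⟩

/-- An element of the group centralising a torus element lies in any subgroup containing the torus,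
the positive root subgroups on which that element is trivial and the monomial elements commuting
with it. -/
theorem centralizer_tor {D : ChevalleyDatum} (S : Sys D) {F : Type*} [Field F] {c : ℕ → Fˣ}
    {g : GL D.Idx F} (hg : g ∈ D.group F) (hc : g * tor D F c = tor D F c * g)
    {M : Subgroup (GL D.Idx F)} (hT : D.diagonalSubgroup F ≤ M)
    (hU : ∀ r, D.nroots / 2 ≤ r → r < D.nroots → torusVal D c r = 1 → ∀ t, S.xG F r t ∈ M)
    (hN : ∀ n : ↥(D.monomialSubgroup F),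
      (n : GL D.Idx F) * tor D F c = tor D F c * (n : GL D.Idx F) → (n : GL D.Idx F) ∈ M) :
    g ∈ M := by
  obtain ⟨v, hv, d, n, u, hu, rfl, hn⟩ := centralizer_decomp S hg hc
  have h : uSub D F {r | torusVal D c r = 1} ≤ M :=
    S.uSub_le F fun r hr h1 h2 a => hU r h1 h2 hr a
  exact mul_mem (mul_mem (mul_mem (h hv) (hT (by rw [S.diagonal_eq]; exact ⟨d, rfl⟩))) (hN n hn))
    (h hu)

local notation "S" => sysE6

variable {F : Type*} [Field F] {ℓ : ℕ} [Fact ℓ.Prime] {ζ : Fˣ}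

/-- The linear function giving the values of a torus element as powers of `ζ`. -/
def IsLog (ζ : Fˣ) (t : GL chevE6.Idx F) (f : Fin chevE6.nroots → ZMod ℓ) : Prop :=
  IsLin f ∧ ∃ c : ℕ → Fˣ, tor chevE6 F c = t ∧
    ∀ s : Fin chevE6.nroots, torusVal chevE6 c s = ζ ^ (f s).val

theorem zeta_inj (hζ : orderOf ζ = ℓ) {a b : ZMod ℓ} (h : ζ ^ a.val = ζ ^ b.val) : a = b := by
  rw [pow_eq_pow_iff_modEq, hζ, ← ZMod.natCast_eq_natCast_iff, ZMod.natCast_zmod_val,
    ZMod.natCast_zmod_val] at h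
  exact h

theorem zeta_val (hζ : orderOf ζ = ℓ) (k : ℤ) : ζ ^ (k : ZMod ℓ).val = ζ ^ k := by
  rw [← zpow_natCast, zpow_eq_zpow_iff_modEq, hζ, ← ZMod.intCast_eq_intCast_iff, Int.cast_natCast,
    ZMod.natCast_zmod_val]

theorem mem_diagonal_of_isLog {t : GL chevE6.Idx F} {f : Fin chevE6.nroots → ZMod ℓ}
    (h : IsLog ζ t f) : t ∈ chevE6.diagonalSubgroup F := by
  obtain ⟨-, c, rfl, -⟩ := h
  rw [Sys.diagonal_eq S]
  exact ⟨c, rfl⟩

theorem IsLog.entry {t : GL chevE6.Idx F} {f : Fin chevE6.nroots → ZMod ℓ} (h : IsLog ζ t f)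
    (s : Fin chevE6.nroots) :
    (t : Matrix chevE6.Idx chevE6.Idx F) (Sum.inr s) (Sum.inr s) = ((ζ ^ (f s).val : Fˣ) : F) := by
  obtain ⟨-, c, rfl, hc⟩ := h
  rw [Sys.tor_val S, ← hc s]
  simp [dg]

theorem tor_ext {c c' : ℕ → Fˣ}
    (h : ∀ s : Fin chevE6.nroots, torusVal chevE6 c s = torusVal chevE6 c' s) :
    tor chevE6 F c = tor chevE6 F c' := by
  apply Units.ext
  rw [Sys.tor_val S, Sys.tor_val S]
  exact dg_congr fun s hs => by rw [h ⟨s, hs⟩]

theorem IsLog.unique {t t' : GL chevE6.Idx F} {f : Fin chevE6.nroots → ZMod ℓ}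
    (h : IsLog ζ t f) (h' : IsLog ζ t' f) : t = t' := by
  obtain ⟨-, c, rfl, hc⟩ := h
  obtain ⟨-, c', rfl, hc'⟩ := h'
  exact tor_ext fun s => by rw [hc, hc']

theorem isLog_one (ζ : Fˣ) : IsLog ζ (1 : GL chevE6.Idx F) (0 : Fin chevE6.nroots → ZMod ℓ) := by
  refine ⟨fun s => by simp, 1, map_one _, fun s => ?_⟩
  simp [torusVal]

theorem IsLog.pow (hζ : orderOf ζ = ℓ) {t : GL chevE6.Idx F} {f : Fin chevE6.nroots → ZMod ℓ}
    (h : IsLog ζ t f) (k : ℕ) : IsLog ζ (t ^ k) (fun s => (k : ZMod ℓ) * f s) := by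
  obtain ⟨hl, c, rfl, hc⟩ := h
  refine ⟨isLin_smul hl _, c ^ k, map_pow _ _ _, fun s => ?_⟩
  have h1 : torusVal chevE6 (c ^ k) s = torusVal chevE6 c s ^ k := by
    simp only [torusVal, Pi.pow_apply, ← Finset.prod_pow]
    refine Finset.prod_congr rfl fun j _ => ?_
    rw [← zpow_natCast, ← zpow_natCast (c j ^ _), ← zpow_mul, ← zpow_mul, mul_comm]
  rw [h1, hc, ← pow_mul, pow_eq_pow_iff_modEq, hζ, ← ZMod.natCast_eq_natCast_iff, Nat.cast_mul,
    ZMod.natCast_zmod_val, ZMod.natCast_zmod_val, mul_comm]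

/-- Existence of logarithms. -/
theorem exists_log [Fintype F] (hζ : orderOf ζ = ℓ) {t : GL chevE6.Idx F}
    (ht : t ∈ chevE6.diagonalSubgroup F) (hℓ : t ^ ℓ = 1) :
    ∃ f : Fin chevE6.nroots → ZMod ℓ, IsLog ζ t f := by
  obtain ⟨c, rfl⟩ := (Sys.diagonal_eq S (F := F)) ▸ ht
  have hroot : ∀ s : Fin chevE6.nroots, torusVal chevE6 c s ^ ℓ = 1 := fun s => by
    have h' := congrArg (fun M : GL chevE6.Idx F =>
      (M : Matrix chevE6.Idx chevE6.Idx F) (Sum.inr s) (Sum.inr s)) hℓ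
    rw [← map_pow] at h'
    simp only [Sys.tor_val S, dg, Matrix.diagonal_apply_eq, Sum.elim_inr, Units.val_one,
      Matrix.one_apply_eq] at h'
    have h1 : torusVal chevE6 (c ^ ℓ) s = torusVal chevE6 c s ^ ℓ := by
      simp only [torusVal, Pi.pow_apply, ← Finset.prod_pow]
      refine Finset.prod_congr rfl fun j _ => ?_
      rw [← zpow_natCast, ← zpow_natCast (c j ^ _), ← zpow_mul, ← zpow_mul, mul_comm]
    rw [h1] at h'
    exact Units.ext (by simpa using h')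
  have hroots : Subgroup.zpowers ζ = rootsOfUnity ℓ F :=
    IsPrimitiveRoot.zpowers_eq (hζ ▸ IsPrimitiveRoot.orderOf ζ)
  have hlog : ∀ s : Fin chevE6.nroots, ∃ e : ℤ, ζ ^ e = torusVal chevE6 c s := fun s => by
    rw [← Subgroup.mem_zpowers_iff, hroots, mem_rootsOfUnity]
    exact hroot s
  choose e he using hlog
  refine ⟨fun s => (e s : ZMod ℓ), fun s => ?_, c, rfl, fun s => by rw [zeta_val hζ, he]⟩
  refine zeta_inj hζ ?_
  have : ∑ m : Fin 6, (Sys.vec S m s : ZMod ℓ) * (e (sf m) : ZMod ℓ) =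
      ((∑ m : Fin 6, Sys.vec S m s * e (sf m) : ℤ) : ZMod ℓ) := by push_cast; rfl
  rw [this, zeta_val hζ, zeta_val hζ, he, F4AltSection.torusVal_vec S c s.isLt, Finset.prod_range,
    prod_zpow_sum ζ Finset.univ _]
  refine Finset.prod_congr rfl fun m _ => ?_
  rw [mul_comm, zpow_mul, he]
  rfl

/-- Monomial conjugation composes the logarithm with the inverse of the permutation. -/
theorem IsLog.conj (hζ : orderOf ζ = ℓ) {t t' : GL chevE6.Idx F}
    {f f' : Fin chevE6.nroots → ZMod ℓ} (h : IsLog ζ t f) (h' : IsLog ζ t' f')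
    (n : ↥(chevE6.monomialSubgroup F))
    (e : (n : GL chevE6.Idx F) * t * (n : GL chevE6.Idx F)⁻¹ = t') (s : Fin chevE6.nroots) :
    f' (Sys.perm S F n s) = f s := by
  obtain ⟨-, c, rfl, hc⟩ := h
  obtain ⟨-, c', rfl, hc'⟩ := h'
  refine zeta_inj hζ ?_
  rw [← hc, ← hc', F4AltSection.torusVal_perm S n e]

/-- The logarithm of a conjugate. -/
theorem IsLog.exists_conj [Fintype F] (hζ : orderOf ζ = ℓ) {t : GL chevE6.Idx F}
    {f : Fin chevE6.nroots → ZMod ℓ} (h : IsLog ζ t f) {L : List (Fin chevE6.rank)}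
    (n : ↥(chevE6.monomialSubgroup F)) (hn : Sys.perm S F n = Sys.wperm S L) :
    IsLog ζ ((n : GL chevE6.Idx F)⁻¹ * t * (n : GL chevE6.Idx F))
      (fun s => f (Sys.wperm S L s)) := by
  obtain ⟨hl, c, rfl, hc⟩ := h
  set t' := (n : GL chevE6.Idx F)⁻¹ * tor chevE6 F c * (n : GL chevE6.Idx F)
  have ht : t' ∈ chevE6.diagonalSubgroup F := by
    have hd : tor chevE6 F c ∈ chevE6.diagonalSubgroup F := by
      rw [Sys.diagonal_eq S]; exact ⟨c, rfl⟩
    simpa [t'] using (Subgroup.mem_normalizer_iff.mp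
      (Sys.monomial_le_normalizer S F (inv_mem n.2)) _).mp hd
  obtain ⟨c', hc'⟩ := (Sys.diagonal_eq S (F := F)) ▸ ht
  refine ⟨isLin_wperm hl L, c', hc', fun s => ?_⟩
  rw [← hc, ← hn]
  refine (F4AltSection.torusVal_perm S n (c := c') (c' := c) ?_ s).symm
  rw [hc']
  simp [t', mul_assoc]

end CfsgLib.E6Alt65
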