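import Cfsg.Agent.E6AltSection65.Index
import Cfsg.Agent.E6AltSection65.Toral
import Cfsg.Agent.PGroup.Frattini
import Mathlib.GroupTheory.Nilpotent
import Mathlib.GroupTheory.Frattini
import Mathlib.GroupTheory.Transfer
import Mathlib.GroupTheory.SpecificGroups.Alternating.Simple
import Mathlib.LinearAlgebra.Matrix.GeneralLinearGroup.Card

/-!
The kernel of a minimal extension of `A₁₂` inside the group of type E6 has order prime to five.
-/

set_option autoImplicit false

namespace CfsgLib.E6Alt65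

open Cfsg.Lie CfsgLib.Chevalley
open scoped commutatorElement
set_option linter.style.haveILetI false

local notation "S" => sysE6

section Torus

variable {F : Type*} [Field F] [Fintype F]

/-- The torus has at most `5⁶` elements killed by five. -/
theorem five_torsion (hq : 25 ∣ Fintype.card F - 1) :
    Nat.card {t : GL chevE6.Idx F // t ∈ chevE6.diagonalSubgroup F ∧ t ^ 5 = 1} ≤ 5 ^ 6 := by
  haveI : Fact (Nat.Prime 5) := ⟨by norm_num⟩
  obtain ⟨ζ, hζ⟩ : ∃ ζ : Fˣ, orderOf ζ = 5 := exists_prime_orderOf_dvd_card' 5 (by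
    rw [Nat.card_units, Nat.card_eq_fintype_card]
    exact dvd_trans (by norm_num) hq)
  choose f hf using fun t : {t : GL chevE6.Idx F // t ∈ chevE6.diagonalSubgroup F ∧ t ^ 5 = 1} =>
    exists_log hζ t.2.1 t.2.2
  calc Nat.card {t : GL chevE6.Idx F // t ∈ chevE6.diagonalSubgroup F ∧ t ^ 5 = 1}
      ≤ Nat.card (Fin 6 → ZMod 5) := by
        refine Nat.card_le_card_of_injective (fun t m => f t (sf m)) fun t t' h => ?_
        have hff : f t = f t' := by
          funext s
          rw [(hf t).1 s, (hf t').1 s]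
          exact Finset.sum_congr rfl fun m _ => by rw [show f t (sf m) = f t' (sf m) from congrFun h m]
        exact Subtype.ext ((hf t).unique (hff ▸ hf t'))
    _ = 5 ^ 6 := by simp

end Torus

section Group

variable {H : Type*} [Group H]

/-- Commutators and fifth powers of `U`. -/
def omegaFive (U : Subgroup H) : Subgroup H :=
  Subgroup.closure ({x | ∃ u ∈ U, u ^ 5 = x} ∪ {x | ∃ u ∈ U, ∃ v ∈ U, ⁅u, v⁆ = x})

theorem omegaFive_le (U : Subgroup H) : omegaFive U ≤ U := by
  refine (Subgroup.closure_le _).mpr ?_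
  rintro x (⟨u, hu, rfl⟩ | ⟨u, hu, v, hv, rfl⟩)
  · exact pow_mem hu 5
  · rw [commutatorElement_def]
    exact mul_mem (mul_mem (mul_mem hu hv) (inv_mem hu)) (inv_mem hv)

theorem normal_closure_of_conj {s : Set H} (h : ∀ g : H, ∀ x ∈ s, g * x * g⁻¹ ∈ s) :
    (Subgroup.closure s).Normal := by
  refine ⟨fun x hx g => ?_⟩
  induction hx using Subgroup.closure_induction with
  | mem x hx => exact Subgroup.subset_closure (h g x hx)
  | one => simp
  | mul x y _ _ hx hy =>
    rw [show g * (x * y) * g⁻¹ = g * x * g⁻¹ * (g * y * g⁻¹) by group]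
    exact mul_mem hx hy
  | inv x _ hx =>
    rw [show g * x⁻¹ * g⁻¹ = (g * x * g⁻¹)⁻¹ by group]
    exact inv_mem hx

theorem omegaFive_normal (U : Subgroup H) [hU : U.Normal] : (omegaFive U).Normal := by
  refine normal_closure_of_conj ?_
  rintro g x (⟨u, hu, rfl⟩ | ⟨u, hu, v, hv, rfl⟩)
  · exact Or.inl ⟨g * u * g⁻¹, hU.conj_mem u hu g, by rw [conj_pow]⟩
  · exact Or.inr ⟨g * u * g⁻¹, hU.conj_mem u hu g, g * v * g⁻¹, hU.conj_mem v hv g, by
      rw [commutatorElement_def, commutatorElement_def]; group⟩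

theorem omegaFive_lt [Finite H] {U : Subgroup H} (hU : IsPGroup 5 ↥U) (hne : U ≠ ⊥) :
    omegaFive U ≠ U := by
  haveI : Fact (Nat.Prime 5) := ⟨by norm_num⟩
  haveI : Nontrivial ↥U := U.nontrivial_iff_ne_bot.mpr hne
  intro h
  obtain ⟨M, hM⟩ : ∃ M : Subgroup ↥U, IsCoatom M := (IsCoatomic.eq_top_or_exists_le_coatom
    (⊥ : Subgroup ↥U)).elim (fun h => absurd h bot_ne_top) fun ⟨M, hM, _⟩ => ⟨M, hM⟩
  haveI : M.Normal := CfsgLib.PGroup.normal_of_coatom hU hM
  have hidx : M.index = 5 := CfsgLib.PGroup.index_of_coatom hU hM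
  have hle : omegaFive U ≤ M.map U.subtype := by
    refine (Subgroup.closure_le _).mpr ?_
    rintro x (⟨u, hu, rfl⟩ | ⟨u, hu, v, hv, rfl⟩)
    · exact ⟨⟨u, hu⟩ ^ 5, hidx ▸ M.pow_index_mem ⟨u, hu⟩, by simp⟩
    · refine ⟨⁅(⟨u, hu⟩ : ↥U), ⟨v, hv⟩⁆, ?_, by simp [commutatorElement_def]⟩
      have hc : IsCyclic (↥U ⧸ M) := isCyclic_of_prime_card (p := 5) (by
        rw [← Subgroup.index_eq_card]; exact hidx)
      show ⁅(⟨u, hu⟩ : ↥U), ⟨v, hv⟩⁆ ∈ M
      rw [← QuotientGroup.eq_one_iff, ← QuotientGroup.mk'_apply, map_commutatorElement,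
        commutatorElement_eq_one_iff_commute]
      obtain ⟨g, hg⟩ := hc.exists_generator
      obtain ⟨a, ha⟩ := Subgroup.mem_zpowers_iff.mp (hg (QuotientGroup.mk' M (⟨u, hu⟩ : ↥U)))
      obtain ⟨b, hb⟩ := Subgroup.mem_zpowers_iff.mp (hg (QuotientGroup.mk' M (⟨v, hv⟩ : ↥U)))
      rw [← ha, ← hb]
      exact (Commute.refl g).zpow_zpow a b
  refine hM.1 (eq_top_iff.mpr fun x _ => ?_)
  obtain ⟨y, hy, hxy⟩ := hle (h.symm ▸ x.2 : (x : H) ∈ omegaFive U)
  rwa [← Subtype.ext hxy]

/-- Automorphism groups of elementary abelian groups of order `5^d`. -/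
theorem card_mulAut_five {A : Type*} [CommGroup A] [Finite A] (hA : ∀ a : A, a ^ 5 = 1) {n : ℕ}
    (hcard : Nat.card A = 5 ^ n) :
    Nat.card (MulAut A) ∣ ∏ i : Fin n, (5 ^ n - 5 ^ (i : ℕ)) := by
  haveI : Fact (Nat.Prime 5) := ⟨by norm_num⟩
  letI : Module (ZMod 5) (Additive A) := AddCommGroup.zmodModule fun x => by
    apply Additive.toMul.injective
    rw [toMul_nsmul, toMul_zero]
    exact hA _
  haveI : Module.Finite (ZMod 5) (Additive A) := Module.Finite.of_finite
  have hr : Module.finrank (ZMod 5) (Additive A) = n := by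
    have h := Module.natCard_eq_pow_finrank (K := ZMod 5) (V := Additive A)
    rw [show Nat.card (Additive A) = Nat.card A from rfl, hcard, Nat.card_zmod] at h
    exact (Nat.pow_right_injective (by norm_num) h).symm
  let b : Module.Basis (Fin n) (ZMod 5) (Additive A) := Module.finBasisOfFinrankEq _ _ hr
  let f : MulAut A →* Matrix (Fin n) (Fin n) (ZMod 5) :=
    { toFun := fun φ => LinearMap.toMatrixAlgEquiv b
        (AddMonoidHom.toZModLinearMap 5 (MonoidHom.toAdditive φ.toMonoidHom))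
      map_one' := by
        rw [← map_one (LinearMap.toMatrixAlgEquiv b)]
        congr 1
      map_mul' := fun φ ψ => by
        rw [← map_mul (LinearMap.toMatrixAlgEquiv b)]
        congr 1 }
  have hf : Function.Injective f.toHomUnits := fun φ ψ h => by
    have h1 := (LinearMap.toMatrixAlgEquiv b).injective (congrArg Units.val h)
    refine MulEquiv.ext fun x => ?_
    exact congrArg Additive.toMul (DFunLike.congr_fun h1 (Additive.ofMul x))
  have h := Subgroup.card_dvd_of_injective _ hf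
  have hq := Matrix.card_GL_field (𝔽 := ZMod 5) n
  rw [ZMod.card] at hq
  exact hq ▸ h

end Group

theorem card_alt_twelve : 2 * Nat.card ↥(alternatingGroup (Fin 12)) = 479001600 := by
  rw [Nat.card_eq_fintype_card, two_mul_card_alternatingGroup, Fintype.card_perm, Fintype.card_fin]
  rfl

theorem comm_perm_twelve :
    ∃ a a' x : ↥(alternatingGroup (Fin 12)), a ^ 5 = 1 ∧ a' ^ 5 = 1 ∧ a * a' = a' * a ∧
      x * a * x⁻¹ = a ∧ x * a' * x⁻¹ = a'⁻¹ ∧ orderOf a = 5 ∧ orderOf a' = 5 ∧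
      Subgroup.zpowers a ⊓ Subgroup.zpowers a' = ⊥ := by
  haveI : Fact (Nat.Prime 5) := ⟨by norm_num⟩
  let a₀ : Equiv.Perm (Fin 12) := ⟨![1, 2, 3, 4, 0, 5, 6, 7, 8, 9, 10, 11],
    ![4, 0, 1, 2, 3, 5, 6, 7, 8, 9, 10, 11], by decide, by decide⟩
  let b₀ : Equiv.Perm (Fin 12) := ⟨![0, 1, 2, 3, 4, 6, 7, 8, 9, 5, 10, 11],
    ![0, 1, 2, 3, 4, 9, 5, 6, 7, 8, 10, 11], by decide, by decide⟩
  let x₀ : Equiv.Perm (Fin 12) := Equiv.swap 6 9 * Equiv.swap 7 8
  have h : Equiv.Perm.sign a₀ = 1 ∧ Equiv.Perm.sign b₀ = 1 ∧ Equiv.Perm.sign x₀ = 1 ∧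
      a₀ ^ 5 = 1 ∧ b₀ ^ 5 = 1 ∧ a₀ * b₀ = b₀ * a₀ ∧ x₀ * a₀ * x₀⁻¹ = a₀ ∧
      x₀ * b₀ * x₀⁻¹ = b₀⁻¹ ∧ a₀ ≠ 1 ∧ b₀ ≠ 1 ∧ b₀ 0 = 0 ∧
      a₀ 0 ≠ 0 ∧ (a₀ ^ 2) 0 ≠ 0 ∧ (a₀ ^ 3) 0 ≠ 0 ∧ (a₀ ^ 4) 0 ≠ 0 := by decide +kernel
  obtain ⟨h1, h2, h3, h4, h5, h6, h7, h8, h9, h10, h11, h12, h13, h14, h15⟩ := h
  let a : ↥(alternatingGroup (Fin 12)) := ⟨a₀, Equiv.Perm.mem_alternatingGroup.mpr h1⟩
  let b : ↥(alternatingGroup (Fin 12)) := ⟨b₀, Equiv.Perm.mem_alternatingGroup.mpr h2⟩
  let x : ↥(alternatingGroup (Fin 12)) := ⟨x₀, Equiv.Perm.mem_alternatingGroup.mpr h3⟩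
  have ha : orderOf a = 5 := orderOf_eq_prime (Subtype.ext h4) fun e => h9 (congrArg Subtype.val e)
  have hb : orderOf b = 5 := orderOf_eq_prime (Subtype.ext h5) fun e => h10 (congrArg Subtype.val e)
  refine ⟨a, b, x, Subtype.ext h4, Subtype.ext h5, Subtype.ext h6, Subtype.ext h7, Subtype.ext h8,
    ha, hb, ?_⟩
  rw [eq_bot_iff]
  rintro g ⟨hga, hgb⟩
  obtain ⟨k₀, rfl⟩ := mem_powers_iff_mem_zpowers.mpr hga
  change a ^ k₀ ∈ Subgroup.zpowers b at hgb
  show a ^ k₀ ∈ (⊥ : Subgroup _)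
  rw [← pow_mod_orderOf, ha] at hgb ⊢
  have hk : k₀ % 5 < 5 := Nat.mod_lt _ (by norm_num)
  generalize k₀ % 5 = k at hk hgb ⊢
  have hfix : ((a ^ k : ↥(alternatingGroup (Fin 12))) : Equiv.Perm (Fin 12)) 0 = 0 := by
    obtain ⟨j, hj⟩ := Subgroup.mem_zpowers_iff.mp hgb
    rw [← hj]
    have : (b₀ ^ j) 0 = 0 := Equiv.Perm.zpow_apply_eq_self_of_apply_eq_self h11 j
    simpa [b] using this
  rw [SubmonoidClass.coe_pow] at hfix
  change (a₀ ^ k) 0 = 0 at hfix
  interval_cases k
  · simp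
  · exact absurd (by simpa using hfix) h12
  · exact absurd hfix h13
  · exact absurd hfix h14
  · exact absurd hfix h15

/-- A `5`-subgroup of the group of type E6 has no abelian quotient of exponent five of order
exceeding `5⁷`. -/
theorem five_quotient {F : Type*} [Field F] [Fintype F] (hq : 25 ∣ Fintype.card F - 1)
    {U V : Type*} [Group U] [Finite U] [CommGroup V] [Finite V] (hU : IsPGroup 5 U)
    (i : U →* GL chevE6.Idx F) (hi : Function.Injective i) (hig : ∀ u, i u ∈ chevE6.group F)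
    (φ : U →* V) (hφ : Function.Surjective φ) (hV : ∀ v : V, v ^ 5 = 1) :
    ∃ d : ℕ, d ≤ 7 ∧ Nat.card V = 5 ^ d := by
  classical
  haveI : Fact (Nat.Prime 5) := ⟨by norm_num⟩
  obtain ⟨d, hd⟩ := IsPGroup.iff_card.mp (hU.of_surjective φ hφ)
  refine ⟨d, ?_, hd⟩
  let j : U →* ↥(chevE6.group F) := i.codRestrict _ hig
  obtain ⟨g, hg⟩ := F4AltSection.exists_conj_into
    ((chevE6.monomialSubgroup F).subgroupOf (chevE6.group F)) (five_index_monomial hq)
    (hU.of_surjective j.rangeRestrict j.rangeRestrict_surjective)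
  have hmem : ∀ u, (MulAut.conj (g : GL chevE6.Idx F)) (i u) ∈ chevE6.monomialSubgroup F := fun u => by
    have := hg (j u) ⟨u, rfl⟩
    rwa [Subgroup.mem_subgroupOf, Subgroup.coe_mul, Subgroup.coe_mul, Subgroup.coe_inv] at this
  let k : U →* ↥(chevE6.monomialSubgroup F) :=
    ((MulAut.conj (g : GL chevE6.Idx F)).toMonoidHom.comp i).codRestrict _ hmem
  have hk : Function.Injective k := fun a b h =>
    hi ((MulAut.conj (g : GL chevE6.Idx F)).injective (congrArg Subtype.val h))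
  let θ : U →* Equiv.Perm (Fin chevE6.nroots) := (Sys.perm S F).comp k
  have hrange : θ.range ≤ F4AltSection.weylPerms S := by
    rintro _ ⟨u, rfl⟩
    exact Sys.exists_wperm S F (k u)
  have hθ : Nat.card θ.range ≤ 5 := by
    obtain ⟨e, he⟩ := IsPGroup.iff_card.mp (hU.of_surjective θ.rangeRestrict θ.rangeRestrict_surjective)
    have hdvd := Subgroup.card_dvd_of_le hrange
    rw [he, natCard_weyl] at hdvd
    rw [he]
    by_contra hc
    have : 2 ≤ e := by
      by_contra h2
      exact hc (le_of_le_of_eq (Nat.pow_le_pow_right (by norm_num) (by omega : e ≤ 1)) (pow_one 5))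
    have h25 : 5 ^ 2 ∣ 51840 := (Nat.pow_dvd_pow 5 this).trans hdvd
    norm_num at h25
  -- the kernel is abelian and has few elements killed by five
  have hker : ∀ u ∈ θ.ker, ((k u : ↥(chevE6.monomialSubgroup F)) : GL chevE6.Idx F) ∈
      chevE6.diagonalSubgroup F := fun u hu => by
    have : k u ∈ (Sys.perm S F).ker := hu
    rwa [Sys.ker_perm S F, hSub, Subgroup.mem_subgroupOf] at this
  have hcomm : ∀ a b : ↥θ.ker, a * b = b * a := fun a b => Subtype.ext (hk (Subtype.ext (by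
    simp only [Subgroup.coe_mul, map_mul]
    exact Sys.diagonal_comm S F (hker _ a.2) (hker _ b.2))))
  letI : CommGroup ↥θ.ker := { (inferInstance : Group ↥θ.ker) with mul_comm := hcomm }
  let p : ↥θ.ker →* ↥θ.ker := powMonoidHom 5
  let ψ : ↥θ.ker →* V := φ.comp θ.ker.subtype
  have hψ : Nat.card ψ.range ≤ 5 ^ 6 := by
    have hle : p.range ≤ ψ.ker := by
      rintro _ ⟨a, rfl⟩
      show φ (((a ^ 5 : ↥θ.ker)) : U) = 1
      rw [SubmonoidClass.coe_pow, map_pow, hV]
    have h1 : ψ.ker.index ≤ p.range.index :=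
      Nat.le_of_dvd (Nat.pos_of_ne_zero Subgroup.index_ne_zero_of_finite) (Subgroup.index_dvd_of_le hle)
    rw [Subgroup.index_ker] at h1
    have h2 : p.range.index = Nat.card p.ker := by
      have e1 := p.ker.card_mul_index
      have e2 := p.range.card_mul_index
      rw [Subgroup.index_ker] at e1
      rw [← e1, mul_comm (Nat.card p.ker)] at e2
      exact Nat.eq_of_mul_eq_mul_left Nat.card_pos e2
    refine (h1.trans h2.le).trans ?_
    refine le_trans (Nat.card_le_card_of_injective (fun a : ↥p.ker =>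
      (⟨((k (a.1 : U) : ↥(chevE6.monomialSubgroup F)) : GL chevE6.Idx F), hker _ a.1.2, by
        have ha : (a.1 : ↥θ.ker) ^ 5 = 1 := a.2
        have hb := congrArg Subtype.val ha
        rw [SubmonoidClass.coe_pow, OneMemClass.coe_one] at hb
        rw [← SubmonoidClass.coe_pow, ← map_pow, hb, map_one]; rfl⟩ :
        {t : GL chevE6.Idx F // t ∈ chevE6.diagonalSubgroup F ∧ t ^ 5 = 1})) ?_) (five_torsion hq)
    intro a b h
    have h' := congrArg Subtype.val h
    exact Subtype.ext (Subtype.ext (hk (Subtype.ext h')))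
  have hrng : ψ.range = θ.ker.map φ := by
    rw [MonoidHom.range_comp, Subgroup.range_subtype]
  have hidx : (θ.ker.map φ).index ≤ 5 := by
    refine le_trans (Nat.le_of_dvd (Nat.pos_of_ne_zero Subgroup.index_ne_zero_of_finite)
      (Subgroup.index_map_dvd θ.ker hφ)) ?_
    rwa [Subgroup.index_ker]
  have hc := (θ.ker.map φ).card_mul_index
  rw [hrng] at hψ
  have : 5 ^ d ≤ 5 ^ 7 := by
    rw [← hd, ← hc]
    exact le_trans (Nat.mul_le_mul hψ hidx) (le_of_eq (by norm_num))
  exact (Nat.pow_le_pow_iff_right (by norm_num)).mp this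

/-- A minimal extension of `A₁₂` acts trivially on normal sections of `5`-power order. -/
theorem five_section {F : Type*} [Field F] [Fintype F] (hq : 25 ∣ Fintype.card F - 1)
    {H : Type*} [Group H] [Finite H] (i : H →* GL chevE6.Idx F) (hi : Function.Injective i)
    (hig : ∀ h, i h ∈ chevE6.group F) (π : H →* ↥(alternatingGroup (Fin 12)))
    (hπ : Function.Surjective π) (hmin : ∀ U : Subgroup H, U.map π = ⊤ → U = ⊤)
    (U : Subgroup H) [hUn : U.Normal] (hU : IsPGroup 5 ↥U) (h : H) (u : H) (hu : u ∈ U) :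
    ⁅h, u⁆ ∈ omegaFive U := by
  classical
  haveI : Fact (Nat.Prime 5) := ⟨by norm_num⟩
  haveI := omegaFive_normal U
  let N : Subgroup ↥U := (omegaFive U).subgroupOf U
  letI : CommGroup (↥U ⧸ N) :=
    { (inferInstance : Group (↥U ⧸ N)) with
      mul_comm := by
        intro a b
        obtain ⟨a, rfl⟩ := QuotientGroup.mk'_surjective N a
        obtain ⟨b, rfl⟩ := QuotientGroup.mk'_surjective N b
        show Commute _ _
        rw [← commutatorElement_eq_one_iff_commute, ← map_commutatorElement,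
          QuotientGroup.mk'_apply, QuotientGroup.eq_one_iff, Subgroup.mem_subgroupOf]
        refine Subgroup.subset_closure (Or.inr ⟨a, a.2, b, b.2, ?_⟩)
        simp [commutatorElement_def] }
  have hV5 : ∀ v : ↥U ⧸ N, v ^ 5 = 1 := by
    intro v
    obtain ⟨v, rfl⟩ := QuotientGroup.mk'_surjective N v
    rw [← map_pow, QuotientGroup.mk'_apply, QuotientGroup.eq_one_iff, Subgroup.mem_subgroupOf]
    exact Subgroup.subset_closure (Or.inl ⟨v, v.2, by simp⟩)
  obtain ⟨d, hd7, hd⟩ := five_quotient hq hU (i.comp U.subtype) (hi.comp Subtype.val_injective)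
    (fun x => hig _) (QuotientGroup.mk' N) (QuotientGroup.mk'_surjective N) hV5
  have hNmap : ∀ g : H, N.map (MulAut.conjNormal g : MulAut ↥U).toMonoidHom = N := by
    intro g
    apply le_antisymm
    · rintro _ ⟨x, hx, rfl⟩
      rw [SetLike.mem_coe, Subgroup.mem_subgroupOf] at hx
      rw [Subgroup.mem_subgroupOf]
      show ((MulAut.conjNormal g x : ↥U) : H) ∈ omegaFive U
      rw [MulAut.conjNormal_apply]
      exact (omegaFive_normal U).conj_mem _ hx g
    · intro x hx
      refine ⟨MulAut.conjNormal g⁻¹ x, ?_, by simp⟩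
      rw [SetLike.mem_coe, Subgroup.mem_subgroupOf] at *
      rw [MulAut.conjNormal_apply]
      exact (omegaFive_normal U).conj_mem _ hx _
  let Φ : H →* MulAut (↥U ⧸ N) :=
    { toFun := fun g => QuotientGroup.congr N N (MulAut.conjNormal g) (hNmap g)
      map_one' := MulEquiv.ext fun x => by
        obtain ⟨x, rfl⟩ := QuotientGroup.mk'_surjective N x
        simp
      map_mul' := fun g g' => MulEquiv.ext fun x => by
        obtain ⟨x, rfl⟩ := QuotientGroup.mk'_surjective N x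
        simp only [map_mul, MulAut.mul_apply, QuotientGroup.mk'_apply, QuotientGroup.congr_mk]
        rfl }
  suffices hker : Φ.ker = ⊤ by
    have h1 : Φ h = 1 := MonoidHom.mem_ker.mp (hker ▸ Subgroup.mem_top h)
    have h2 : QuotientGroup.mk' N (MulAut.conjNormal h ⟨u, hu⟩) = QuotientGroup.mk' N ⟨u, hu⟩ :=
      DFunLike.congr_fun h1 (QuotientGroup.mk' N ⟨u, hu⟩)
    rw [← mul_inv_eq_one, ← map_inv, ← map_mul, QuotientGroup.mk'_apply, QuotientGroup.eq_one_iff,
      Subgroup.mem_subgroupOf, Subgroup.coe_mul, Subgroup.coe_inv, MulAut.conjNormal_apply] at h2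
    rwa [commutatorElement_def]
  refine hmin _ ?_
  haveI : IsSimpleGroup ↥(alternatingGroup (Fin 12)) := alternatingGroup.isSimpleGroup (by simp)
  rcases ((MonoidHom.normal_ker Φ).map π hπ).eq_bot_or_eq_top with hb | ht
  · exfalso
    have hle : Φ.ker ≤ π.ker := (Subgroup.map_eq_bot_iff _).mp hb
    have h1 := Subgroup.index_dvd_of_le hle
    rw [Subgroup.index_ker, Subgroup.index_ker, MonoidHom.range_eq_top.mpr hπ, Subgroup.card_top] at h1
    have h2 : 2 * Nat.card ↥(alternatingGroup (Fin 12)) ∣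
        2 * ∏ j : Fin d, (5 ^ d - 5 ^ (j : ℕ)) :=
      Nat.mul_dvd_mul_left 2 ((h1.trans (Subgroup.card_subgroup_dvd_card _)).trans (card_mulAut_five hV5 hd))
    rw [card_alt_twelve] at h2
    interval_cases d <;> simp [Fin.prod_univ_succ] at h2
  · exact ht

/-- The kernel of a minimal extension of `A₁₂` inside the group of type E6 has order prime to
five. -/
theorem kernel_five {F : Type*} [Field F] [Fintype F] (hq : 25 ∣ Fintype.card F - 1) {H : Type*}
    [Group H] [Finite H] (i : H →* GL Cfsg.Lie.chevE6.Idx F) (hi : Function.Injective i)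
    (hig : ∀ h, i h ∈ Cfsg.Lie.chevE6.group F) (π : H →* ↥(alternatingGroup (Fin 12)))
    (hπ : Function.Surjective π) (hmin : ∀ U : Subgroup H, U.map π = ⊤ → U = ⊤) :
    ¬ 5 ∣ Nat.card ↥π.ker := by
  classical
  haveI : Fact (Nat.Prime 5) := ⟨by norm_num⟩
  haveI : IsSimpleGroup ↥(alternatingGroup (Fin 12)) := alternatingGroup.isSimpleGroup (by simp)
  have hA : commutator ↥(alternatingGroup (Fin 12)) = ⊤ := by
    refine (inferInstance : (commutator ↥(alternatingGroup (Fin 12))).Normal).eq_bot_or_eq_top.resolve_left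
      fun h => ?_
    obtain ⟨a, b, x, ha5, hb5, hab, hxa, hxb, ha, hb, -⟩ := comm_perm_twelve
    have : ⁅x, b⁆ = 1 := by
      rw [← Subgroup.mem_bot, ← h]
      exact Subgroup.commutator_mem_commutator trivial trivial
    rw [commutatorElement_eq_one_iff_mul_comm] at this
    rw [this, mul_inv_cancel_right] at hxb
    have h2 : b * b = 1 := by rw [mul_eq_one_iff_eq_inv]; exact hxb
    have h3 := orderOf_dvd_of_pow_eq_one ((pow_two b).trans h2)
    rw [hb] at h3
    norm_num at h3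
  have hperf : commutator H = ⊤ := hmin _ (by
    rw [commutator_def, Subgroup.map_commutator, ← MonoidHom.range_eq_map,
      MonoidHom.range_eq_top.mpr hπ, ← commutator_def, hA])
  -- the kernel lies in the Frattini subgroup
  have hfr : π.ker ≤ frattini H := by
    refine le_iInf₂ fun M hM => ?_
    by_contra hle
    have hlt : M < M ⊔ π.ker := lt_of_le_of_ne le_sup_left fun e => hle (e ▸ le_sup_right)
    refine hM.1 (hmin M ?_)
    have htop := hM.2 _ hlt
    have := congrArg (Subgroup.map π) htop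
    rwa [Subgroup.map_sup, (Subgroup.map_eq_bot_iff π.ker).mpr le_rfl, sup_bot_eq,
      ← MonoidHom.range_eq_map, MonoidHom.range_eq_top.mpr hπ] at this
  haveI := frattini_nilpotent (G := H)
  haveI : Group.IsNilpotent ↥π.ker :=
    (Group.isNilpotent_congr (Subgroup.subgroupOfEquivOfLe hfr)).mp inferInstance
  intro h5
  obtain ⟨P⟩ : Nonempty (Sylow 5 ↥π.ker) := inferInstance
  haveI hPn : (P : Subgroup ↥π.ker).Normal :=
    Sylow.normal_of_normalizerCondition Group.normalizerCondition_of_isNilpotent P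
  haveI hPc : (P : Subgroup ↥π.ker).Characteristic := P.characteristic_of_normal hPn
  let K5 : Subgroup H := (P : Subgroup ↥π.ker).map π.ker.subtype
  haveI hK5n : K5.Normal := ConjAct.normal_of_characteristic_of_normal
  have hK5 : IsPGroup 5 ↥K5 := P.2.map _
  have hK5ne : K5 ≠ ⊥ := by
    intro h
    have : (P : Subgroup ↥π.ker) = ⊥ := (Subgroup.map_eq_bot_iff_of_injective _ π.ker.subtype_injective).mp h
    exact P.ne_bot_of_dvd_card h5 this
  -- it is central
  have hcent : ∀ n : ℕ, ∀ U : Subgroup H, U.Normal → IsPGroup 5 ↥U → Nat.card ↥U = n →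
      U ≤ Subgroup.center H := by
    intro n
    induction n using Nat.strong_induction_on with
    | _ n ih =>
      intro U hUn hU hn
      rcases eq_or_ne U ⊥ with rfl | hne
      · exact bot_le
      haveI := hUn
      have hlt : Nat.card ↥(omegaFive U) < n := by
        refine hn ▸ lt_of_le_of_ne (Subgroup.card_le_of_le (omegaFive_le U)) fun e => ?_
        exact omegaFive_lt hU hne (Subgroup.eq_of_le_of_card_ge (omegaFive_le U) e.ge)
      have hΩ : omegaFive U ≤ Subgroup.center H :=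
        ih _ hlt _ (omegaFive_normal U) (hU.to_le (omegaFive_le U)) rfl
      intro u hu
      rw [Subgroup.mem_center_iff]
      let f : H →* ↥(Subgroup.center H) :=
        MonoidHom.mk' (fun h => ⟨⁅h, u⁆, hΩ (five_section hq i hi hig π hπ hmin U hU h u hu)⟩)
          fun g g' => Subtype.ext (by
            show ⁅g * g', u⁆ = ⁅g, u⁆ * ⁅g', u⁆
            have hz : ⁅g', u⁆ ∈ Subgroup.center H := hΩ (five_section hq i hi hig π hπ hmin U hU g' u hu)
            calc ⁅g * g', u⁆ = g * ⁅g', u⁆ * g⁻¹ * ⁅g, u⁆ := by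
                  simp only [commutatorElement_def]; group
              _ = ⁅g', u⁆ * ⁅g, u⁆ := by
                  rw [Subgroup.mem_center_iff.mp hz g, mul_inv_cancel_right]
              _ = _ := (Subgroup.mem_center_iff.mp hz _).symm)
      intro h
      have hf : commutator H ≤ f.ker := by
        rw [commutator_def, Subgroup.commutator_le]
        intro a _ b _
        rw [MonoidHom.mem_ker, map_commutatorElement, commutatorElement_eq_one_iff_mul_comm]
        exact Subtype.ext (Subgroup.mem_center_iff.mp (f b).2 _)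
      rw [hperf] at hf
      have := congrArg Subtype.val (MonoidHom.mem_ker.mp (hf (Subgroup.mem_top h)))
      exact commutatorElement_eq_one_iff_mul_comm.mp this
  have hZ : K5 ≤ Subgroup.center H := hcent _ K5 hK5n hK5 rfl
  -- a Sylow subgroup above `⟨a, a'⟩` is abelian
  obtain ⟨a, b, x, ha5, hb5, hab, hxa, hxb, ha, hb, hinf⟩ := comm_perm_twelve
  let A : Subgroup ↥(alternatingGroup (Fin 12)) := Subgroup.zpowers a ⊔ Subgroup.zpowers b
  have hbn : Subgroup.zpowers b ≤ Subgroup.centralizer (Subgroup.zpowers a : Set _) := by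
    rw [Subgroup.zpowers_le, Subgroup.mem_centralizer_iff]
    rintro y hy
    obtain ⟨m, rfl⟩ := Subgroup.mem_zpowers_iff.mp hy
    exact ((show Commute b a from hab.symm).zpow_right m).symm.eq
  have hAmem : ∀ y ∈ A, ∃ m n : ℤ, y = a ^ m * b ^ n := by
    intro y hy
    have hc : ∀ z ∈ Subgroup.zpowers b, z ∈ Subgroup.normalizer (Subgroup.zpowers a : Set _) :=
      fun z hz => Subgroup.centralizer_le_normalizer _ (hbn hz)
    rw [← SetLike.mem_coe, Subgroup.coe_mul_of_right_le_normalizer_left _ _ hc] at hy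
    obtain ⟨p, hp, q, hq', rfl⟩ := hy
    obtain ⟨m, rfl⟩ := Subgroup.mem_zpowers_iff.mp hp
    obtain ⟨n, rfl⟩ := Subgroup.mem_zpowers_iff.mp hq'
    exact ⟨m, n, rfl⟩
  have hA25 : Nat.card ↥A = 25 := by
    have hbij : Function.Bijective (fun pq : ↥(Subgroup.zpowers a) × ↥(Subgroup.zpowers b) =>
        (⟨(pq.1 : ↥(alternatingGroup (Fin 12))) * pq.2,
          mul_mem (Subgroup.mem_sup_left pq.1.2) (Subgroup.mem_sup_right pq.2.2)⟩ : ↥A)) := by
      constructor
      · intro p q h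
        exact Subgroup.mul_injective_of_disjoint (disjoint_iff.mpr hinf) (congrArg Subtype.val h)
      · rintro ⟨y, hy⟩
        obtain ⟨m, n, rfl⟩ := hAmem y hy
        exact ⟨(⟨a ^ m, Subgroup.zpow_mem_zpowers a m⟩, ⟨b ^ n, Subgroup.zpow_mem_zpowers b n⟩), rfl⟩
    rw [← Nat.card_congr (Equiv.ofBijective _ hbij), Nat.card_prod, Nat.card_zpowers, Nat.card_zpowers,
      ha, hb]
  obtain ⟨Q⟩ : Nonempty (Sylow 5 ↥(A.comap π)) := inferInstance
  let Sy : Subgroup H := (Q : Subgroup ↥(A.comap π)).map (A.comap π).subtype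
  have hSA : Sy ≤ A.comap π := Subgroup.map_subtype_le _
  have hSidx : ¬ 5 ∣ Sy.relIndex (A.comap π) := by
    rw [Subgroup.relIndex, show Sy.subgroupOf (A.comap π) = (Q : Subgroup ↥(A.comap π)) from
      Subgroup.comap_map_eq_self_of_injective (A.comap π).subtype_injective _]
    exact Q.not_dvd_index
  have hS5 : IsPGroup 5 ↥Sy := Q.2.map _
  -- `K5` lies in it
  have hK5S : K5 ≤ Sy := by
    have hle : K5 ≤ A.comap π := by
      rintro _ ⟨z, -, rfl⟩
      show π (z : H) ∈ A
      rw [MonoidHom.mem_ker.mp z.2]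
      exact one_mem _
    intro z hz
    obtain ⟨g, hg⟩ := F4AltSection.exists_conj_into (Sy.subgroupOf (A.comap π)) hSidx
      (P := K5.subgroupOf (A.comap π)) hK5.comap_subtype
    have := hg ⟨z, hle hz⟩ hz
    rw [Subgroup.mem_subgroupOf] at this
    rw [Subgroup.coe_mul, Subgroup.coe_mul, Subgroup.coe_inv,
      Subgroup.mem_center_iff.mp (hZ hz) _, mul_inv_cancel_right] at this
    exact this
  have hSker : ∀ s ∈ Sy, π s = 1 → s ∈ K5 := by
    intro s hs hs1
    obtain ⟨m, hm⟩ := hS5 ⟨s, hs⟩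
    have hsK : (⟨s, hs1⟩ : ↥π.ker) ^ (5 ^ m) = 1 := Subtype.ext (by
      simpa using congrArg Subtype.val hm)
    have hz : IsPGroup 5 ↥(Subgroup.zpowers (⟨s, hs1⟩ : ↥π.ker)) := by
      rintro ⟨y, k, rfl⟩
      exact ⟨m, Subtype.ext (by
        show ((⟨s, hs1⟩ : ↥π.ker) ^ k) ^ (5 ^ m) = 1
        rw [← zpow_natCast, ← zpow_mul, mul_comm, zpow_mul, zpow_natCast, hsK, one_zpow])⟩
    obtain ⟨R, hR⟩ := hz.exists_le_sylow
    haveI := Sylow.normal_of_normalizerCondition Group.normalizerCondition_of_isNilpotent R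
    have : R = P := by
      obtain ⟨g, hg⟩ := MulAction.exists_smul_eq ↥π.ker P R
      rw [← hg]
      exact Sylow.smul_eq_iff_mem_normalizer.mpr ((Subgroup.normalizer_eq_top (H := (P : Subgroup ↥π.ker))).symm ▸ Subgroup.mem_top g)
    exact ⟨⟨s, hs1⟩, this ▸ hR (Subgroup.mem_zpowers _), rfl⟩
  have hSmap : ∀ y ∈ A, ∃ s ∈ Sy, π s = y := by
    intro y hy
    let ρ : ↥(A.comap π) →* ↥A := (π.comp (A.comap π).subtype).codRestrict A fun z => z.2
    have hρ : Function.Surjective ρ := fun z => by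
      obtain ⟨w, hw⟩ := hπ z.1
      exact ⟨⟨w, show π w ∈ A from hw ▸ z.2⟩, Subtype.ext hw⟩
    have hQ : (Q : Subgroup ↥(A.comap π)).map ρ = ⊤ := by
      refine Subgroup.index_eq_one.mp (Nat.dvd_one.mp ?_)
      have h1 : ((Q : Subgroup ↥(A.comap π)).map ρ).index ∣ 25 := hA25 ▸ Subgroup.index_dvd_card _
      have h2 := (Subgroup.index_map_dvd (Q : Subgroup ↥(A.comap π)) hρ)
      obtain ⟨j, hj, he⟩ := (Nat.dvd_prime_pow (p := 5) (m := 2) (by norm_num)).mp (by simpa using h1)
      rcases j with _ | j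
      · rw [he, pow_zero]
      · exact absurd ((dvd_pow_self 5 (Nat.succ_ne_zero j)).trans (he ▸ h2)) Q.not_dvd_index
    obtain ⟨s, hs, hsy⟩ : (⟨y, hy⟩ : ↥A) ∈ (Q : Subgroup ↥(A.comap π)).map ρ := hQ ▸ Subgroup.mem_top _
    exact ⟨(s : H), ⟨s, hs, rfl⟩, congrArg Subtype.val hsy⟩
  obtain ⟨ya, hya, hpa⟩ := hSmap a (Subgroup.mem_sup_left (Subgroup.mem_zpowers a))
  obtain ⟨yb, hyb, hpb⟩ := hSmap b (Subgroup.mem_sup_right (Subgroup.mem_zpowers b))
  have hgen : ∀ s ∈ Sy, ∃ m n : ℤ, ∃ z ∈ K5, s = ya ^ m * yb ^ n * z := by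
    intro s hs
    obtain ⟨m, n, hmn⟩ := hAmem (π s) (hSA hs)
    refine ⟨m, n, (ya ^ m * yb ^ n)⁻¹ * s,
      hSker _ (mul_mem (inv_mem (mul_mem (zpow_mem hya m) (zpow_mem hyb n))) hs) ?_, by group⟩
    rw [map_mul, map_inv, map_mul, map_zpow, map_zpow, hpa, hpb, hmn, inv_mul_cancel]
  obtain ⟨X, hX⟩ := hπ x
  obtain ⟨h, hhA, hh⟩ := exists_normalizing π A Sy hS5 hSA hSidx X (by
    rw [hX]
    intro y hy
    obtain ⟨m, n, rfl⟩ := hAmem y hy
    rw [← MulAut.conj_apply, map_mul, map_zpow, map_zpow, MulAut.conj_apply, MulAut.conj_apply,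
      hxa, hxb]
    exact mul_mem (zpow_mem (Subgroup.mem_sup_left (Subgroup.mem_zpowers a)) m)
      (zpow_mem (inv_mem (Subgroup.mem_sup_right (Subgroup.mem_zpowers b))) n))
  have hconjA : ∀ y ∈ A, π h * y * (π h)⁻¹ = y := by
    intro y hy
    obtain ⟨m, n, hm⟩ := hAmem (π h) hhA
    obtain ⟨m', n', rfl⟩ := hAmem y hy
    have hc1 : Commute a b := hab
    have : Commute (π h) (a ^ m' * b ^ n') := by
      rw [hm]
      exact (((Commute.refl a).zpow_zpow m m').mul_right (hc1.zpow_zpow m n')).mul_left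
        ((hc1.symm.zpow_zpow n m').mul_right ((Commute.refl b).zpow_zpow n n'))
    rw [this.eq, mul_inv_cancel_right]
  let e := ⁅ya, yb⁆
  have heK : e ∈ K5 := hSker _ (by
      simp only [e, commutatorElement_def]
      exact mul_mem (mul_mem (mul_mem hya hyb) (inv_mem hya)) (inv_mem hyb))
    (by simp only [e, map_commutatorElement, hpa, hpb]; exact commutatorElement_eq_one_iff_mul_comm.mpr hab)
  have hec : ∀ g : H, g * e = e * g := fun g => Subgroup.mem_center_iff.mp (hZ heK) g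
  -- the conjugate of `ya` is `ya` times a central element, that of `yb` its inverse times one
  set w := h * X with hw
  obtain ⟨za, hza, hwa⟩ : ∃ z ∈ K5, w * ya * w⁻¹ = ya * z := by
    refine ⟨ya⁻¹ * (w * ya * w⁻¹), hSker _ (mul_mem (inv_mem hya) (hh _ hya)) ?_, by group⟩
    rw [hw, map_mul, map_inv, show h * X * ya * (h * X)⁻¹ = h * (X * ya * X⁻¹) * h⁻¹ by group, map_mul,
      map_mul, map_mul, map_mul, map_inv, map_inv, hX, hpa, hxa,
      hconjA a (Subgroup.mem_sup_left (Subgroup.mem_zpowers a)), inv_mul_cancel]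
  obtain ⟨zb, hzb, hwb⟩ : ∃ z ∈ K5, w * yb * w⁻¹ = yb⁻¹ * z := by
    refine ⟨yb * (w * yb * w⁻¹), hSker _ (mul_mem hyb (hh _ hyb)) ?_, by group⟩
    rw [hw, map_mul, show h * X * yb * (h * X)⁻¹ = h * (X * yb * X⁻¹) * h⁻¹ by group, map_mul,
      map_mul, map_mul, map_mul, map_inv, map_inv, hX, hpb, hxb,
      hconjA _ (inv_mem (Subgroup.mem_sup_right (Subgroup.mem_zpowers b))), mul_inv_cancel]
  have hee : e = e⁻¹ := by
    have hza' : ∀ g : H, g * za = za * g := fun g => Subgroup.mem_center_iff.mp (hZ hza) g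
    have hzb' : ∀ g : H, g * zb = zb * g := fun g => Subgroup.mem_center_iff.mp (hZ hzb) g
    calc e = w * e * w⁻¹ := by rw [hec w, mul_inv_cancel_right]
      _ = ⁅w * ya * w⁻¹, w * yb * w⁻¹⁆ := by simp only [e, commutatorElement_def]; group
      _ = ⁅ya, yb⁻¹⁆ := by
          rw [hwa, hwb]
          simp only [commutatorElement_def, mul_inv_rev, inv_inv]
          calc ya * za * (yb⁻¹ * zb) * (za⁻¹ * ya⁻¹) * (zb⁻¹ * yb)
              = ya * (za * (yb⁻¹ * zb)) * za⁻¹ * ya⁻¹ * zb⁻¹ * yb := by group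
            _ = ya * ((yb⁻¹ * zb) * za) * za⁻¹ * ya⁻¹ * zb⁻¹ * yb := by rw [← hza' (yb⁻¹ * zb)]
            _ = ya * yb⁻¹ * (zb * ya⁻¹) * zb⁻¹ * yb := by group
            _ = ya * yb⁻¹ * (ya⁻¹ * zb) * zb⁻¹ * yb := by rw [← hzb' ya⁻¹]
            _ = _ := by group
      _ = yb⁻¹ * e⁻¹ * yb := by simp only [e, commutatorElement_def]; group
      _ = e⁻¹ := by
          have : Commute yb e := hec yb
          rw [(this.inv_left.inv_right).eq, inv_mul_cancel_right]
  have he1 : e = 1 := by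
    obtain ⟨m, hm⟩ := hS5 ⟨e, hK5S heK⟩
    have h2 : orderOf e ∣ 2 := orderOf_dvd_of_pow_eq_one (by rw [sq]; nth_rewrite 2 [hee]; exact mul_inv_cancel _)
    have h5' : orderOf e ∣ 5 ^ m := orderOf_dvd_of_pow_eq_one (by simpa using congrArg Subtype.val hm)
    exact orderOf_eq_one_iff.mp (Nat.eq_one_of_dvd_coprimes (Nat.Coprime.pow_right m (by norm_num)) h2 h5')
  have hScomm : ∀ s t : ↥Sy, s * t = t * s := by
    intro s t
    apply Subtype.ext
    obtain ⟨m, n, z, hz, hs⟩ := hgen s.1 s.2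
    obtain ⟨m', n', z', hz', ht⟩ := hgen t.1 t.2
    have hc : Commute ya yb := commutatorElement_eq_one_iff_commute.mp he1
    have cz : ∀ g : H, Commute g z := fun g => Subgroup.mem_center_iff.mp (hZ hz) g
    have cz' : ∀ g : H, Commute g z' := fun g => Subgroup.mem_center_iff.mp (hZ hz') g
    show (s : H) * t = t * s
    rw [hs, ht]
    refine (Commute.mul_left (Commute.mul_right ?_ (cz' _)) (cz _).symm).eq
    exact (((Commute.refl ya).zpow_zpow m m').mul_right (hc.zpow_zpow m n')).mul_left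
      ((hc.symm.zpow_zpow n m').mul_right ((Commute.refl yb).zpow_zpow n n'))
  haveI : IsMulCommutative ↥Sy := ⟨⟨hScomm⟩⟩
  letI : CommGroup ↥Sy := { (inferInstance : Group ↥Sy) with mul_comm := hScomm }
  -- transfer into it
  have hidx5 : ¬ 5 ∣ Sy.index := by
    rw [← Subgroup.relIndex_mul_index hSA]
    refine fun hd => ?_
    rcases (Nat.Prime.dvd_mul (by norm_num)).mp hd with h1 | h1
    · exact hSidx h1
    · rw [Subgroup.index_comap_of_surjective _ hπ] at h1
      have h2 := A.card_mul_index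
      rw [hA25] at h2
      obtain ⟨j, hj⟩ := h1
      have h3 := card_alt_twelve
      rw [← h2, hj] at h3
      omega
  obtain ⟨z, hz, hz1⟩ := (K5.bot_or_exists_ne_one).resolve_left hK5ne
  let τ : H →* ↥Sy := MonoidHom.transfer (MonoidHom.id ↥Sy)
  have hτ : τ z = 1 := by
    have hle : commutator H ≤ τ.ker := by
      rw [commutator_def, Subgroup.commutator_le]
      intro p _ q _
      rw [MonoidHom.mem_ker, map_commutatorElement, commutatorElement_eq_one_iff_mul_comm]
      exact hScomm _ _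
    rw [hperf] at hle
    exact MonoidHom.mem_ker.mp (hle (Subgroup.mem_top z))
  have key : ∀ (k : ℕ) (g₀ : H), g₀⁻¹ * z ^ k * g₀ ∈ Sy → g₀⁻¹ * z ^ k * g₀ = z ^ k := by
    intro k g₀ _
    have : z ^ k ∈ Subgroup.center H := pow_mem (hZ hz) k
    rw [mul_assoc, ← Subgroup.mem_center_iff.mp this g₀, inv_mul_cancel_left]
  have hzI : z ^ Sy.index = 1 := by
    have := MonoidHom.transfer_eq_pow (MonoidHom.id ↥Sy) z key
    rw [show MonoidHom.transfer (MonoidHom.id ↥Sy) z = τ z from rfl, hτ] at this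
    exact (congrArg Subtype.val this).symm
  obtain ⟨m, hm⟩ := hS5 ⟨z, hK5S hz⟩
  refine hz1 (orderOf_eq_one_iff.mp (Nat.eq_one_of_dvd_coprimes
    (Nat.Coprime.pow_left m ((Nat.Prime.coprime_iff_not_dvd (by norm_num)).mpr hidx5))
    (orderOf_dvd_of_pow_eq_one (by simpa using congrArg Subtype.val hm))
    (orderOf_dvd_of_pow_eq_one hzI)))

end CfsgLib.E6Alt65
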