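import Cfsg.Agent.E6AltSection65.Defs
import Mathlib.GroupTheory.Perm.Sign

/-!
The alternating group of degree twelve is generated by the copy of degree seven on the last seven
points and the centraliser of the five-cycle on the middle points.
-/

set_option autoImplicit false

namespace CfsgLib.E6Alt65

open Equiv

/-- The last seven of twelve points. -/
def last7 : Fin 7 ≃ {i : Fin 12 // 5 ≤ (i : ℕ)} :=
  ⟨fun i => ⟨⟨i + 5, by omega⟩, by simp⟩, fun i => ⟨i.1 - 5, by omega⟩, fun i => Fin.ext (by simp),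
    fun i => Subtype.ext (Fin.ext (by have := i.2; simp; omega))⟩

/-- The copy of degree seven on the last seven points. -/
def ι7 : ↥(alternatingGroup (Fin 7)) →* ↥(alternatingGroup (Fin 12)) :=
  ((Perm.extendDomainHom last7).comp (alternatingGroup (Fin 7)).subtype).codRestrict _ fun p =>
    Perm.mem_alternatingGroup.mpr (by
      show Perm.sign (Perm.extendDomain (p : Perm (Fin 7)) last7) = 1
      rw [Perm.sign_extendDomain]
      exact Perm.mem_alternatingGroup.mp p.2)

theorem ι7_injective : Function.Injective ι7 := fun _ _ h =>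
  Subtype.ext (Perm.extendDomainHom_injective last7 (congrArg Subtype.val h))

theorem ι7_fix (p : ↥(alternatingGroup (Fin 7))) {i : Fin 12} (hi : (i : ℕ) < 5) :
    (ι7 p : Perm (Fin 12)) i = i :=
  Perm.extendDomain_apply_not_subtype (p : Perm (Fin 7)) last7 (by omega)

/-- The copy of degree seven commutes with permutations of the first five points. -/
theorem ι7_commute (p : ↥(alternatingGroup (Fin 7))) {c : ↥(alternatingGroup (Fin 12))}
    (hc : ∀ i : Fin 12, 5 ≤ (i : ℕ) → (c : Perm (Fin 12)) i = i) : Commute (ι7 p) c := by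
  have hd : Perm.Disjoint (ι7 p : Perm (Fin 12)) (c : Perm (Fin 12)) := fun i => by
    by_cases hi : (i : ℕ) < 5
    · exact Or.inl (ι7_fix p hi)
    · exact Or.inr (hc i (by omega))
  exact Subtype.ext hd.commute.eq

/-- `(0 1 j)`. -/
def tj (j : Fin 12) (hj : 2 ≤ (j : ℕ)) : ↥(alternatingGroup (Fin 12)) :=
  ⟨swap 0 1 * swap 1 j, Perm.mem_alternatingGroup.mpr (by
    rw [map_mul, Perm.sign_swap (by decide), Perm.sign_swap (fun h => by
      have := congrArg Fin.val h; simp at this; omega)]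
    rfl)⟩

/-- Conjugators moving `10` to the middle points. -/
def mv (j : Fin 5) : ↥(alternatingGroup (Fin 7)) :=
  ⟨swap 5 (Fin.castLE (by omega) j) * swap (Fin.castLE (by omega) j) 6,
    Perm.mem_alternatingGroup.mpr (by revert j; decide)⟩

theorem conj_mv : ∀ k : Fin 5, ι7 (mv k) * tj 10 (by decide) * (ι7 (mv k))⁻¹ =
    tj ⟨k + 5, by omega⟩ (by simp) := by decide +kernel

theorem swap_three : ∀ x y : Fin 12, x ≠ 0 → y ≠ 0 → x ≠ y →
    swap x y = swap 0 x * swap 0 y * swap 0 x := by decide +kernel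

theorem eq_top_of_mem {M : Subgroup ↥(alternatingGroup (Fin 12))} (hι : ∀ p, ι7 p ∈ M)
    {b : ↥(alternatingGroup (Fin 12))}
    (hb : ∀ j : Fin 12, (b : Perm (Fin 12)) j = if (j : ℕ) < 5 ∨ 10 ≤ (j : ℕ) then j
      else if (j : ℕ) = 9 then 5 else j + 1)
    (hC : ∀ q, Commute q b → q ∈ M) : M = ⊤ := by
  have hb0 : (b : Perm (Fin 12)) = swap 5 6 * swap 6 7 * swap 7 8 * swap 8 9 := by
    have : ∀ j : Fin 12, (swap 5 6 * swap 6 7 * swap 7 8 * swap 8 9 : Perm (Fin 12)) j =
        if (j : ℕ) < 5 ∨ 10 ≤ (j : ℕ) then j else if (j : ℕ) = 9 then 5 else j + 1 := by decide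
    exact Equiv.ext fun j => (hb j).trans (this j).symm
  have hout : ∀ j : Fin 12, ∀ hj : 2 ≤ (j : ℕ), ((j : ℕ) < 5 ∨ 10 ≤ (j : ℕ)) → tj j hj ∈ M := by
    intro j hj hjo
    refine hC _ (Subtype.ext ?_)
    show (swap 0 1 * swap 1 j : Perm (Fin 12)) * (b : Perm (Fin 12)) =
      (b : Perm (Fin 12)) * (swap 0 1 * swap 1 j)
    rw [hb0]
    revert hjo hj; revert j; decide +kernel
  have hall : ∀ j : Fin 12, ∀ hj : 2 ≤ (j : ℕ), tj j hj ∈ M := by
    intro j hj
    by_cases hjo : (j : ℕ) < 5 ∨ 10 ≤ (j : ℕ)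
    · exact hout j hj hjo
    · have key := conj_mv
      have hk : (j : ℕ) - 5 < 5 := by omega
      have h := key ⟨(j : ℕ) - 5, hk⟩
      have hj' : (⟨(j : ℕ) - 5 + 5, by omega⟩ : Fin 12) = j := Fin.ext (by simp; omega)
      have : tj ⟨(j : ℕ) - 5 + 5, by omega⟩ (by simp) ∈ M := by
        rw [← h]
        exact mul_mem (mul_mem (hι _) (hout 10 (by decide) (by decide))) (inv_mem (hι _))
      simpa only [hj'] using this
  set M' := M.map (alternatingGroup (Fin 12)).subtype
  have htj : ∀ j : Fin 12, ∀ hj : 2 ≤ (j : ℕ), swap 0 1 * swap 1 j ∈ M' := fun j hj =>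
    ⟨tj j hj, hall j hj, rfl⟩
  have h1 : ∀ j : Fin 12, 1 ≤ (j : ℕ) → swap 0 1 * swap 0 j ∈ M' := by
    intro j hj
    by_cases hj1 : (j : ℕ) = 1
    · rw [show j = 1 from Fin.ext hj1, swap_mul_self]; exact one_mem _
    · have e : ∀ j : Fin 12, 2 ≤ (j : ℕ) → swap 0 1 * swap 0 j = (swap 0 1 * swap 1 j)⁻¹ := by
        decide +kernel
      rw [e j (by omega)]
      exact inv_mem (htj j (by omega))
  have hpair : ∀ i j : Fin 12, 1 ≤ (i : ℕ) → 1 ≤ (j : ℕ) → swap 0 i * swap 0 j ∈ M' := by
    intro i j hi hj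
    have := mul_mem (inv_mem (h1 i hi)) (h1 j hj)
    rwa [mul_inv_rev, swap_inv, swap_inv, mul_assoc, ← mul_assoc (swap 0 1), swap_mul_self,
      one_mul] at this
  have hsw : ∀ x y : Fin 12, x ≠ y → swap 0 1 * swap x y ∈ M' ∧ swap x y * swap 0 1 ∈ M' := by
    intro x y hxy
    have hinv : swap 0 1 * swap x y ∈ M' → swap x y * swap 0 1 ∈ M' := fun h => by
      simpa [mul_inv_rev] using inv_mem h
    suffices h : swap 0 1 * swap x y ∈ M' from ⟨h, hinv h⟩
    by_cases hx : (x : ℕ) = 0
    · rw [show x = 0 from Fin.ext hx]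
      exact h1 y (by have : (x : ℕ) ≠ y := fun e => hxy (Fin.ext e); omega)
    by_cases hy : (y : ℕ) = 0
    · rw [show y = 0 from Fin.ext hy, swap_comm x 0]
      exact h1 x (by omega)
    have e : swap x y = swap 0 x * swap 0 y * swap 0 x :=
      swap_three x y (fun e => hx (congrArg Fin.val e)) (fun e => hy (congrArg Fin.val e)) hxy
    rw [e, ← mul_assoc, ← mul_assoc, mul_assoc (swap 0 1 * swap 0 x)]
    exact mul_mem (h1 x (by omega)) (hpair y x (by omega) (by omega))
  have key : ∀ g : Perm (Fin 12), (Perm.sign g = 1 → g ∈ M') ∧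
      (Perm.sign g = -1 → swap 0 1 * g ∈ M') := by
    intro g
    induction g using Perm.swap_induction_on with
    | one => exact ⟨fun _ => one_mem _, fun h => absurd h (by simp)⟩
    | swap_mul f x y hxy ih =>
      rw [map_mul, Perm.sign_swap hxy]
      constructor
      · intro h
        have hf : Perm.sign f = -1 := by
          rcases Int.units_eq_one_or (Perm.sign f) with h' | h'
          · rw [h'] at h; exact absurd h (by decide)
          · exact h'
        have := mul_mem (hsw x y hxy).2 (ih.2 hf)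
        rwa [mul_assoc, ← mul_assoc (swap 0 1), swap_mul_self, one_mul] at this
      · intro h
        have hf : Perm.sign f = 1 := by simpa using h
        rw [← mul_assoc]
        exact mul_mem (hsw x y hxy).1 (ih.1 hf)
  refine (Subgroup.eq_top_iff' _).mpr fun q => ?_
  obtain ⟨m, hm, e⟩ := (key q).1 (Perm.mem_alternatingGroup.mp q.2)
  exact (Subtype.ext e : m = q) ▸ hm

end CfsgLib.E6Alt65
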