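import Cfsg.Agent.E6AltSection65.WeylSound
import Cfsg.Agent.Chevalley.Parabolic
import Cfsg.Agent.F4AltSection.Torus
import Mathlib.GroupTheory.Sylow

/-!
The index of the monomial subgroup for `25 ∣ q - 1`, the image of a `5`-subgroup in the Weyl group,
and lifting of elements normalising the image of a Sylow subgroup.
-/

set_option autoImplicit false

namespace CfsgLib.E6Alt65

open Cfsg.Lie CfsgLib.Chevalley

local notation "S" => sysE6

variable {F : Type*} [Field F] [Fintype F]

/-- Conjugation by a Frattini argument. -/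
theorem exists_normalizing {H Q : Type*} [Group H] [Finite H] [Group Q] (π : H →* Q) {ℓ : ℕ}
    [Fact ℓ.Prime] (A : Subgroup Q) (P : Subgroup H) (hP : IsPGroup ℓ ↥P) (hPA : P ≤ A.comap π)
    (hidx : ¬ ℓ ∣ P.relIndex (A.comap π)) (x : H)
    (hx : ∀ a ∈ A, π x * a * (π x)⁻¹ ∈ A) :
    ∃ h ∈ A.comap π, ∀ s ∈ P, h * x * s * (h * x)⁻¹ ∈ P := by
  set M := A.comap π
  have hmap : ∀ s ∈ P, x * s * x⁻¹ ∈ M := fun s hs => by
    show π (x * s * x⁻¹) ∈ A
    rw [map_mul, map_mul, map_inv]
    exact hx _ (hPA hs)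
  obtain ⟨g, hg⟩ := F4AltSection.exists_conj_into (P.subgroupOf M) hidx
    (P := (P.map (MulAut.conj x).toMonoidHom).subgroupOf M) ((hP.map _).comap_subtype)
  refine ⟨g, g.2, fun s hs => ?_⟩
  have := hg ⟨x * s * x⁻¹, hmap s hs⟩ (Subgroup.mem_subgroupOf.mpr ⟨s, hs, rfl⟩)
  rw [Subgroup.mem_subgroupOf] at this
  simpa [mul_assoc] using this

/-- The monomial subgroup has index prime to five. -/
theorem five_index_monomial (hq : 25 ∣ Fintype.card F - 1) :
    ¬ 5 ∣ ((chevE6.monomialSubgroup F).subgroupOf (chevE6.group F)).index := by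
  classical
  set T := hSub chevE6 F with hT
  have hN : Nat.card ↥(chevE6.monomialSubgroup F) =
      Nat.card ↥(chevE6.diagonalSubgroup F) * 51840 := by
    have hrange : (Sys.perm S F).range = F4AltSection.weylPerms S := by
      refine le_antisymm ?_ ?_
      · rintro _ ⟨n, rfl⟩
        exact Sys.exists_wperm S F n
      · rintro _ ⟨L, rfl⟩
        exact ⟨Sys.wN S F L, Sys.perm_wN S F L⟩
    have h1 := (Sys.perm S F).ker.card_mul_index
    rw [Subgroup.index_ker, hrange, natCard_weyl, Sys.ker_perm S F] at h1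
    rw [← h1]
    congr 1
    exact Nat.card_congr (Subgroup.subgroupOfEquivOfLe
      (le_sup_left : chevE6.diagonalSubgroup F ≤ chevE6.monomialSubgroup F)).toEquiv
  have h := ((chevE6.monomialSubgroup F).subgroupOf (chevE6.group F)).card_mul_index
  rw [Nat.card_congr (Subgroup.subgroupOfEquivOfLe (Sys.monomial_le_group S F)).toEquiv] at h
  set I := ((chevE6.monomialSubgroup F).subgroupOf (chevE6.group F)).index
  intro h5
  obtain ⟨j, hj⟩ := h5
  have hG := Sys.natCard_group S F
  have e : ((51840 * I : ℕ) : ℤ) = ((Fintype.card F : ℤ) ^ (chevE6.nroots / 2) *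
      Sys.lenSum S (List.range chevE6.rank) (Fintype.card F)) := by
    refine mul_left_cancel₀ (a := (Nat.card ↥(chevE6.diagonalSubgroup F) : ℤ))
      (Int.natCast_ne_zero.mpr Nat.card_pos.ne') ?_
    rw [← Nat.cast_mul, ← mul_assoc, ← hN, h, hG]
    ring
  have hq1 : ((Fintype.card F : ℕ) : ZMod 25) = 1 := by
    rw [← Nat.cast_one, ZMod.natCast_eq_natCast_iff, Nat.ModEq.comm,
      Nat.modEq_iff_dvd' Fintype.card_pos]
    exact hq
  have hW : ((Sys.wSet S (List.range chevE6.rank)).card : ZMod 25) = 15 := by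
    rw [← F4AltSection.natCard_weylPerms, natCard_weyl]
    rfl
  have e' := congrArg (fun z : ℤ => (z : ZMod 25)) e
  simp only [Int.cast_natCast, Int.cast_mul, Int.cast_pow, hq1, one_pow, one_mul,
    Sys.lenSum, Int.cast_sum, Finset.sum_const, nsmul_eq_mul, mul_one, hW] at e'
  rw [hj, show 51840 * (5 * j) = 25 * (10368 * j) by ring, Nat.cast_mul,
    show ((25 : ℕ) : ZMod 25) = 0 from rfl, zero_mul] at e'
  exact absurd e' (by decide)

end CfsgLib.E6Alt65
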