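import Cfsg.Agent.E6AltSection65.Defs
import Cfsg.Agent.F4AltSection.Lift

/-!
Lifts through a kernel of order prime to five, and coordinates in subspaces invariant under diagonal
matrices.
-/

set_option autoImplicit false

namespace CfsgLib.E6Alt65

open scoped Matrix

/-- Two elements of order five over the same element are conjugate by an element over its powers. -/
theorem exists_conj_lift {H Q : Type*} [Group H] [Finite H] [Group Q] [Finite Q] (π : H →* Q)
    (hK5 : ¬ 5 ∣ Nat.card ↥π.ker) {z z1 : H} (hz : z ^ 5 = 1) (hz1 : z1 ^ 5 = 1)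
    (he : π z1 = π z) (hne : π z ≠ 1) :
    ∃ g : H, (∃ i : ℕ, π g = π z ^ i) ∧ g * z1 * g⁻¹ = z := by
  classical
  have : Fact (Nat.Prime 5) := ⟨by norm_num⟩
  have hzne : z ≠ 1 := fun h => hne (by rw [h, map_one])
  have hoz : orderOf z = 5 := orderOf_eq_prime hz hzne
  have hoa : orderOf (π z) = 5 := orderOf_eq_prime (by rw [← map_pow, hz, map_one]) hne
  set A := Subgroup.zpowers (π z) with hA
  set M := A.comap π with hM
  have hzM : Subgroup.zpowers z ≤ M := Subgroup.zpowers_le.mpr (Subgroup.mem_zpowers _)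
  have hz1M : z1 ∈ M := by
    show π z1 ∈ A
    rw [he]; exact Subgroup.mem_zpowers _
  have hcard : Nat.card ↥M ∣ Nat.card ↥π.ker * 5 := by
    have h1 := (π.comp M.subtype).ker.card_mul_index
    rw [← h1, Subgroup.index_ker]
    refine Nat.mul_dvd_mul (Subgroup.card_dvd_of_injective
      ((M.subtype.comp (π.comp M.subtype).ker.subtype).codRestrict π.ker fun k =>
        MonoidHom.mem_ker.mp k.2) fun k l h =>
          Subtype.ext (Subtype.ext (congrArg (fun x : ↥π.ker => (x : H)) h))) ?_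
    rw [← hoa, ← Nat.card_zpowers]
    refine Subgroup.card_dvd_of_le ?_
    rintro _ ⟨m, rfl⟩
    exact m.2
  have hidx : ¬ 5 ∣ ((Subgroup.zpowers z).subgroupOf M).index := by
    intro h5
    have h2 := ((Subgroup.zpowers z).subgroupOf M).card_mul_index
    rw [Nat.card_congr (Subgroup.subgroupOfEquivOfLe hzM).toEquiv, Nat.card_zpowers, hoz] at h2
    rw [← h2, mul_comm (Nat.card ↥π.ker)] at hcard
    exact hK5 (h5.trans ((Nat.mul_dvd_mul_iff_left (by norm_num)).mp hcard))
  obtain ⟨g, hg⟩ := F4AltSection.exists_conj_into _ hidx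
    (P := (Subgroup.zpowers z1).subgroupOf M) (IsPGroup.comap_subtype (IsPGroup.of_card (n := 1) (by
      rw [Nat.card_zpowers, pow_one]
      exact orderOf_eq_prime hz1 fun h => hne (by rw [← he, h, map_one]))))
  have hmem := hg ⟨z1, hz1M⟩ (Subgroup.mem_subgroupOf.mpr (Subgroup.mem_zpowers _))
  rw [Subgroup.mem_subgroupOf] at hmem
  simp only [Subgroup.coe_mul, Subgroup.coe_inv] at hmem
  obtain ⟨j, hj⟩ := (mem_powers_iff_mem_zpowers.mpr hmem :
    ∃ j : ℕ, z ^ j = _)
  obtain ⟨i, hi⟩ := (mem_powers_iff_mem_zpowers.mpr g.2 :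
    ∃ i : ℕ, π z ^ i = _)
  replace hj : z ^ j = (g : H) * z1 * (g : H)⁻¹ := hj
  replace hi : π z ^ i = π g := hi
  refine ⟨g, ⟨i, hi.symm⟩, ?_⟩
  have hπj : π z ^ j = π z ^ 1 := by
    rw [← map_pow, hj, map_mul, map_mul, map_inv, he, ← hi, pow_one,
      (Commute.pow_self (π z) i).eq, mul_inv_cancel_right]
  rw [pow_eq_pow_iff_modEq, hoa, ← hoz, ← pow_eq_pow_iff_modEq, hj, pow_one] at hπj
  exact hπj

/-- Lifting an element which raises an element of order five to a power. -/
theorem exists_lift_pow {H Q : Type*} [Group H] [Finite H] [Group Q] [Finite Q] (π : H →* Q)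
    (hπ : Function.Surjective π) (hK5 : ¬ 5 ∣ Nat.card ↥π.ker) {z : H} (hz : z ^ 5 = 1)
    (hne : π z ≠ 1) {q : Q} {j : ℕ} (hq : q * π z * q⁻¹ = π z ^ j) :
    ∃ y : H, π y = q ∧ y * z * y⁻¹ = z ^ j := by
  obtain ⟨y₀, rfl⟩ := hπ q
  have hzj : π (z ^ j) ≠ 1 := by
    rw [map_pow, ← hq]
    exact fun h => hne (by simpa using h)
  obtain ⟨g, ⟨i, hi⟩, hg⟩ := exists_conj_lift π hK5 (z := z ^ j) (z1 := y₀ * z * y₀⁻¹)
    (by rw [← pow_mul, mul_comm, pow_mul, hz, one_pow]) (by rw [conj_pow, hz]; group)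
    (by rw [map_mul, map_mul, map_inv, hq, map_pow]) hzj
  refine ⟨((z ^ j) ^ i)⁻¹ * g * y₀, ?_, ?_⟩
  · rw [map_mul, map_mul, map_inv, hi, map_pow _ (z ^ j), inv_mul_cancel, one_mul]
  · calc ((z ^ j) ^ i)⁻¹ * g * y₀ * z * (((z ^ j) ^ i)⁻¹ * g * y₀)⁻¹
        = ((z ^ j) ^ i)⁻¹ * (g * (y₀ * z * y₀⁻¹) * g⁻¹) * (z ^ j) ^ i := by group
      _ = z ^ j := by rw [hg, mul_assoc, (Commute.self_pow (z ^ j) i).eq, inv_mul_cancel_left]

section Coord

variable {F : Type*} [Field F] {d : ℕ} {A : Type*}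

/-- Coordinate vectors in the support lie in an invariant subspace. -/
theorem coord_mem (W : Submodule F (Fin d → F)) (χ : Fin d → A → F) (hχ : Function.Injective χ)
    (hW : ∀ a, ∀ v ∈ W, (fun k => χ k a * v k) ∈ W) {v : Fin d → F} (hv : v ∈ W) {k : Fin d}
    (hk : v k ≠ 0) : Pi.single k 1 ∈ W := by
  classical
  suffices h : ∀ n, ∀ v : Fin d → F, (Finset.univ.filter fun l => v l ≠ 0).card = n → v ∈ W →
      v k ≠ 0 → Pi.single k 1 ∈ W from h _ v rfl hv hk
  intro n
  induction n using Nat.strong_induction_on with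
  | _ n ih =>
    intro v hn hv hk
    by_cases hall : ∀ l, l ≠ k → v l = 0
    · have : Pi.single k (1 : F) = (v k)⁻¹ • v := by
        funext l
        by_cases hl : l = k
        · subst hl; simp [hk]
        · simp [hl, hall l hl]
      rw [this]
      exact W.smul_mem _ hv
    · push Not at hall
      obtain ⟨l, hlk, hl⟩ := hall
      obtain ⟨a, ha⟩ := Function.ne_iff.mp (fun h => hlk (hχ h) : χ l ≠ χ k)
      refine ih _ ?_ (fun m => (χ m a - χ l a) * v m) rfl ?_
        (mul_ne_zero (sub_ne_zero.mpr (Ne.symm ha)) hk)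
      · rw [← hn]
        refine Finset.card_lt_card ⟨fun m hm => ?_, fun h => ?_⟩
        · simp only [Finset.mem_filter, Finset.mem_univ, true_and] at hm ⊢
          exact right_ne_zero_of_mul hm
        · have := h (show l ∈ Finset.univ.filter fun l => v l ≠ 0 by simpa using hl)
          simp at this
      · have : (fun m => (χ m a - χ l a) * v m) = (fun m => χ m a * v m) - χ l a • v := by
          funext m; simp [sub_mul]
        rw [this]
        exact W.sub_mem (hW a v hv) (W.smul_mem _ hv)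

theorem eq_top_of_coord (W : Submodule F (Fin d → F)) (h : ∀ k, Pi.single k (1 : F) ∈ W) :
    W = ⊤ := by
  refine eq_top_iff.mpr fun v _ => ?_
  have : v = ∑ k, v k • Pi.single k (1 : F) := by
    funext l
    simp [Finset.sum_apply, Pi.single_apply]
  rw [this]
  exact W.sum_mem fun k _ => W.smul_mem _ (h k)

/-- An element raising diagonal elements to powers moves one coordinate vector to another. -/
theorem exists_coord {G : Type*} [Group G] (ρ : G →* GL (Fin d) F) (W : Submodule F (Fin d → F))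
    (hW : ∀ g : G, ∀ v ∈ W, (ρ g : Matrix (Fin d) (Fin d) F) *ᵥ v ∈ W) (zs : A → G)
    (χ : Fin d → A → F) (hχ : Function.Injective χ)
    (hz : ∀ a, (ρ (zs a) : Matrix (Fin d) (Fin d) F) = Matrix.diagonal fun k => χ k a) {k : Fin d}
    (hk : Pi.single k 1 ∈ W) (g : G) :
    ∃ l, Pi.single l 1 ∈ W ∧ ∀ a, ∀ j : ℕ, g⁻¹ * zs a * g = zs a ^ j → χ l a = χ k a ^ j := by
  set v := (ρ g : Matrix (Fin d) (Fin d) F) *ᵥ Pi.single k 1 with hv
  have hne : v ≠ 0 := by
    intro h
    have := congrArg (fun w => (ρ g⁻¹ : Matrix (Fin d) (Fin d) F) *ᵥ w) h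
    simp only [hv, Matrix.mulVec_mulVec, ← Units.val_mul, ← map_mul, inv_mul_cancel, map_one,
      Units.val_one, Matrix.one_mulVec, Matrix.mulVec_zero] at this
    simpa using congrFun this k
  obtain ⟨l, hl⟩ := Function.ne_iff.mp hne
  refine ⟨l, coord_mem W χ hχ (fun a w hw => ?_) (hW g _ hk) hl, fun a j hj => ?_⟩
  · have := hW (zs a) w hw
    rw [hz] at this
    have e : (fun k => χ k a * w k) = (Matrix.diagonal fun k => χ k a) *ᵥ w :=
      funext fun m => (Matrix.mulVec_diagonal (fun k => χ k a) w m).symm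
    rwa [e]
  · have e : zs a * g = g * zs a ^ j := by rw [← hj]; group
    have h := congrArg (fun x : G => (ρ x : Matrix (Fin d) (Fin d) F) *ᵥ Pi.single k 1) e
    simp only [map_mul, map_pow, Units.val_mul, Units.val_pow_eq_pow_val, ← Matrix.mulVec_mulVec, hz,
      Matrix.diagonal_pow, Matrix.diagonal_mulVec_single, mul_one] at h
    have h' := congrFun h l
    rw [Matrix.mulVec_diagonal, Pi.pow_apply,
      show Pi.single k (χ k a ^ j) = (χ k a ^ j) • (Pi.single k 1 : Fin d → F) by
        rw [← Pi.single_smul', smul_eq_mul, mul_one], Matrix.mulVec_smul, Pi.smul_apply,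
      smul_eq_mul] at h'
    exact mul_right_cancel₀ hl h'

end Coord

end CfsgLib.E6Alt65
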