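import Cfsg.Agent.E6AltSection65.Defs
import Mathlib.GroupTheory.Sylow
import Mathlib.GroupTheory.Nilpotent
import Mathlib.GroupTheory.SpecificGroups.Alternating.Simple
import Mathlib.GroupTheory.SpecificGroups.Alternating.Centralizer
import Mathlib.FieldTheory.Finite.Basic
import Mathlib.LinearAlgebra.Dimension.Constructions

/-!
A nilpotent kernel of a minimal extension of `A_7` or `A_12` acts by scalars in an irreducible
representation of degree 4 or 16, under a fixed-point hypothesis.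
-/

set_option autoImplicit false

namespace CfsgLib.E6Alt65

open scoped Matrix commutatorElement
open Polynomial

section General

theorem mem_of_pow_mem_coprime {G : Type*} [Group G] {S : Subgroup G} {z : G} {m l : ℕ}
    (h : Nat.Coprime m l) (hm : z ^ m ∈ S) (hl : z ^ l ∈ S) : z ∈ S := by
  have key : z = (z ^ m) ^ (Nat.gcdA m l) * (z ^ l) ^ (Nat.gcdB m l) := by
    rw [← zpow_natCast z m, ← zpow_natCast z l, ← zpow_mul, ← zpow_mul, ← zpow_add,
      ← Nat.gcd_eq_gcd_ab, h.gcd_eq_one, Nat.cast_one, zpow_one]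
  rw [key]
  exact mul_mem (zpow_mem hm _) (zpow_mem hl _)

theorem card_fix_modEq {α : Type*} [Finite α] {p : ℕ} [Fact p.Prime] (σ : Equiv.Perm α)
    (h : σ ^ p = 1) : Nat.card α ≡ Nat.card {x : α // σ x = x} [MOD p] := by
  have hP : IsPGroup p ↥(Subgroup.zpowers σ) := by
    rw [IsPGroup]
    rintro ⟨g, m, rfl⟩
    refine ⟨1, Subtype.ext ?_⟩
    simp only [pow_one, SubgroupClass.coe_pow, OneMemClass.coe_one]
    rw [← zpow_natCast, ← zpow_mul, mul_comm, zpow_mul, zpow_natCast, h, one_zpow]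
  have hm := hP.card_modEq_card_fixedPoints α
  refine hm.trans ?_
  apply congrArg (· % p)
  refine Nat.card_congr (Equiv.subtypeEquivRight fun x => ?_)
  rw [MulAction.mem_fixedPoints]
  constructor
  · intro hx
    exact hx ⟨σ, Subgroup.mem_zpowers σ⟩
  · intro hx m
    have hst : σ ∈ MulAction.stabilizer (Equiv.Perm α) x := hx
    have : (m : Equiv.Perm α) ∈ MulAction.stabilizer (Equiv.Perm α) x :=
      (Subgroup.zpowers_le.mpr hst) m.2
    exact this

theorem weight_indep {ι A K V : Type*} [Field K] [AddCommGroup V] [Module K V]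
    (T : A → V →ₗ[K] V) (χ : ι → A → K) :
    ∀ (s : Finset ι) (v : ι → V), (∀ i ∈ s, ∀ a, T a (v i) = χ i a • v i) → Set.InjOn χ ↑s →
      ∑ i ∈ s, v i = 0 → ∀ i ∈ s, v i = 0 := by
  classical
  intro s
  induction s using Finset.induction with
  | empty => intro v _ _ _ i hi; simp at hi
  | @insert j s hj IH =>
    intro v hv hinj h
    rw [Finset.sum_insert hj] at h
    have hs : ∀ i ∈ s, v i = 0 := by
      intro i hi
      have hne : χ i ≠ χ j := by
        intro he
        exact hj (hinj (Finset.mem_insert_self j s) (Finset.mem_insert_of_mem hi) he.symm ▸ hi)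
      obtain ⟨a, ha⟩ := Function.ne_iff.mp hne
      have hsum : ∑ k ∈ s, (χ k a - χ j a) • v k = 0 := by
        have h1 : T a (v j + ∑ k ∈ s, v k) - χ j a • (v j + ∑ k ∈ s, v k) = 0 := by
          rw [h, map_zero, smul_zero, sub_zero]
        rw [map_add, map_sum, hv j (Finset.mem_insert_self j s) a, smul_add, Finset.smul_sum,
          add_sub_add_left_eq_sub, ← Finset.sum_sub_distrib] at h1
        refine Eq.trans (Finset.sum_congr rfl fun k hk => ?_) h1
        rw [hv k (Finset.mem_insert_of_mem hk) a, sub_smul]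
      have := IH (fun k => (χ k a - χ j a) • v k)
        (fun k hk b => by
          rw [map_smul, hv k (Finset.mem_insert_of_mem hk) b, smul_smul, smul_smul, mul_comm])
        (hinj.mono (Finset.coe_subset.mpr (Finset.subset_insert j s))) hsum i hi
      rcases smul_eq_zero.mp this with h0 | h0
      · exact absurd (sub_eq_zero.mp h0) ha
      · exact h0
    intro i hi
    rcases Finset.mem_insert.mp hi with rfl | hi
    · rw [Finset.sum_eq_zero hs, add_zero] at h
      exact h
    · exact hs i hi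

theorem exists_eigen_mem {F M : Type*} [Field F] [Fintype F] [AddCommGroup M] [Module F M]
    (f : Module.End F M) (hf : f ^ Fintype.card F = f) (W : Submodule F M)
    (hW : ∀ w ∈ W, f w ∈ W) {v : M} (hv : v ∈ W) (hv0 : v ≠ 0) :
    ∃ c : F, ∃ w ∈ W, w ≠ 0 ∧ f w = c • w := by
  have key : ∀ l : List F, ∀ v ∈ W, v ≠ 0 → aeval f ((l.map fun c => X - C c).prod) v = 0 →
      ∃ c : F, ∃ w ∈ W, w ≠ 0 ∧ f w = c • w := by
    intro l
    induction l with
    | nil => intro v _ hv0 h; simp at h; exact absurd h hv0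
    | cons c l IH =>
      intro v hv hv0 h
      rw [List.map_cons, List.prod_cons, mul_comm, map_mul, Module.End.mul_apply] at h
      simp only [map_sub, aeval_X, aeval_C, LinearMap.sub_apply,
        Module.algebraMap_end_apply] at h
      by_cases hc : f v - c • v = 0
      · exact ⟨c, v, hv, hv0, sub_eq_zero.mp hc⟩
      · exact IH _ (W.sub_mem (hW v hv) (W.smul_mem c hv)) hc (by simpa using h)
  have hprod : ((Finset.univ : Finset F).toList.map fun c => X - C c).prod
      = X ^ Fintype.card F - X := by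
    have hdeg : (X ^ Fintype.card F - X : F[X]).natDegree = Fintype.card F :=
      FiniteField.X_pow_card_sub_X_natDegree_eq F Fintype.one_lt_card
    have hmon : (X ^ Fintype.card F - X : F[X]).Monic :=
      monic_X_pow_sub (by rw [degree_X]; exact_mod_cast Fintype.one_lt_card)
    have h1 := prod_multiset_X_sub_C_of_monic_of_roots_card_eq hmon
      (by rw [FiniteField.roots_X_pow_card_sub_X, hdeg]; rfl)
    rw [FiniteField.roots_X_pow_card_sub_X] at h1
    rw [← h1, Finset.prod_map_toList]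
    rfl
  refine key (Finset.univ : Finset F).toList v hv hv0 ?_
  rw [hprod, map_sub, map_pow, aeval_X, hf, sub_self, LinearMap.zero_apply]

/-- A subgroup fixed by an automorphism. -/
def fixOf {V : Type*} [Group V] (σ : MulAut V) : Subgroup V where
  carrier := {v | σ v = v}
  one_mem' := map_one σ
  mul_mem' {a b} ha hb := by simp_all [Set.mem_setOf_eq]
  inv_mem' {a} ha := by simp_all [Set.mem_setOf_eq]

@[simp] theorem mem_fixOf {V : Type*} [Group V] {σ : MulAut V} {v : V} :
    v ∈ fixOf σ ↔ σ v = v := Iff.rfl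

theorem card_fixOf_modEq {V : Type*} [Group V] [Finite V] {p : ℕ} [Fact p.Prime] (σ : MulAut V)
    (h : σ ^ p = 1) : Nat.card V ≡ Nat.card ↥(fixOf σ) [MOD p] := by
  refine (card_fix_modEq (MulAut.toPerm V σ) ?_).trans (congrArg (· % p) ?_)
  · rw [← map_pow, h, map_one]
  · exact Nat.card_congr (Equiv.subtypeEquivRight fun x => Iff.rfl)

theorem card_invariant_modEq {V : Type*} [Group V] [Finite V] {p : ℕ} [Fact p.Prime]
    (σ : MulAut V) (h : σ ^ p = 1) (W : Subgroup V) (hW : ∀ x ∈ W, σ x ∈ W) :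
    Nat.card ↥W ≡ Nat.card ↥(W ⊓ fixOf σ) [MOD p] := by
  have hW' : ∀ x, σ x ∈ W ↔ x ∈ W := by
    intro x
    refine ⟨fun hx => ?_, hW x⟩
    have hp : ∀ (k : ℕ) (y : V), y ∈ W → (σ ^ k) y ∈ W := by
      intro k
      induction k with
      | zero => intro y hy; simpa using hy
      | succ k IH => intro y hy; rw [pow_succ, MulAut.mul_apply]; exact IH _ (hW y hy)
    have h1 : (σ ^ (p - 1)) (σ x) = x := by
      rw [← MulAut.mul_apply, ← pow_succ, Nat.sub_add_cancel (Fact.out : p.Prime).one_le, h]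
      rfl
    rw [← h1]
    exact hp _ _ hx
  have hpow : (MulAut.toPerm V σ) ^ p = 1 := by rw [← map_pow, h, map_one]
  let τ : Equiv.Perm ↥W := Equiv.Perm.subtypePerm (MulAut.toPerm V σ) (fun x => hW' x)
  have hτ : τ ^ p = 1 := by
    have hk : ∀ (k : ℕ) (x : ↥W), ((τ ^ k) x : V) = ((MulAut.toPerm V σ) ^ k) x := by
      intro k
      induction k with
      | zero => intro x; rfl
      | succ k IH => intro x; rw [pow_succ, pow_succ, Equiv.Perm.mul_apply, Equiv.Perm.mul_apply, IH]; rfl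
    refine Equiv.ext fun x => Subtype.ext ?_
    rw [hk, hpow]; rfl
  refine (card_fix_modEq τ hτ).trans (congrArg (· % p) ?_)
  exact Nat.card_congr
    { toFun := fun x => ⟨x.1.1, x.1.2, congrArg Subtype.val x.2⟩
      invFun := fun x => ⟨⟨x.1, x.2.1⟩, Subtype.ext x.2.2⟩
      left_inv := fun x => rfl
      right_inv := fun x => rfl }

end General

section Seven

/-- No small module for a group with automorphisms of order seven and five and such a pairing. -/
theorem no_module_seven {V : Type*} [CommGroup V] [Finite V] (hcard : Nat.card V ≤ 16)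
    (b f : MulAut V) (hb : b ^ 7 = 1) (hb1 : b ≠ 1) (hf : f ^ 5 = 1) (hf1 : f ≠ 1)
    (hW : ∀ v : V, v ≠ 1 → v * v = 1 → b v = v →
      ∃ W : Subgroup V, W ≠ ⊤ ∧ W.index ≤ 2 ∧ v ∈ W ∧ ∀ x ∈ W, b x ∈ W) : False := by
  haveI : Fact (Nat.Prime 7) := ⟨by norm_num⟩
  haveI : Fact (Nat.Prime 5) := ⟨by norm_num⟩
  haveI : Fact (Nat.Prime 3) := ⟨by norm_num⟩
  have hlt : ∀ σ : MulAut V, σ ≠ 1 → Nat.card ↥(fixOf σ) < Nat.card V := by
    intro σ hσ
    refine lt_of_le_of_ne (Subgroup.card_le_card_group _) fun he => hσ ?_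
    have ht : fixOf σ = ⊤ := Subgroup.eq_top_of_card_eq _ he
    ext v
    exact (ht ▸ Subgroup.mem_top v : v ∈ fixOf σ)
  have h7 := card_fixOf_modEq b hb
  have h5 := card_fixOf_modEq f hf
  have hd7 := Subgroup.card_subgroup_dvd_card (fixOf b)
  have hd5 := Subgroup.card_subgroup_dvd_card (fixOf f)
  have l7 := hlt b hb1
  have l5 := hlt f hf1
  have hcases : (Nat.card V = 15 ∧ Nat.card ↥(fixOf b) = 1) ∨
      (Nat.card V = 16 ∧ Nat.card ↥(fixOf b) = 2) := by
    have p7 : 0 < Nat.card ↥(fixOf b) := Nat.card_pos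
    have p5 : 0 < Nat.card ↥(fixOf f) := Nat.card_pos
    generalize Nat.card V = N at hcard h7 h5 hd7 hd5 l7 l5
    generalize Nat.card ↥(fixOf b) = c at h7 hd7 l7 p7
    generalize Nat.card ↥(fixOf f) = e at h5 hd5 l5 p5
    unfold Nat.ModEq at h7 h5
    interval_cases N <;> interval_cases c <;> first | omega | (interval_cases e <;> omega)
  rcases hcases with ⟨hN, hc⟩ | ⟨hN, hc⟩
  · -- order fifteen
    have hbot : fixOf b = ⊥ := Subgroup.eq_bot_of_card_eq _ hc
    let W : Subgroup V := (powMonoidHom 3 : V →* V).ker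
    have hWb : ∀ x ∈ W, b x ∈ W := by
      intro x hx
      have hx' : x ^ 3 = 1 := hx
      show (b x) ^ 3 = 1
      rw [← map_pow, hx', map_one]
    have hm := card_invariant_modEq b hb W hWb
    rw [hbot, inf_bot_eq, Subgroup.card_bot] at hm
    have hdvd := hN ▸ Subgroup.card_subgroup_dvd_card W
    obtain ⟨x, hx⟩ := exists_prime_orderOf_dvd_card' (G := V) 3 (by rw [hN]; norm_num)
    have h1 : 1 < Nat.card ↥W := by
      rw [Finite.one_lt_card_iff_nontrivial]
      refine ⟨⟨⟨x, ?_⟩, 1, fun he => ?_⟩⟩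
      · show x ^ 3 = 1
        rw [← hx, pow_orderOf_eq_one]
      · have : x = 1 := congrArg Subtype.val he
        rw [this, orderOf_one] at hx
        omega
    have hle := Nat.le_of_dvd (by norm_num) hdvd
    have hW15 : Nat.card ↥W = 15 := by
      unfold Nat.ModEq at hm
      interval_cases (Nat.card ↥W) <;> omega
    have htop : W = ⊤ := Subgroup.eq_top_of_card_eq _ (hW15.trans hN.symm)
    obtain ⟨y, hy⟩ := exists_prime_orderOf_dvd_card' (G := V) 5 (by rw [hN]; norm_num)
    have hy3 : y ^ 3 = 1 := (htop ▸ Subgroup.mem_top y : y ∈ W)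
    have := orderOf_dvd_of_pow_eq_one hy3
    rw [hy] at this
    norm_num at this
  · -- order sixteen
    have hnt : (fixOf b) ≠ ⊥ := by
      intro he
      rw [he, Subgroup.card_bot] at hc
      omega
    obtain ⟨v, hv, hv1⟩ := (Subgroup.bot_or_exists_ne_one _).resolve_left hnt
    have hvv : v * v = 1 := by
      have : (⟨v, hv⟩ : ↥(fixOf b)) ^ 2 = 1 := by rw [← hc]; exact pow_card_eq_one'
      simpa [sq] using congrArg Subtype.val this
    obtain ⟨W, hWtop, hWi, hvW, hWb⟩ := hW v hv1 hvv hv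
    have hi : W.index = 2 := by
      have h0 : W.index ≠ 0 := Subgroup.index_ne_zero_of_finite
      have h1 : W.index ≠ 1 := fun h => hWtop (Subgroup.index_eq_one.mp h)
      omega
    have hWc : Nat.card ↥W = 8 := by
      have := Subgroup.card_mul_index W
      rw [hi, hN] at this
      omega
    have hm := card_invariant_modEq b hb W hWb
    have hi2 : W ⊓ fixOf b = fixOf b := by
      have h1 : 1 < Nat.card ↥(W ⊓ fixOf b) := by
        rw [Finite.one_lt_card_iff_nontrivial]
        exact ⟨⟨⟨v, hvW, hv⟩, 1, fun he => hv1 (congrArg Subtype.val he)⟩⟩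
      refine Subgroup.eq_of_le_of_card_ge inf_le_right ?_
      omega
    rw [hi2, hc, hWc] at hm
    exact absurd hm (by decide)

end Seven

section Twelve

/-- The product over the orbit of an automorphism of order five. -/
def norm5 {V : Type*} [CommGroup V] (g : MulAut V) (u : V) : V :=
  ∏ i ∈ Finset.range 5, (g ^ i) u

theorem norm5_fixed {V : Type*} [CommGroup V] (g : MulAut V) (hg : g ^ 5 = 1) (u : V) :
    g (norm5 g u) = norm5 g u := by
  have hg' : g * (g * (g * (g * g))) = 1 := by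
    rw [← hg]; simp only [pow_succ, pow_zero, one_mul, mul_assoc]
  have h5 : g (g (g (g (g u)))) = u := by
    calc g (g (g (g (g u)))) = (g * (g * (g * (g * g)))) u := rfl
      _ = u := by rw [hg']; rfl
  simp only [norm5, Finset.prod_range_succ, Finset.prod_range_zero, pow_zero, pow_succ, one_mul,
    map_mul, MulAut.one_apply, MulAut.mul_apply, h5]
  ac_rfl

/-- Two commuting automorphisms of order five, with a third one permuting the diagonals, force a
large group. -/
theorem card_ge_of_two_five {V : Type*} [CommGroup V] [Finite V] [Nontrivial V]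
    (z z' x : MulAut V) (hz : z ^ 5 = 1) (hz' : z' ^ 5 = 1) (hc : Commute z z')
    (hxz : x * z * x⁻¹ = z) (hxz' : x * z' * x⁻¹ = z' ^ 2)
    (hf : ∀ v, z v = v → v = 1) (hf' : ∀ v, z' v = v → v = 1) : 1296 ≤ Nat.card V := by
  haveI : Fact (Nat.Prime 5) := ⟨by norm_num⟩
  let g : ℕ → MulAut V := fun j => z * z' ^ j
  have hmodc : ∀ j, z' ^ j = z' ^ (j % 5) := fun j => pow_eq_pow_mod j hz'
  have hg5 : ∀ j, g j ^ 5 = 1 := by
    intro j
    show (z * z' ^ j) ^ 5 = 1
    rw [(hc.pow_right j).mul_pow, hz, one_mul, ← pow_mul, mul_comm, pow_mul, hz', one_pow]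
  have hpfix : ∀ (m : ℕ) (u : V), ¬ 5 ∣ m → (z' ^ m) u = u → u = 1 := by
    intro m u hm hu
    refine hf' u ?_
    have hmem : z' ∈ MulAction.stabilizer (MulAut V) u := by
      refine mem_of_pow_mem_coprime (m := m) (l := 5) ?_ hu ?_
      · exact ((Nat.Prime.coprime_iff_not_dvd (by norm_num)).mpr hm).symm
      · rw [hz']; exact one_mem _
    exact hmem
  -- the identity of norms
  have hnorm : ∀ u, ∏ j ∈ Finset.range 5, norm5 (g j) u = u ^ 5 := by
    intro u
    simp only [norm5]
    rw [Finset.prod_comm, Finset.prod_range_succ']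
    have hrest : ∀ i ∈ Finset.range 4, ∏ j ∈ Finset.range 5, (g j ^ (i + 1)) u = 1 := by
      intro i hi
      have hi4 : i < 4 := Finset.mem_range.mp hi
      have hy : norm5 (z' ^ (i + 1)) u = 1 := by
        refine hpfix (i + 1) _ (by omega) ?_
        apply norm5_fixed
        rw [← pow_mul, mul_comm, pow_mul, hz', one_pow]
      have he : ∀ j : ℕ, (g j ^ (i + 1)) u = (z ^ (i + 1)) (((z' ^ (i + 1)) ^ j) u) := by
        intro j
        show ((z * z' ^ j) ^ (i + 1)) u = _
        rw [(hc.pow_right j).mul_pow, ← pow_mul, ← pow_mul, mul_comm j]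
        rfl
      simp only [he]
      rw [← map_prod]
      show (z ^ (i + 1)) (norm5 (z' ^ (i + 1)) u) = 1
      rw [hy, map_one]
    rw [Finset.prod_eq_one hrest, one_mul]
    simp
  have hcardmod : Nat.card V % 5 = 1 := by
    have h := card_fixOf_modEq z hz
    have hb : fixOf z = ⊥ := (Subgroup.eq_bot_iff_forall _).mpr fun v hv => hf v hv
    rw [hb, Subgroup.card_bot] at h
    exact h
  -- some diagonal has a fixed point
  have hex : ∃ j ∈ Finset.Ico 1 5, fixOf (g j) ≠ ⊥ := by
    by_contra hcon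
    push_neg at hcon
    obtain ⟨u, hu⟩ := exists_ne (1 : V)
    have h1 : u ^ 5 = 1 := by
      rw [← hnorm u]
      refine Finset.prod_eq_one fun j hj => ?_
      have hfx := norm5_fixed (g j) (hg5 j) u
      rcases Nat.eq_zero_or_pos j with rfl | hj0
      · exact hf _ (by simpa [g] using hfx)
      · have hb := hcon j (Finset.mem_Ico.mpr ⟨hj0, Finset.mem_range.mp hj⟩)
        exact (Subgroup.eq_bot_iff_forall _).mp hb _ hfx
    have hord : orderOf u = 5 := orderOf_eq_prime h1 hu
    have := orderOf_dvd_natCard u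
    rw [hord] at this
    omega
  have hperm : ∀ j, fixOf (g j) ≠ ⊥ → fixOf (g (2 * j % 5)) ≠ ⊥ := by
    intro j hj hb
    apply hj
    rw [Subgroup.eq_bot_iff_forall] at hb ⊢
    intro u hu
    have hrel : g (2 * j % 5) * x = x * g j := by
      show z * z' ^ (2 * j % 5) * x = x * (z * z' ^ j)
      rw [← hmodc, pow_mul]
      have h2 : x * z' ^ j * x⁻¹ = (z' ^ 2) ^ j := by rw [← hxz', conj_pow]
      rw [← h2]
      nth_rewrite 1 [← hxz]
      group
    have hxu : x u ∈ fixOf (g (2 * j % 5)) := by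
      show g (2 * j % 5) (x u) = x u
      rw [← MulAut.mul_apply, hrel, MulAut.mul_apply, (hu : g j u = u)]
    have h2 := hb (x u) hxu
    exact x.injective (by rw [h2, map_one])
  have hall : ∀ j ∈ Finset.Ico 1 5, fixOf (g j) ≠ ⊥ := by
    obtain ⟨j0, hj0, hne⟩ := hex
    rw [Finset.mem_Ico] at hj0
    have a := hperm _ hne
    have b := hperm _ a
    have c := hperm _ b
    intro j hj
    rw [Finset.mem_Ico] at hj
    rcases hj0 with ⟨h1, h2⟩
    rcases hj with ⟨h3, h4⟩
    interval_cases j0 <;> interval_cases j <;> assumption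
  let C : Fin 4 → Subgroup V := fun i => fixOf (g (i.1 + 1))
  have hsix : ∀ i, 6 ≤ Nat.card ↥(C i) := by
    intro i
    have hinv : ∀ v ∈ C i, z v ∈ C i := by
      intro v hv
      show g (i.1 + 1) (z v) = z v
      have hcm : g (i.1 + 1) * z = z * g (i.1 + 1) :=
        ((Commute.refl z).mul_right (hc.pow_right _)).symm.eq
      rw [← MulAut.mul_apply, hcm, MulAut.mul_apply, (hv : g (i.1 + 1) v = v)]
    have h := card_invariant_modEq z hz (C i) hinv
    have hb : C i ⊓ fixOf z = ⊥ := (Subgroup.eq_bot_iff_forall _).mpr fun v hv => hf v hv.2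
    rw [hb, Subgroup.card_bot] at h
    have hne : Nat.card ↥(C i) ≠ 1 := fun he =>
      hall (i.1 + 1) (Finset.mem_Ico.mpr ⟨by omega, by omega⟩) (Subgroup.eq_bot_of_card_eq _ he)
    have hp : 0 < Nat.card ↥(C i) := Nat.card_pos
    unfold Nat.ModEq at h
    omega
  have hproj : ∀ i k : Fin 4, ∀ c ∈ C i, i ≠ k → norm5 (g (k.1 + 1)) c = 1 := by
    intro i k c hci hik
    set a := g (i.1 + 1) with ha
    set b := g (k.1 + 1) with hb
    have hab : Commute a b := by
      show Commute (z * z' ^ (i.1 + 1)) (z * z' ^ (k.1 + 1))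
      exact Commute.mul_right (Commute.mul_left (Commute.refl z) (hc.pow_right _).symm)
        (Commute.mul_left (hc.pow_right _) ((Commute.refl z').pow_pow _ _))
    have hy1 : b (norm5 b c) = norm5 b c := norm5_fixed b (hg5 _) c
    have hy2 : a (norm5 b c) = norm5 b c := by
      unfold norm5
      rw [map_prod]
      refine Finset.prod_congr rfl fun m _ => ?_
      rw [← MulAut.mul_apply, (hab.pow_right m).eq, MulAut.mul_apply, (hci : a c = c)]
    refine hpfix ((i.1 + 1) * 4 + (k.1 + 1)) _ ?_ ?_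
    · have : i.1 ≠ k.1 := fun h => hik (Fin.ext h)
      have := i.2; have := k.2
      omega
    · have hpow : z' ^ ((i.1 + 1) * 4 + (k.1 + 1)) = a ^ 4 * b := by
        rw [ha, hb]
        show _ = (z * z' ^ (i.1 + 1)) ^ 4 * (z * z' ^ (k.1 + 1))
        rw [(hc.pow_right _).mul_pow, ← pow_mul,
          (Commute.mul_mul_mul_comm ((hc.pow_right _).symm) _ _), ← pow_succ, hz, one_mul,
          ← pow_add]
      rw [hpow, MulAut.mul_apply, hy1]
      have hmem : a ∈ MulAction.stabilizer (MulAut V) (norm5 b c) := hy2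
      exact pow_mem hmem 4
  let Φ : ((i : Fin 4) → ↥(C i)) → V := fun c => ∏ i, (c i : V)
  have hΦ : Function.Injective Φ := by
    intro c d hcd
    funext k
    apply Subtype.ext
    have hcd' : ∏ i, ((c i : V) * (d i : V)⁻¹) = 1 := by
      rw [Finset.prod_mul_distrib, Finset.prod_inv_distrib, mul_inv_eq_one]
      exact hcd
    let N : V →* V :=
      { toFun := norm5 (g (k.1 + 1))
        map_one' := by simp [norm5]
        map_mul' := fun a b => by simp [norm5, Finset.prod_mul_distrib] }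
    have h1 := congrArg N hcd'
    rw [map_prod, map_one, Finset.prod_eq_single k
      (fun i _ hik => show N ((c i : V) * (d i : V)⁻¹) = 1 from
        hproj i k _ ((C i).mul_mem (c i).2 ((C i).inv_mem (d i).2)) hik)
      (fun h => absurd (Finset.mem_univ k) h)] at h1
    have hmem : (c k : V) * (d k : V)⁻¹ ∈ C k := (C k).mul_mem (c k).2 ((C k).inv_mem (d k).2)
    have h2 : ((c k : V) * (d k : V)⁻¹) ^ 5 = 1 := by
      rw [← h1]
      show _ = norm5 _ _
      unfold norm5
      rw [Finset.prod_congr rfl (g := fun _ => (c k : V) * (d k : V)⁻¹)]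
      · simp
      · intro m _
        have : g (k.1 + 1) ∈ MulAction.stabilizer (MulAut V) ((c k : V) * (d k : V)⁻¹) := hmem
        exact pow_mem this m
    refine mul_inv_eq_one.mp ?_
    by_contra hne
    have := orderOf_dvd_natCard ((c k : V) * (d k : V)⁻¹)
    rw [orderOf_eq_prime h2 hne] at this
    omega
  have := Nat.card_le_card_of_injective Φ hΦ
  rw [Nat.card_pi] at this
  refine le_trans ?_ this
  calc 1296 = ∏ _i : Fin 4, 6 := by simp
    _ ≤ _ := Finset.prod_le_prod' fun i _ => hsix i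

end Twelve

section Projective

variable {n : Type*} [Fintype n] [DecidableEq n] {F : Type*} [Field F]

/-- The scalar matrices inside the general linear group. -/
def scal (n : Type*) [Fintype n] [DecidableEq n] (F : Type*) [Field F] : Subgroup (GL n F) :=
  (Matrix.GeneralLinearGroup.scalar n).range

theorem scal_commute {s : GL n F} (hs : s ∈ scal n F) (g : GL n F) : Commute s g := by
  obtain ⟨u, rfl⟩ := hs
  exact Matrix.GeneralLinearGroup.scalar_commute u g

instance scal_normal : (scal n F).Normal :=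
  ⟨fun s hs g => by rwa [← (scal_commute hs g).eq, mul_inv_cancel_right]⟩

theorem isScalarMat_of_mem {g : GL n F} (hg : g ∈ scal n F) : IsScalarMat g := by
  obtain ⟨u, rfl⟩ := hg
  refine ⟨u, ?_⟩
  ext i j
  simp [Matrix.GeneralLinearGroup.coe_scalar, Matrix.scalar_apply, Matrix.one_apply,
    Matrix.diagonal]

theorem mem_of_isScalarMat [Nonempty n] {g : GL n F} (hg : IsScalarMat g) : g ∈ scal n F := by
  obtain ⟨c, hc⟩ := hg
  have hc0 : c ≠ 0 := by
    rintro rfl
    rw [zero_smul] at hc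
    exact g.ne_zero hc
  refine ⟨Units.mk0 c hc0, Units.ext ?_⟩
  rw [hc]
  ext i j
  simp [Matrix.GeneralLinearGroup.coe_scalar, Matrix.scalar_apply, Matrix.one_apply,
    Matrix.diagonal]

/-- The commutator of two classes modulo scalars. -/
noncomputable def pcomm (a b : GL n F ⧸ scal n F) : GL n F := ⁅a.out, b.out⁆

theorem comm_mul_scal {g h s t : GL n F} (hs : s ∈ scal n F) (ht : t ∈ scal n F) :
    ⁅g * s, h * t⁆ = ⁅g, h⁆ := by
  have hs' := scal_commute hs
  have ht' := scal_commute ht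
  have e1 : g * s * (h * t) * (g * s)⁻¹ = g * (h * t) * g⁻¹ := by
    rw [mul_inv_rev, mul_assoc g s, (hs' (h * t)).eq]
    group
  have e2 : g * (h * t) * g⁻¹ = g * h * g⁻¹ * t := by
    rw [← mul_assoc, mul_assoc (g * h) t, (ht' g⁻¹).eq, ← mul_assoc]
  rw [commutatorElement_def, commutatorElement_def, e1, e2, mul_inv_rev]
  group

theorem pcomm_mk (g h : GL n F) :
    pcomm (QuotientGroup.mk g : GL n F ⧸ scal n F) (QuotientGroup.mk h) = ⁅g, h⁆ := by
  obtain ⟨⟨s, hs⟩, hs'⟩ := QuotientGroup.mk_out_eq_mul (scal n F) g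
  obtain ⟨⟨t, ht⟩, ht'⟩ := QuotientGroup.mk_out_eq_mul (scal n F) h
  rw [pcomm, hs', ht']
  exact comm_mul_scal hs ht

theorem comm_mem_scal_of_commute {g h : GL n F}
    (hgh : Commute (QuotientGroup.mk g : GL n F ⧸ scal n F) (QuotientGroup.mk h)) :
    ⁅g, h⁆ ∈ scal n F := by
  rw [← QuotientGroup.eq_one_iff]
  show QuotientGroup.mk' (scal n F) ⁅g, h⁆ = 1
  rw [map_commutatorElement, commutatorElement_eq_one_iff_commute]
  exact hgh

theorem comm_mul_right' {g h k : GL n F} (hk : ⁅g, k⁆ ∈ scal n F) :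
    ⁅g, h * k⁆ = ⁅g, h⁆ * ⁅g, k⁆ := by
  have h1 : ⁅g, h * k⁆ = ⁅g, h⁆ * (h * ⁅g, k⁆ * h⁻¹) := by
    simp only [commutatorElement_def]; group
  rw [h1, ← (scal_commute hk h).eq, mul_inv_cancel_right]

theorem comm_mul_left' {g h k : GL n F} (hk : ⁅h, k⁆ ∈ scal n F) :
    ⁅g * h, k⁆ = ⁅g, k⁆ * ⁅h, k⁆ := by
  have h1 : ⁅g * h, k⁆ = g * ⁅h, k⁆ * g⁻¹ * ⁅g, k⁆ := by
    simp only [commutatorElement_def]; group
  rw [h1, ← (scal_commute hk g).eq, mul_inv_cancel_right, (scal_commute hk ⁅g, k⁆).eq]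

theorem pcomm_conj {a b : GL n F ⧸ scal n F} (hab : Commute a b) (c : GL n F ⧸ scal n F) :
    pcomm (c * a * c⁻¹) (c * b * c⁻¹) = pcomm a b := by
  obtain ⟨g, rfl⟩ := QuotientGroup.mk_surjective a
  obtain ⟨h, rfl⟩ := QuotientGroup.mk_surjective b
  obtain ⟨k, rfl⟩ := QuotientGroup.mk_surjective c
  rw [← QuotientGroup.mk_inv, ← QuotientGroup.mk_mul, ← QuotientGroup.mk_mul,
    ← QuotientGroup.mk_mul, ← QuotientGroup.mk_mul, pcomm_mk, pcomm_mk]
  have hs := comm_mem_scal_of_commute hab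
  rw [← MulAut.conj_apply, ← MulAut.conj_apply, ← map_commutatorElement, MulAut.conj_apply,
    ← (scal_commute hs k).eq, mul_inv_cancel_right]

theorem card_le_sq_of_nondeg [Fintype F] [Nonempty n] (V : Subgroup (GL n F ⧸ scal n F))
    (hV : ∀ a ∈ V, ∀ b ∈ V, Commute a b)
    (hnd : ∀ a ∈ V, (∀ b ∈ V, pcomm a b = 1) → a = 1) :
    Nat.card ↥V ≤ Fintype.card n * Fintype.card n := by
  classical
  haveI : Fintype ↥V := Fintype.ofFinite _
  have hsc : ∀ a b : ↥V, ∃ u : Fˣ,
      Matrix.GeneralLinearGroup.scalar n u = ⁅(b : GL n F ⧸ scal n F).out,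
        (a : GL n F ⧸ scal n F).out⁆ := by
    intro a b
    exact comm_mem_scal_of_commute (by
      rw [QuotientGroup.out_eq', QuotientGroup.out_eq']; exact hV _ b.2 _ a.2)
  choose u hu using hsc
  let M : ↥V → Matrix n n F := fun a => ((a : GL n F ⧸ scal n F).out : Matrix n n F)
  let T : ↥V → Matrix n n F →ₗ[F] Matrix n n F := fun b =>
    (LinearMap.mulLeft F (M b)).comp (LinearMap.mulRight F
      (((b : GL n F ⧸ scal n F).out⁻¹ : GL n F) : Matrix n n F))
  let χ : ↥V → ↥V → F := fun a b => (u a b : F)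
  have hT : ∀ a b, T b (M a) = χ a b • M a := by
    intro a b
    set A : GL n F := (a : GL n F ⧸ scal n F).out with hA
    set B : GL n F := (b : GL n F ⧸ scal n F).out with hB
    have h1 : B * A * B⁻¹ = Matrix.GeneralLinearGroup.scalar n (u a b) * A := by
      rw [hu a b, commutatorElement_def, ← hA, ← hB]; group
    have h2 := congrArg (fun g : GL n F => (g : Matrix n n F)) h1
    simp only [Units.val_mul] at h2
    show (B : Matrix n n F) * ((A : Matrix n n F) * ((B⁻¹ : GL n F) : Matrix n n F)) = _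
    rw [← mul_assoc, h2]
    show Matrix.scalar n (u a b : F) * (A : Matrix n n F) = _
    rw [Matrix.scalar_apply, ← Matrix.smul_one_eq_diagonal, smul_mul_assoc, one_mul]
  have hinj : Function.Injective χ := by
    intro a a' he
    have h1 : ∀ b : ↥V, pcomm (b : GL n F ⧸ scal n F) (a : GL n F ⧸ scal n F) =
        pcomm (b : GL n F ⧸ scal n F) (a' : GL n F ⧸ scal n F) := by
      intro b
      unfold pcomm
      rw [← hu a b, ← hu a' b, Units.ext (congrFun he b)]
    have hd : (a : GL n F ⧸ scal n F)⁻¹ * a' ∈ V := V.mul_mem (V.inv_mem a.2) a'.2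
    have h2 : (a : GL n F ⧸ scal n F)⁻¹ * a' = 1 := by
      refine hnd _ hd fun b hb => ?_
      have h3 := h1 ⟨b, hb⟩
      obtain ⟨gb, rfl⟩ := QuotientGroup.mk_surjective b
      obtain ⟨ga, hga⟩ := QuotientGroup.mk_surjective (a : GL n F ⧸ scal n F)
      obtain ⟨ga', hga'⟩ := QuotientGroup.mk_surjective (a' : GL n F ⧸ scal n F)
      rw [← hga, ← hga', ← QuotientGroup.mk_inv, ← QuotientGroup.mk_mul] at hd ⊢
      simp only [← hga, ← hga', pcomm_mk] at h3
      rw [pcomm_mk]
      have hs := comm_mem_scal_of_commute (hV _ hb _ hd)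
      have h4 := comm_mul_right' (g := gb) (h := ga) hs
      rw [mul_inv_cancel_left, ← h3] at h4
      have h5 : ⁅gb, ga⁻¹ * ga'⁆ = 1 := (mul_eq_left.mp h4.symm)
      rw [← commutatorElement_inv, h5, inv_one]
    exact Subtype.ext (inv_mul_eq_one.mp h2)
  have hli : LinearIndependent F M := by
    rw [linearIndependent_iff']
    intro s c hc i hi
    have := weight_indep T χ s (fun a => c a • M a)
      (fun a _ b => by rw [map_smul, hT, smul_comm]) hinj.injOn hc i hi
    rcases smul_eq_zero.mp this with h | h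
    · exact h
    · exfalso
      exact Units.ne_zero _ h
  rw [Nat.card_eq_fintype_card]
  refine hli.fintype_card_le_finrank.trans (le_of_eq ?_)
  rw [Module.finrank_matrix, Module.finrank_self, mul_one]

end Projective

section Weights

variable {n : Type*} [Fintype n] [DecidableEq n] {F : Type*} [Field F] {H : Type*} [Group H]

/-- Common eigenvectors. -/
def eigSp {ι : Type*} (T : ι → Matrix n n F) (χ : ι → F) : Submodule F (n → F) where
  carrier := {v | ∀ a, T a *ᵥ v = χ a • v}
  zero_mem' := by intro a; simp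
  add_mem' {v w} hv hw := by intro a; rw [Matrix.mulVec_add, hv a, hw a, smul_add]
  smul_mem' c v hv := by intro a; rw [Matrix.mulVec_smul, hv a, smul_comm]

theorem exists_common_eigen [Fintype F] [Nonempty n] {ι : Type*} [Finite ι]
    (T : ι → Matrix n n F) (hT : ∀ a, T a ^ Fintype.card F = T a)
    (hc : ∀ a b, Commute (T a) (T b)) : ∃ χ : ι → F, eigSp T χ ≠ ⊥ := by
  classical
  haveI : Fintype ι := Fintype.ofFinite ι
  suffices h : ∀ S : Finset ι, ∃ χ : ι → F, ∃ v : n → F, v ≠ 0 ∧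
      ∀ a ∈ S, T a *ᵥ v = χ a • v by
    obtain ⟨χ, v, hv, hv'⟩ := h Finset.univ
    refine ⟨χ, fun hb => hv ?_⟩
    exact (Submodule.eq_bot_iff _).mp hb v fun a => hv' a (Finset.mem_univ a)
  intro S
  induction S using Finset.induction with
  | empty =>
    exact ⟨0, fun _ => 1, fun h => one_ne_zero (congrFun h (Classical.arbitrary n)),
      fun a ha => by simp at ha⟩
  | @insert b S hb IH =>
    obtain ⟨χ, v, hv, hv'⟩ := IH
    let W : Submodule F (n → F) := eigSp (fun a : {a // a ∈ S} => T a.1) (fun a => χ a.1)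
    have hW : ∀ w ∈ W, Matrix.toLin' (T b) w ∈ W := by
      intro w hw a
      rw [Matrix.toLin'_apply, Matrix.mulVec_mulVec, (hc a.1 b).eq, ← Matrix.mulVec_mulVec,
        hw a, Matrix.mulVec_smul]
    have hq : (Matrix.toLin' (T b)) ^ Fintype.card F = Matrix.toLin' (T b) := by
      rw [← Matrix.toLin'_pow, hT]
    obtain ⟨c, w, hw, hw0, hwc⟩ :=
      exists_eigen_mem _ hq W hW (v := v) (fun a => hv' a.1 a.2) hv
    refine ⟨Function.update χ b c, w, hw0, fun a ha => ?_⟩
    rcases Finset.mem_insert.mp ha with rfl | ha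
    · rw [Function.update_self]
      simpa [Matrix.toLin'_apply] using hwc
    · rw [Function.update_of_ne (fun h : a = b => hb (h ▸ ha))]
      exact hw ⟨a, ha⟩

theorem mulVec_rho_mul (ρ : H →* GL n F) (g h : H) (v : n → F) :
    (ρ (g * h) : Matrix n n F) *ᵥ v = (ρ g : Matrix n n F) *ᵥ ((ρ h : Matrix n n F) *ᵥ v) := by
  rw [map_mul, Units.val_mul, Matrix.mulVec_mulVec]

theorem scalar_of_commuting [Fintype F] [Nonempty n] [Finite H] {A : Type*} [Group A]
    [IsSimpleGroup A] (π : H →* A) (hπ : Function.Surjective π)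
    (ρ : H →* GL n F) (hirr : Irred ρ)
    (hirrU : ∀ U : Subgroup H, U.map π = ⊤ → Irred (ρ.comp U.subtype))
    {ℓ : ℕ} [Fact ℓ.Prime] (z : H) (hz : z ^ ℓ = 1) (hzπ : π z ≠ 1)
    (hfix : ∀ v : n → F, (ρ z : Matrix n n F) *ᵥ v = v → v = 0)
    (A₀ : Subgroup H) [hn : A₀.Normal] (hpow : ∀ a ∈ A₀, ρ a ^ (Fintype.card F - 1) = 1)
    (hcomm : ∀ a ∈ A₀, ∀ b ∈ A₀, Commute (ρ a) (ρ b)) :
    ∀ a ∈ A₀, IsScalarMat (ρ a) := by
  classical
  let T : ↥A₀ → Matrix n n F := fun a => (ρ a : Matrix n n F)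
  have hq : Fintype.card F = (Fintype.card F - 1) + 1 :=
    (Nat.sub_add_cancel Fintype.card_pos).symm
  obtain ⟨χ0, hχ0⟩ := exists_common_eigen T
    (fun a => by
      show (ρ a : Matrix n n F) ^ Fintype.card F = _
      rw [hq, ← Units.val_pow_eq_pow_val, pow_succ, hpow a a.2, one_mul])
    (fun a b => (hcomm a a.2 b b.2).units_val)
  let mv : H → (↥A₀ → F) → (↥A₀ → F) := fun h χ a => χ ⟨h⁻¹ * a * h, by
    simpa using hn.conj_mem a a.2 h⁻¹⟩
  have mv_mul : ∀ g h χ, mv g (mv h χ) = mv (g * h) χ := by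
    intro g h χ
    funext a
    exact congrArg χ (Subtype.ext (by simp only [mul_inv_rev, mul_assoc]))
  have mv_one : ∀ χ, mv 1 χ = χ := by
    intro χ
    funext a
    exact congrArg χ (Subtype.ext (by simp))
  have hmove : ∀ h χ v, v ∈ eigSp T χ →
      (ρ h : Matrix n n F) *ᵥ v ∈ eigSp T (mv h χ) := by
    intro h χ v hv a
    show (ρ a : Matrix n n F) *ᵥ _ = _
    rw [← mulVec_rho_mul, show (a : H) * h = h * (h⁻¹ * a * h) by group, mulVec_rho_mul]
    have := hv ⟨h⁻¹ * a * h, by simpa using hn.conj_mem a a.2 h⁻¹⟩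
    rw [show (ρ (h⁻¹ * a * h) : Matrix n n F) *ᵥ v = _ from this, Matrix.mulVec_smul]
  have hinjρ : ∀ (h : H) (v : n → F), (ρ h : Matrix n n F) *ᵥ v = 0 → v = 0 := by
    intro h v hv
    have h1 := mulVec_rho_mul ρ h⁻¹ h v
    rw [hv, Matrix.mulVec_zero, inv_mul_cancel, map_one, Units.val_one, Matrix.one_mulVec] at h1
    exact h1
  have hWt : ∀ h χ, eigSp T χ ≠ ⊥ → eigSp T (mv h χ) ≠ ⊥ := by
    intro h χ hχ hb
    obtain ⟨v, hv, hv0⟩ := Submodule.exists_mem_ne_zero_of_ne_bot hχ
    exact hv0 (hinjρ h v ((Submodule.eq_bot_iff _).mp hb _ (hmove h χ v hv)))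
  let N : Subgroup H :=
    { carrier := {h | ∀ χ, eigSp T χ ≠ ⊥ → mv h χ = χ}
      one_mem' := fun χ _ => mv_one χ
      mul_mem' := fun {a b} ha hb χ hχ => by rw [← mv_mul, hb χ hχ, ha χ hχ]
      inv_mem' := fun {a} ha χ hχ => by
        have h1 := ha (mv a⁻¹ χ) (hWt _ _ hχ)
        rw [mv_mul, mul_inv_cancel, mv_one] at h1
        exact h1.symm }
  haveI hNn : N.Normal := ⟨fun h hh g χ hχ => by
    rw [← mv_mul, ← mv_mul, hh _ (hWt _ _ hχ), mv_mul, mul_inv_cancel, mv_one]⟩
  have hzN : z ∈ N := by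
    intro χ hχ
    by_contra hne
    obtain ⟨v, hv, hv0⟩ := Submodule.exists_mem_ne_zero_of_ne_bot hχ
    let St : Subgroup H :=
      { carrier := {h | mv h χ = χ}
        one_mem' := mv_one χ
        mul_mem' := fun {a b} ha hb => by
          show mv (a * b) χ = χ
          rw [← mv_mul, (hb : mv b χ = χ), (ha : mv a χ = χ)]
        inv_mem' := fun {a} ha => by
          show mv a⁻¹ χ = χ
          conv_lhs => rw [← (ha : mv a χ = χ)]
          rw [mv_mul, inv_mul_cancel, mv_one] }
    have hinj : Set.InjOn (fun i : ℕ => mv (z ^ i) χ) ↑(Finset.range ℓ) := by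
      intro i hi j hj hij
      simp only [Finset.coe_range, Set.mem_Iio] at hi hj
      by_contra hne'
      wlog hlt : i < j generalizing i j
      · exact this hij.symm hj hi (Ne.symm hne') (by omega)
      have hst : z ^ (j - i) ∈ St := by
        show mv _ χ = χ
        have h1 := congrArg (mv (z ^ i)⁻¹) hij
        rw [mv_mul, mv_mul, inv_mul_cancel, mv_one, show j = i + (j - i) by omega, pow_add,
          inv_mul_cancel_left] at h1
        exact h1.symm
      have hco : Nat.Coprime (j - i) ℓ :=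
        ((Nat.Prime.coprime_iff_not_dvd Fact.out).mpr
          (Nat.not_dvd_of_pos_of_lt (by omega) (by omega))).symm
      exact hne (mem_of_pow_mem_coprime hco hst (by rw [hz]; exact St.one_mem))
    let f : ℕ → n → F := fun i => (ρ (z ^ i) : Matrix n n F) *ᵥ v
    have hsum : ∑ i ∈ Finset.range ℓ, f i = 0 := by
      apply hfix
      rw [Matrix.mulVec_sum]
      have hstep : ∀ i, (ρ z : Matrix n n F) *ᵥ f i = f (i + 1) := fun i => by
        show _ = (ρ (z ^ (i + 1)) : Matrix n n F) *ᵥ v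
        rw [pow_succ', mulVec_rho_mul]
      rw [Finset.sum_congr rfl fun i _ => hstep i]
      have h1 := Finset.sum_range_succ f ℓ
      have h2 := Finset.sum_range_succ' f ℓ
      have h3 : f ℓ = f 0 := by simp only [f, hz, pow_zero]
      rw [h1, h3] at h2
      exact (add_right_cancel h2).symm
    have h0 := weight_indep (fun a => Matrix.toLin' (T a)) (fun i => mv (z ^ i) χ)
      (Finset.range ℓ) f
      (fun i _ a => by rw [Matrix.toLin'_apply]; exact hmove (z ^ i) χ v hv a) hinj hsum 0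
      (Finset.mem_range.mpr (Fact.out : ℓ.Prime).pos)
    exact hv0 (hinjρ _ v h0)
  have hNtop : N.map π = ⊤ := by
    haveI := Subgroup.Normal.map hNn π hπ
    rcases Subgroup.Normal.eq_bot_or_eq_top (inferInstance : (N.map π).Normal) with h | h
    · exact absurd ((Subgroup.eq_bot_iff_forall _).mp h _ ⟨z, hzN, rfl⟩) hzπ
    · exact h
  have hinv : ∀ h : ↥N, ∀ v ∈ eigSp T χ0,
      ((ρ.comp N.subtype) h : Matrix n n F) *ᵥ v ∈ eigSp T χ0 := by
    intro h v hv
    have hh : mv h χ0 = χ0 := h.2 χ0 hχ0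
    have := hmove h χ0 v hv
    rwa [hh] at this
  have htop := (hirrU N hNtop _ hinv).resolve_left hχ0
  intro a ha
  refine ⟨χ0 ⟨a, ha⟩, ?_⟩
  refine Matrix.ext_of_mulVec_single fun i => ?_
  have hmem : (Pi.single i (1 : F) : n → F) ∈ eigSp T χ0 := by rw [htop]; trivial
  rw [show (ρ a : Matrix n n F) *ᵥ Pi.single i 1 = _ from hmem ⟨a, ha⟩, Matrix.smul_mulVec,
    Matrix.one_mulVec]

theorem pow_card_sub_one [Fintype F] [Finite H] (p : ℕ) [Fact p.Prime] [CharP F p]
    (hsplit : ∀ h : H, (orderOf h).Coprime p → orderOf h ∣ Fintype.card F - 1)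
    (ρ : H →* GL n F) (hirr : Irred ρ) (K : Subgroup H) [K.Normal] (hK : Group.IsNilpotent ↥K)
    [Nonempty n] : ∀ k ∈ K, ρ k ^ (Fintype.card F - 1) = 1 := by
  classical
  haveI := hK
  let P : Sylow p ↥K := default
  haveI hPn : (P : Subgroup ↥K).Normal :=
    Sylow.normal_of_normalizerCondition Group.normalizerCondition_of_isNilpotent P
  haveI hPc : (P : Subgroup ↥K).Characteristic := Sylow.characteristic_of_normal P hPn
  let P' : Subgroup H := (P : Subgroup ↥K).map K.subtype
  have hP'n : P'.Normal := inferInstance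
  have hP'p : IsPGroup p ↥P' := P.isPGroup'.map _
  let W : Submodule F (n → F) :=
    eigSp (fun a : ↥P' => (ρ a : Matrix n n F)) (fun _ => 1)
  have hWinv : ∀ h : H, ∀ v ∈ W, (ρ h : Matrix n n F) *ᵥ v ∈ W := by
    intro h v hv a
    show (ρ a : Matrix n n F) *ᵥ _ = _
    rw [← mulVec_rho_mul, show (a : H) * h = h * (h⁻¹ * a * h) by group, mulVec_rho_mul]
    have := hv ⟨h⁻¹ * a * h, by simpa using hP'n.conj_mem a a.2 h⁻¹⟩
    rw [show (ρ (h⁻¹ * a * h) : Matrix n n F) *ᵥ v = _ from this, one_smul, one_smul]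
  have hWne : W ≠ ⊥ := by
    letI : MulAction ↥P' (n → F) :=
      { smul := fun a v => (ρ a : Matrix n n F) *ᵥ v
        one_smul := fun v => by
          show (ρ ((1 : ↥P') : H) : Matrix n n F) *ᵥ v = v
          simp
        mul_smul := fun a b v => mulVec_rho_mul ρ (a : H) (b : H) v }
    have hdvd : p ∣ Nat.card (n → F) := by
      rw [Nat.card_fun, Nat.card_eq_fintype_card, Nat.card_eq_fintype_card]
      obtain ⟨m, -, hm⟩ := FiniteField.card F p
      rw [hm]
      exact dvd_pow (dvd_pow_self p m.pos.ne') Fintype.card_ne_zero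
    have h0 : (0 : n → F) ∈ MulAction.fixedPoints ↥P' (n → F) := fun a =>
      Matrix.mulVec_zero _
    obtain ⟨v, hv, hv0⟩ := hP'p.exists_fixed_point_of_prime_dvd_card_of_fixed_point
      (n → F) hdvd h0
    intro hb
    refine hv0 ((Submodule.eq_bot_iff _).mp hb v fun a => ?_).symm
    show (ρ a : Matrix n n F) *ᵥ v = _
    rw [one_smul]
    exact hv a
  have hP1 : ∀ a ∈ P', ρ a = 1 := by
    intro a ha
    refine Units.ext (Matrix.ext_of_mulVec_single fun i => ?_)
    have hmem : (Pi.single i (1 : F) : n → F) ∈ W := by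
      rw [(hirr W hWinv).resolve_left hWne]; trivial
    rw [show (ρ a : Matrix n n F) *ᵥ Pi.single i 1 = _ from hmem ⟨a, ha⟩, one_smul, Units.val_one,
      Matrix.one_mulVec]
  intro k hk
  have h1 : ρ k ^ (P : Subgroup ↥K).index = 1 := by
    rw [← map_pow]
    exact hP1 _ ⟨⟨k, hk⟩ ^ (P : Subgroup ↥K).index, Subgroup.pow_index_mem _ _, rfl⟩
  obtain ⟨a, m, hm, hord⟩ :=
    Nat.exists_eq_pow_mul_and_not_dvd (orderOf_pos k).ne' p (Fact.out : p.Prime).ne_one
  have hpm : orderOf (k ^ p ^ a) = m := by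
    rw [orderOf_pow_of_dvd (pow_ne_zero _ (Fact.out : p.Prime).ne_zero) (hord ▸ dvd_mul_right _ _),
      hord, Nat.mul_div_cancel_left _ (pow_pos (Fact.out : p.Prime).pos _)]
  have hmq : m ∣ Fintype.card F - 1 := by
    rw [← hpm]
    exact hsplit _ (by
      rw [hpm]; exact ((Nat.Prime.coprime_iff_not_dvd Fact.out).mpr hm).symm)
  have hdm : orderOf (ρ k) ∣ m := by
    have hd1 : orderOf (ρ k) ∣ (P : Subgroup ↥K).index := orderOf_dvd_of_pow_eq_one h1
    have hd2 : orderOf (ρ k) ∣ p ^ a * m := hord ▸ orderOf_map_dvd ρ k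
    have hnp : ¬ p ∣ orderOf (ρ k) := fun h => P.not_dvd_index (h.trans hd1)
    exact (Nat.Coprime.pow_right a
      ((Nat.Prime.coprime_iff_not_dvd Fact.out).mpr hnp).symm).dvd_of_dvd_mul_left hd2
  exact orderOf_dvd_iff_pow_eq_one.mp (hdm.trans hmq)

end Weights

section Main

variable {F : Type*} [Field F] [Fintype F] {H : Type*} [Group H] [Finite H]
  {n : Type*} [Fintype n] [DecidableEq n]

/-- The map to the projective group. -/
def proj (ρ : H →* GL n F) : H →* GL n F ⧸ scal n F := (QuotientGroup.mk' (scal n F)).comp ρ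

/-- The data produced by a nonscalar kernel. -/
theorem exists_module [Nonempty n] {A : Type*} [Group A] [IsSimpleGroup A]
    (hA : commutator A = ⊤) (p : ℕ) [Fact p.Prime] [CharP F p]
    (hsplit : ∀ h : H, (orderOf h).Coprime p → orderOf h ∣ Fintype.card F - 1)
    (π : H →* A) (hπ : Function.Surjective π)
    (hK : Group.IsNilpotent ↥π.ker)
    (ρ : H →* GL n F) (hirr : Irred ρ)
    (hirrU : ∀ U : Subgroup H, U.map π = ⊤ → Irred (ρ.comp U.subtype))
    {ℓ : ℕ} [Fact ℓ.Prime] (z : H) (hz : z ^ ℓ = 1)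
    (hzπ : π z ≠ 1) (hfix : ∀ v : n → F, (ρ z : Matrix n n F) *ᵥ v = v → v = 0)
    (hns : ¬ ∀ k ∈ π.ker, IsScalarMat (ρ k)) :
    ∃ V : Subgroup (GL n F ⧸ scal n F), Nat.card ↥V ≤ Fintype.card n * Fintype.card n ∧
      V ≠ ⊥ ∧ (∀ a ∈ V, ∀ b ∈ V, Commute a b) ∧ V ≤ π.ker.map (proj ρ) ∧
      (∀ a ∈ V, (∀ b ∈ V, pcomm a b = 1) → a = 1) ∧
      ∃ act : H →* MulAut ↥V,
        (∀ h a, ((act h a : ↥V) : GL n F ⧸ scal n F) = proj ρ h * a * (proj ρ h)⁻¹) ∧
        (∀ k ∈ π.ker, act k = 1) ∧ (∀ h, π h ≠ 1 → act h ≠ 1) := by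
  classical
  set ψ := proj ρ with hψ
  let K' : Subgroup (GL n F ⧸ scal n F) := π.ker.map ψ
  have hK'ne : K' ≠ ⊥ := by
    intro hb
    refine hns fun k hk => isScalarMat_of_mem ?_
    rw [← QuotientGroup.eq_one_iff]
    exact (Subgroup.eq_bot_iff_forall _).mp hb _ ⟨k, hk, rfl⟩
  haveI : Nontrivial ↥K' := (Subgroup.nontrivial_iff_ne_bot _).mpr hK'ne
  haveI : Group.IsNilpotent ↥K' := by
    haveI := hK
    exact Group.nilpotent_of_surjective (ψ.subgroupMap π.ker)
      (ψ.subgroupMap_surjective π.ker)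
  let V : Subgroup (GL n F ⧸ scal n F) := (Subgroup.center ↥K').map K'.subtype
  have hVle : V ≤ K' := Subgroup.map_subtype_le _
  have hVmem : ∀ a, a ∈ V ↔ a ∈ K' ∧ ∀ b ∈ K', Commute a b := by
    intro a
    constructor
    · rintro ⟨c, hc, rfl⟩
      exact ⟨c.2, fun b hb => (congrArg Subtype.val
        (Subgroup.mem_center_iff.mp hc ⟨b, hb⟩)).symm⟩
    · rintro ⟨ha, hc⟩
      exact ⟨⟨a, ha⟩, Subgroup.mem_center_iff.mpr fun b => Subtype.ext (hc b b.2).eq.symm, rfl⟩
  have hVne : V ≠ ⊥ := by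
    rw [Ne, Subgroup.map_eq_bot_iff_of_injective _ K'.subtype_injective]
    exact Group.IsNilpotent.center_ne_bot ↥K'
  have hK'conj : ∀ h : H, ∀ b ∈ K', ψ h * b * (ψ h)⁻¹ ∈ K' := by
    rintro h _ ⟨k, hk, rfl⟩
    exact ⟨h * k * h⁻¹, (MonoidHom.normal_ker π).conj_mem k hk h, by
      rw [map_mul, map_mul, map_inv]⟩
  have hVconj : ∀ h : H, ∀ a ∈ V, ψ h * a * (ψ h)⁻¹ ∈ V := by
    intro h a ha
    rw [hVmem] at ha ⊢
    refine ⟨hK'conj h a ha.1, fun b hb => ?_⟩
    have h1 := ha.2 _ (hK'conj h⁻¹ b hb)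
    rw [map_inv, inv_inv] at h1
    have h2 := h1.map (MulAut.conj (ψ h)).toMonoidHom
    simpa [MulAut.conj_apply, mul_assoc] using h2
  have hVcomm : ∀ a ∈ V, ∀ b ∈ V, Commute a b :=
    fun a ha b hb => ((hVmem a).mp ha).2 b (hVle hb)
  have hpow := pow_card_sub_one p hsplit ρ hirr π.ker hK
  -- elements of the preimage commuting with the whole preimage are scalar
  have hnd : ∀ a ∈ V, (∀ b ∈ V, pcomm a b = 1) → a = 1 := by
    intro a ha hc
    let U : Subgroup H :=
      { carrier := {u | u ∈ π.ker ∧ ψ u ∈ V ∧ ∀ w ∈ π.ker, ψ w ∈ V → Commute (ρ u) (ρ w)}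
        one_mem' := ⟨one_mem _, by rw [map_one]; exact V.one_mem, fun w _ _ => by
          rw [map_one]; exact Commute.one_left _⟩
        mul_mem' := fun {u u'} hu hu' => ⟨mul_mem hu.1 hu'.1,
          by rw [map_mul]; exact V.mul_mem hu.2.1 hu'.2.1,
          fun w hw hw' => by
            rw [map_mul]; exact (hu.2.2 w hw hw').mul_left (hu'.2.2 w hw hw')⟩
        inv_mem' := fun {u} hu => ⟨inv_mem hu.1, by rw [map_inv]; exact V.inv_mem hu.2.1,
          fun w hw hw' => by rw [map_inv]; exact (hu.2.2 w hw hw').inv_left⟩ }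
    haveI : U.Normal := ⟨fun u hu h => ⟨(MonoidHom.normal_ker π).conj_mem u hu.1 h,
      by rw [map_mul, map_mul, map_inv]; exact hVconj h _ hu.2.1,
      fun w hw hw' => by
        have h1 := hu.2.2 (h⁻¹ * w * h)
          (by simpa using (MonoidHom.normal_ker π).conj_mem w hw h⁻¹)
          (by simpa using hVconj h⁻¹ _ hw')
        have h2 := h1.map (MulAut.conj (ρ h)).toMonoidHom
        simpa [MulAut.conj_apply, mul_assoc] using h2⟩⟩
    obtain ⟨k, hk, rfl⟩ := hVle ha
    have hkU : k ∈ U := by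
      refine ⟨hk, ha, fun w _ hwV => ?_⟩
      rw [← commutatorElement_eq_one_iff_commute, ← pcomm_mk]
      exact hc _ hwV
    refine (QuotientGroup.eq_one_iff _).mpr (mem_of_isScalarMat ?_)
    exact scalar_of_commuting π hπ ρ hirr hirrU z hz hzπ hfix U (fun u hu => hpow u hu.1)
      (fun u hu w hw => hu.2.2 w hw.1 hw.2.1) k hkU
  let actFun : H → ↥V → ↥V := fun h a => ⟨ψ h * a * (ψ h)⁻¹, hVconj h a a.2⟩
  let act : H →* MulAut ↥V :=
    { toFun := fun h =>
        { toFun := actFun h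
          invFun := actFun h⁻¹
          left_inv := fun a => Subtype.ext (by simp [actFun, mul_assoc])
          right_inv := fun a => Subtype.ext (by simp [actFun, mul_assoc])
          map_mul' := fun a b => Subtype.ext (by simp [actFun, mul_assoc]) }
      map_one' := MulEquiv.ext fun a => Subtype.ext (by simp [actFun])
      map_mul' := fun g h => MulEquiv.ext fun a => Subtype.ext (by
        simp [actFun, mul_assoc, MulAut.mul_apply]) }
  have hker : π.ker ≤ act.ker := by
    intro k hk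
    refine MulEquiv.ext fun a => Subtype.ext ?_
    show ψ k * a * (ψ k)⁻¹ = a
    rw [← (((hVmem a).mp a.2).2 (ψ k) ⟨k, hk, rfl⟩).eq, mul_inv_cancel_right]
  have hfaith : ∀ h, π h ≠ 1 → act h ≠ 1 := by
    intro h hh h1
    have hker_top : act.ker = ⊤ := by
      haveI := Subgroup.Normal.map (MonoidHom.normal_ker act) π hπ
      rcases Subgroup.Normal.eq_bot_or_eq_top (inferInstance : (act.ker.map π).Normal) with
        hb | ht
      · exact absurd ((Subgroup.eq_bot_iff_forall _).mp hb _ ⟨h, h1, rfl⟩) hh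
      · refine (Subgroup.eq_top_iff' _).mpr fun x => ?_
        obtain ⟨y, hy, hyx⟩ := (ht ▸ Subgroup.mem_top (π x) : π x ∈ act.ker.map π)
        have hk : y⁻¹ * x ∈ act.ker := hker (MonoidHom.mem_ker.mpr (by
          rw [map_mul, map_inv, hyx, inv_mul_cancel]))
        have := mul_mem hy hk
        rwa [mul_inv_cancel_left] at this
    -- a trivial action forces exact commutation on a perfect covering subgroup
    apply hVne
    rw [Subgroup.eq_bot_iff_forall]
    intro a ha
    obtain ⟨k, hkK, rfl⟩ := hVle ha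
    set g := ρ k with hg
    have hsc : ∀ h' : H, ⁅ρ h', g⁆ ∈ scal n F := by
      intro h'
      refine comm_mem_scal_of_commute ?_
      have h2 : h' ∈ act.ker := by rw [hker_top]; trivial
      have h3 := congrArg Subtype.val
        (DFunLike.congr_fun (MonoidHom.mem_ker.mp h2) (⟨_, ha⟩ : ↥V))
      exact mul_inv_eq_iff_eq_mul.mp h3
    let φ : H →* ↥(scal n F) :=
      { toFun := fun h' => ⟨⁅ρ h', g⁆, hsc h'⟩
        map_one' := Subtype.ext (by simp)
        map_mul' := fun x y => Subtype.ext (by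
          show ⁅ρ (x * y), g⁆ = _
          rw [map_mul, comm_mul_left' (hsc y)]; rfl) }
    have hφ : commutator H ≤ φ.ker := by
      rw [commutator, Subgroup.commutator_le]
      intro x _ y _
      rw [MonoidHom.mem_ker, map_commutatorElement, commutatorElement_eq_one_iff_commute]
      exact Subtype.ext (scal_commute (φ x).2 _).eq
    have hcov : (commutator H).map π = ⊤ := by
      rw [commutator, Subgroup.map_commutator, Subgroup.map_top_of_surjective π hπ]
      exact hA
    have hcom : ∀ w ∈ commutator H, Commute (ρ w) g := fun w hw =>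
      commutatorElement_eq_one_iff_commute.mp (congrArg Subtype.val (MonoidHom.mem_ker.mp (hφ hw)))
    have hgq : (g : Matrix n n F) ^ Fintype.card F = g := by
      rw [show Fintype.card F = Fintype.card F - 1 + 1 from (Nat.sub_add_cancel Fintype.card_pos).symm,
        ← Units.val_pow_eq_pow_val, pow_succ, hpow k hkK, one_mul]
    obtain ⟨χ, hχ⟩ := exists_common_eigen (fun _ : Unit => (g : Matrix n n F)) (fun _ => hgq)
      (fun _ _ => Commute.refl _)
    have hinv : ∀ w : ↥(commutator H), ∀ v ∈ eigSp (fun _ : Unit => (g : Matrix n n F)) χ,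
        ((ρ.comp (commutator H).subtype) w : Matrix n n F) *ᵥ v ∈
          eigSp (fun _ : Unit => (g : Matrix n n F)) χ := by
      intro w v hv u
      show (g : Matrix n n F) *ᵥ ((ρ w : Matrix n n F) *ᵥ v) = _
      rw [Matrix.mulVec_mulVec, ← Units.val_mul, ← (hcom w w.2).eq, Units.val_mul,
        ← Matrix.mulVec_mulVec,
        show (g : Matrix n n F) *ᵥ v = _ from hv u, Matrix.mulVec_smul]
      rfl
    have htop := (hirrU _ hcov _ hinv).resolve_left hχ
    refine (QuotientGroup.eq_one_iff _).mpr (mem_of_isScalarMat ⟨χ (), ?_⟩)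
    refine Matrix.ext_of_mulVec_single fun i => ?_
    have hmem : (Pi.single i (1 : F) : n → F) ∈ eigSp (fun _ : Unit => (g : Matrix n n F)) χ := by
      rw [htop]; trivial
    rw [show (g : Matrix n n F) *ᵥ Pi.single i 1 = _ from hmem (), Matrix.smul_mulVec,
      Matrix.one_mulVec]
  exact ⟨V, card_le_sq_of_nondeg V hVcomm hnd, hVne, hVcomm, hVle, hnd, act, fun h a => rfl,
    fun k hk => MonoidHom.mem_ker.mp (hker hk), hfaith⟩

/-- The degree four case with irreducible covering subgroups in place of minimality. -/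
theorem scalar_kernel_seven' {F : Type*} [Field F] [Fintype F] (p : ℕ) [Fact p.Prime] [CharP F p]
    {H : Type*} [Group H] [Finite H] {n : Type*} [Fintype n] [DecidableEq n]
    (hn : Fintype.card n = 4)
    (hsplit : ∀ h : H, (orderOf h).Coprime p → orderOf h ∣ Fintype.card F - 1)
    (π : H →* ↥(alternatingGroup (Fin 7))) (hπ : Function.Surjective π)
    (hK : Group.IsNilpotent ↥π.ker) (ρ : H →* GL n F)
    (hirrU : ∀ U : Subgroup H, U.map π = ⊤ → Irred (ρ.comp U.subtype)) {ℓ : ℕ} [Fact ℓ.Prime] (z : H) (hz : z ^ ℓ = 1)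
    (hzπ : π z ≠ 1) (hfix : ∀ v : n → F, (ρ z : Matrix n n F) *ᵥ v = v → v = 0) :
    ∀ k ∈ π.ker, IsScalarMat (ρ k) := by
  classical
  have hirr : Irred ρ := fun W hW =>
    hirrU ⊤ (Subgroup.map_top_of_surjective π hπ) W fun h v hv => hW h v hv
  haveI : Nonempty n := Fintype.card_pos_iff.mp (by omega)
  haveI : Fact (Nat.Prime 7) := ⟨by norm_num⟩
  haveI : Fact (Nat.Prime 5) := ⟨by norm_num⟩
  haveI : IsSimpleGroup ↥(alternatingGroup (Fin 7)) := alternatingGroup.isSimpleGroup (by simp)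
  by_contra hns
  obtain ⟨V, hcard, -, hVc, -, hnd, act, hact, hker, hfaith⟩ :=
    exists_module (commutator_alternatingGroup_eq_top (by simp)) p hsplit π hπ hK ρ hirr hirrU z hz
      hzπ hfix hns
  letI : CommGroup ↥V :=
    { (inferInstance : Group ↥V) with
      mul_comm := fun a b => Subtype.ext (hVc a a.2 b b.2).eq }
  have hlift : ∀ m : ℕ, Nat.Prime m → m ∣ Nat.card ↥(alternatingGroup (Fin 7)) →
      ∃ σ : MulAut ↥V, σ ^ m = 1 ∧ σ ≠ 1 ∧ ∃ h : H, act h = σ := by
    intro m hm hdvd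
    haveI : Fact m.Prime := ⟨hm⟩
    obtain ⟨a, ha⟩ := exists_prime_orderOf_dvd_card' m hdvd
    obtain ⟨h, rfl⟩ := hπ a
    refine ⟨act h, ?_, hfaith h ?_, h, rfl⟩
    · rw [← map_pow]
      apply hker
      rw [MonoidHom.mem_ker, map_pow, ← ha, pow_orderOf_eq_one]
    · intro h1
      rw [h1, orderOf_one] at ha
      exact hm.one_lt.ne ha
  have hA7 : Nat.card ↥(alternatingGroup (Fin 7)) = 2520 := by
    have h := two_mul_card_alternatingGroup (α := Fin 7)
    rw [Fintype.card_perm, Fintype.card_fin] at h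
    rw [Nat.card_eq_fintype_card]
    have : Nat.factorial 7 = 5040 := rfl
    omega
  obtain ⟨b, hb, hb1, g, hg⟩ := hlift 7 (by norm_num) (by rw [hA7]; norm_num)
  obtain ⟨f, hf, hf1, -, -⟩ := hlift 5 (by norm_num) (by rw [hA7]; norm_num)
  refine no_module_seven (V := ↥V) (by rw [hn] at hcard; exact hcard) b f hb hb1 hf hf1 ?_
  intro v hv hvv hbv
  have hc2 : ∀ a c : ↥V,
      pcomm (a : GL n F ⧸ scal n F) (c : GL n F ⧸ scal n F) ∈ scal n F := fun a c =>
    comm_mem_scal_of_commute (by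
      rw [QuotientGroup.out_eq', QuotientGroup.out_eq']; exact hVc a a.2 c c.2)
  have hmulr : ∀ a c d : ↥V, pcomm (a : GL n F ⧸ scal n F) ((c * d : ↥V) : GL n F ⧸ scal n F) =
      pcomm (a : GL n F ⧸ scal n F) (c : GL n F ⧸ scal n F) *
      pcomm (a : GL n F ⧸ scal n F) (d : GL n F ⧸ scal n F) := by
    rintro ⟨a, ha⟩ ⟨c, hc⟩ ⟨d, hd⟩
    obtain ⟨ga, rfl⟩ := QuotientGroup.mk_surjective a
    obtain ⟨gc, rfl⟩ := QuotientGroup.mk_surjective c
    obtain ⟨gd, rfl⟩ := QuotientGroup.mk_surjective d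
    show pcomm _ ((QuotientGroup.mk gc) * (QuotientGroup.mk gd)) = _
    rw [← QuotientGroup.mk_mul, pcomm_mk, pcomm_mk, pcomm_mk]
    exact comm_mul_right' (comm_mem_scal_of_commute (hVc _ ha _ hd))
  have hone : ∀ c : GL n F ⧸ scal n F, pcomm 1 c = 1 := by
    intro c
    obtain ⟨gc, rfl⟩ := QuotientGroup.mk_surjective c
    rw [← QuotientGroup.mk_one, pcomm_mk]
    simp
  let β : ↥V →* GL n F := MonoidHom.mk' (fun c => pcomm (v : GL n F ⧸ scal n F) c) (hmulr v)
  refine ⟨β.ker, ?_, ?_, ?_, ?_⟩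
  · intro ht
    apply hv
    apply Subtype.ext
    exact hnd _ v.2 fun c hc => (ht ▸ Subgroup.mem_top (⟨c, hc⟩ : ↥V) : (⟨c, hc⟩ : ↥V) ∈ β.ker)
  · rw [Subgroup.index_ker]
    have hsub : ∀ r ∈ β.range, r = 1 ∨ r = Matrix.GeneralLinearGroup.scalar n (-1 : Fˣ) := by
      rintro _ ⟨c, rfl⟩
      have h1 : β c * β c = 1 := by
        obtain ⟨gv, hgv⟩ := QuotientGroup.mk_surjective (v : GL n F ⧸ scal n F)
        obtain ⟨gc, hgc⟩ := QuotientGroup.mk_surjective (c : GL n F ⧸ scal n F)
        show pcomm _ _ * pcomm _ _ = 1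
        rw [← hgv, ← hgc, pcomm_mk]
        have hs : ⁅gv, gc⁆ ∈ scal n F := by
          apply comm_mem_scal_of_commute
          rw [hgv, hgc]; exact hVc v v.2 c c.2
        rw [← comm_mul_left' hs, ← pcomm_mk, QuotientGroup.mk_mul, hgv]
        rw [show (v : GL n F ⧸ scal n F) * v = 1 from congrArg Subtype.val hvv, hone]
      obtain ⟨u, hu⟩ : β c ∈ scal n F := hc2 v c
      rw [← hu, ← map_mul, ← map_one (Matrix.GeneralLinearGroup.scalar (R := F) n)] at h1
      have h2 : (u : F) * (u : F) = 1 := by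
        have h3 := congrArg (fun g : GL n F => (g : Matrix n n F)
          (Classical.arbitrary n) (Classical.arbitrary n)) h1
        simpa [Matrix.GeneralLinearGroup.coe_scalar, Matrix.scalar_apply] using h3
      rcases mul_self_eq_one_iff.mp h2 with h | h
      · left; rw [← hu, show u = 1 from Units.ext h, map_one]
      · right; rw [← hu, show u = -1 from Units.ext (by simpa using h)]
    have : (β.range : Set (GL n F)) ⊆
        {1, Matrix.GeneralLinearGroup.scalar n (-1 : Fˣ)} := fun r hr => hsub r hr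
    calc Nat.card ↥β.range = Set.ncard (β.range : Set (GL n F)) := Nat.card_coe_set_eq _
      _ ≤ Set.ncard ({1, Matrix.GeneralLinearGroup.scalar n (-1 : Fˣ)} : Set (GL n F)) :=
          Set.ncard_le_ncard this (Set.toFinite _)
      _ ≤ 2 := by
          refine (Set.ncard_insert_le _ _).trans ?_
          simp
  · show pcomm _ _ = 1
    simp [pcomm]
  · intro c hc
    show pcomm _ _ = 1
    have hbc : act g v = v := by rw [hg]; exact hbv
    have h1 := pcomm_conj (hVc v v.2 c c.2) (proj ρ g)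
    rw [← hact g v, ← hact g c, hbc, hg] at h1
    rw [h1]; exact hc

theorem scalar_kernel_seven {F : Type*} [Field F] [Fintype F] (p : ℕ) [Fact p.Prime] [CharP F p]
    {H : Type*} [Group H] [Finite H] {n : Type*} [Fintype n] [DecidableEq n]
    (hn : Fintype.card n = 4)
    (hsplit : ∀ h : H, (orderOf h).Coprime p → orderOf h ∣ Fintype.card F - 1)
    (π : H →* ↥(alternatingGroup (Fin 7))) (hπ : Function.Surjective π)
    (hmin : ∀ U : Subgroup H, U.map π = ⊤ → U = ⊤) (hK : Group.IsNilpotent ↥π.ker)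
    (ρ : H →* GL n F) (hirr : Irred ρ) {ℓ : ℕ} [Fact ℓ.Prime] (z : H) (hz : z ^ ℓ = 1)
    (hzπ : π z ≠ 1) (hfix : ∀ v : n → F, (ρ z : Matrix n n F) *ᵥ v = v → v = 0) :
    ∀ k ∈ π.ker, IsScalarMat (ρ k) := by
  refine scalar_kernel_seven' p hn hsplit π hπ hK ρ (fun U hU => ?_) z hz hzπ hfix
  obtain rfl := hmin U hU
  exact fun W hW => hirr W fun h v hv => hW ⟨h, trivial⟩ v hv

theorem scalar_kernel_twelve {F : Type*} [Field F] [Fintype F] (p : ℕ) [Fact p.Prime] [CharP F p]
    {H : Type*} [Group H] [Finite H] {n : Type*} [Fintype n] [DecidableEq n]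
    (hn : Fintype.card n = 16)
    (hsplit : ∀ h : H, (orderOf h).Coprime p → orderOf h ∣ Fintype.card F - 1)
    (π : H →* ↥(alternatingGroup (Fin 12))) (hπ : Function.Surjective π)
    (hmin : ∀ U : Subgroup H, U.map π = ⊤ → U = ⊤) (hK : Group.IsNilpotent ↥π.ker)
    (hK5 : ¬ 5 ∣ Nat.card ↥π.ker)
    (ρ : H →* GL n F) (hirr : Irred ρ) (z z' x : H) (hz : z ^ 5 = 1) (hz' : z' ^ 5 = 1)
    (hzz : Commute z z') (hxz : x * z * x⁻¹ = z) (hxz' : x * z' * x⁻¹ = z' ^ 2)
    (hzπ : π z ≠ 1) (hfix : ∀ v : n → F, (ρ z : Matrix n n F) *ᵥ v = v → v = 0)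
    (hC : ∀ k ∈ π.ker, Commute k z → IsScalarMat (ρ k))
    (hC' : ∀ k ∈ π.ker, Commute k z' → IsScalarMat (ρ k)) :
    ∀ k ∈ π.ker, IsScalarMat (ρ k) := by
  classical
  haveI : Nonempty n := Fintype.card_pos_iff.mp (by omega)
  haveI : Fact (Nat.Prime 5) := ⟨by norm_num⟩
  haveI : IsSimpleGroup ↥(alternatingGroup (Fin 12)) := alternatingGroup.isSimpleGroup (by simp)
  by_contra hns
  obtain ⟨V, hcard, hVne, hVc, hVle, -, act, hact, -, -⟩ :=
    exists_module (commutator_alternatingGroup_eq_top (by simp)) p hsplit π hπ hK ρ hirr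
      (fun U hU => by
        obtain rfl := hmin U hU
        exact fun W hW => hirr W fun h v hv => hW ⟨h, trivial⟩ v hv) z hz hzπ hfix hns
  letI : CommGroup ↥V :=
    { (inferInstance : Group ↥V) with
      mul_comm := fun a b => Subtype.ext (hVc a a.2 b b.2).eq }
  haveI : Nontrivial ↥V := (Subgroup.nontrivial_iff_ne_bot _).mpr hVne
  have hfree : ∀ w : H, w ^ 5 = 1 → (∀ k ∈ π.ker, Commute k w → IsScalarMat (ρ k)) →
      ∀ a : ↥V, act w a = a → a = 1 := by
    intro w hw hCw a ha
    obtain ⟨k, hk, hka⟩ := hVle a.2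
    let f : ↥π.ker →* GL n F ⧸ scal n F := (proj ρ).comp π.ker.subtype
    let X : Set ↥π.ker := {u | f u = (a : GL n F ⧸ scal n F)}
    let σ : Equiv.Perm ↥π.ker := (MulAut.conjNormal w).toEquiv
    have hσ : ∀ u, u ∈ X → σ u ∈ X := by
      intro u hu
      show proj ρ (w * u * w⁻¹) = _
      rw [map_mul, map_mul, map_inv, show proj ρ u = (a : GL n F ⧸ scal n F) from hu, ← hact w a, ha]
    have hσ5 : σ ^ 5 = 1 := by
      have h1 : MulAut.toPerm _ (MulAut.conjNormal w : MulAut ↥π.ker) = σ := rfl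
      rw [← h1, ← map_pow, ← map_pow, hw, map_one, map_one]
    have hσ' : ∀ u, σ u ∈ X ↔ u ∈ X := by
      intro u
      refine ⟨fun h => ?_, hσ u⟩
      have h4 : σ (σ (σ (σ (σ u)))) = u := by
        have := DFunLike.congr_fun hσ5 u
        simpa [pow_succ, Equiv.Perm.mul_apply] using this
      rw [← h4]
      exact hσ _ (hσ _ (hσ _ (hσ _ h)))
    let τ : Equiv.Perm X := σ.subtypePerm hσ'
    have hτ : τ ^ 5 = 1 := by
      have hk : ∀ (m : ℕ) (u : X), ((τ ^ m) u : ↥π.ker) = (σ ^ m) u := by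
        intro m
        induction m with
        | zero => intro u; rfl
        | succ m IH =>
          intro u; rw [pow_succ, pow_succ, Equiv.Perm.mul_apply, Equiv.Perm.mul_apply, IH]; rfl
      refine Equiv.ext fun u => Subtype.ext ?_
      rw [hk, hσ5]; rfl
    have hXcard : Nat.card X = Nat.card ↥f.ker := by
      refine Nat.card_congr
        { toFun := fun u => ⟨(⟨k, hk⟩ : ↥π.ker)⁻¹ * u.1, ?_⟩
          invFun := fun u => ⟨(⟨k, hk⟩ : ↥π.ker) * u.1, ?_⟩
          left_inv := fun u => Subtype.ext (mul_inv_cancel_left _ _)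
          right_inv := fun u => Subtype.ext (inv_mul_cancel_left _ _) }
      · rw [MonoidHom.mem_ker, map_mul, map_inv, (u.2 : f u.1 = _)]
        show (proj ρ k)⁻¹ * _ = 1
        rw [hka, inv_mul_cancel]
      · show f _ = _
        rw [map_mul, MonoidHom.mem_ker.mp u.2, mul_one]
        exact hka
    obtain ⟨u, hu⟩ : ∃ u : X, τ u = u := by
      by_contra hno
      push_neg at hno
      haveI : IsEmpty {u : X // τ u = u} := ⟨fun u => hno u.1 u.2⟩
      have h := card_fix_modEq τ hτ
      rw [hXcard, Nat.card_of_isEmpty (α := {u : X // τ u = u})] at h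
      exact hK5 ((Nat.modEq_zero_iff_dvd.mp h).trans (Subgroup.card_subgroup_dvd_card _))
    have hu' : σ u.1 = u.1 := congrArg Subtype.val hu
    have hu'' : w * (u.1 : H) * w⁻¹ = (u.1 : H) := congrArg Subtype.val hu'
    have hcomm : Commute (u.1 : H) w := (mul_inv_eq_iff_eq_mul.mp hu'').symm
    have h1 := hCw _ u.1.2 hcomm
    apply Subtype.ext
    rw [← (u.2 : f u.1 = _)]
    exact (QuotientGroup.eq_one_iff _).mpr (mem_of_isScalarMat h1)
  have h := card_ge_of_two_five (V := ↥V) (act z) (act z') (act x)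
    (by rw [← map_pow, hz, map_one]) (by rw [← map_pow, hz', map_one])
    (hzz.map act) (by rw [← map_inv, ← map_mul, ← map_mul, hxz])
    (by rw [← map_inv, ← map_mul, ← map_mul, hxz', map_pow])
    (hfree z hz hC) (hfree z' hz' hC')
  rw [hn] at hcard
  omega

end Main

end CfsgLib.E6Alt65
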