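import Cfsg.Agent.E6AltSection65.Eleven
import Cfsg.Agent.E6AltSection65.Blocks
import Cfsg.Agent.E6AltSection65.Index

/-!
A subgroup of order twenty-five over two commuting five-cycles of degree twelve, put into the torus in
standard position.
-/

set_option autoImplicit false

namespace CfsgLib.E6Alt65

open Cfsg.Lie CfsgLib.Chevalley

local notation "S" => sysE6

/-- `(0 1 2 3 4)`. -/
def a12 : ↥(alternatingGroup (Fin 12)) :=
  ⟨Equiv.swap 0 1 * Equiv.swap 1 2 * Equiv.swap 2 3 * Equiv.swap 3 4,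
    Equiv.Perm.mem_alternatingGroup.mpr (by decide)⟩

/-- `(5 6 7 8 9)`. -/
def b12 : ↥(alternatingGroup (Fin 12)) :=
  ⟨Equiv.swap 5 6 * Equiv.swap 6 7 * Equiv.swap 7 8 * Equiv.swap 8 9,
    Equiv.Perm.mem_alternatingGroup.mpr (by decide)⟩

/-- `(1 2 4 3)(10 11)`: squares the first five-cycle. -/
def sa12 : ↥(alternatingGroup (Fin 12)) :=
  ⟨Equiv.swap 1 2 * Equiv.swap 2 4 * Equiv.swap 4 3 * Equiv.swap 10 11,
    Equiv.Perm.mem_alternatingGroup.mpr (by decide)⟩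

/-- `(6 7 9 8)(10 11)`: squares the second five-cycle. -/
def sb12 : ↥(alternatingGroup (Fin 12)) :=
  ⟨Equiv.swap 6 7 * Equiv.swap 7 9 * Equiv.swap 9 8 * Equiv.swap 10 11,
    Equiv.Perm.mem_alternatingGroup.mpr (by decide)⟩

theorem table12 : a12 ^ 5 = 1 ∧ b12 ^ 5 = 1 ∧ sa12 * a12 * sa12⁻¹ = a12 ^ 2 ∧
    sa12 * b12 * sa12⁻¹ = b12 ∧ sb12 * a12 * sb12⁻¹ = a12 ∧ sb12 * b12 * sb12⁻¹ = b12 ^ 2 ∧
    a12 * b12 = b12 * a12 ∧ a12 ≠ 1 ∧ b12 ≠ 1 := by decide +kernel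

theorem zpowers_b12_inf : ∀ i j : Fin 5, a12 ^ (i : ℕ) = b12 ^ (j : ℕ) → i = 0 ∧ j = 0 := by
  decide +kernel

/-- The elementary abelian subgroup generated by the two five-cycles. -/
def P12 : Subgroup ↥(alternatingGroup (Fin 12)) where
  carrier := {q | ∃ i j : ℕ, q = a12 ^ i * b12 ^ j}
  one_mem' := ⟨0, 0, by simp⟩
  mul_mem' := by
    rintro _ _ ⟨i, j, rfl⟩ ⟨k, l, rfl⟩
    refine ⟨i + k, j + l, ?_⟩
    have h : Commute b12 a12 := table12.2.2.2.2.2.2.1.symm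
    rw [pow_add, pow_add, mul_assoc (a12 ^ i), ← mul_assoc (b12 ^ j), (h.pow_pow j k).eq]
    simp only [mul_assoc]
  inv_mem' := by
    rintro _ ⟨i, j, rfl⟩
    refine ⟨4 * i, 4 * j, inv_eq_of_mul_eq_one_right ?_⟩
    have h : Commute b12 a12 := table12.2.2.2.2.2.2.1.symm
    rw [mul_assoc (a12 ^ i), ← mul_assoc (b12 ^ j), (h.pow_pow j (4 * i)).eq, mul_assoc,
      ← mul_assoc (a12 ^ i), ← pow_add, ← pow_add, show i + 4 * i = 5 * i by ring,
      show j + 4 * j = 5 * j by ring, pow_mul, pow_mul, table12.1, table12.2.1, one_pow, one_pow,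
      one_mul]

theorem a12_mem : a12 ∈ P12 := ⟨1, 0, by simp⟩

theorem b12_mem : b12 ∈ P12 := ⟨0, 1, by simp⟩

theorem commute_P12 {x y : ↥(alternatingGroup (Fin 12))} (hx : x ∈ P12) (hy : y ∈ P12) :
    Commute x y := by
  have h : Commute a12 b12 := table12.2.2.2.2.2.2.1
  obtain ⟨i, j, rfl⟩ := hx
  obtain ⟨k, l, rfl⟩ := hy
  exact (((Commute.refl a12).pow_pow i k).mul_right (h.pow_pow i l)).mul_left
    ((h.symm.pow_pow j k).mul_right ((Commute.refl b12).pow_pow j l))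

theorem card_P12 : Nat.card ↥P12 = 25 := by
  have hinj : Function.Injective (fun e : Fin 5 × Fin 5 =>
      (⟨a12 ^ (e.1 : ℕ) * b12 ^ (e.2 : ℕ), e.1, e.2, rfl⟩ : ↥P12)) := by
    intro e e' h
    have h' : a12 ^ (e.1 : ℕ) * b12 ^ (e.2 : ℕ) = a12 ^ (e'.1 : ℕ) * b12 ^ (e'.2 : ℕ) :=
      congrArg Subtype.val h
    have key : ∀ e e' : Fin 5 × Fin 5,
        a12 ^ (e.1 : ℕ) * b12 ^ (e.2 : ℕ) = a12 ^ (e'.1 : ℕ) * b12 ^ (e'.2 : ℕ) → e = e' := by
      decide +kernel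
    exact key e e' h'
  have hsurj : Function.Surjective (fun e : Fin 5 × Fin 5 =>
      (⟨a12 ^ (e.1 : ℕ) * b12 ^ (e.2 : ℕ), e.1, e.2, rfl⟩ : ↥P12)) := by
    rintro ⟨_, i, j, rfl⟩
    refine ⟨(⟨i % 5, Nat.mod_lt _ (by norm_num)⟩, ⟨j % 5, Nat.mod_lt _ (by norm_num)⟩), Subtype.ext ?_⟩
    show a12 ^ (i % 5) * b12 ^ (j % 5) = _
    rw [← pow_eq_pow_mod i table12.1, ← pow_eq_pow_mod j table12.2.1]
  rw [← Nat.card_congr (Equiv.ofBijective _ ⟨hinj, hsurj⟩), Nat.card_prod, Nat.card_eq_fintype_card,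
    Fintype.card_fin]

variable {F : Type*} [Field F] [Fintype F]

/-- Conjugation by a monomial element of an embedding. -/
theorem exists_conj_emb {H : Type*} [Group H] (κ : H →* GL chevE6.Idx F)
    (hκ : Function.Injective κ) (hg : ∀ h, κ h ∈ chevE6.group F)
    (n : ↥(chevE6.monomialSubgroup F)) :
    ∃ κ' : H →* GL chevE6.Idx F, Function.Injective κ' ∧ (∀ h, κ' h ∈ chevE6.group F) ∧
      (∀ h, κ' h = (n : GL chevE6.Idx F)⁻¹ * κ h * (n : GL chevE6.Idx F)) ∧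
      ∀ h, κ h ∈ chevE6.diagonalSubgroup F → κ' h ∈ chevE6.diagonalSubgroup F := by
  refine ⟨(MulAut.conj (n : GL chevE6.Idx F)⁻¹).toMonoidHom.comp κ,
    (MulAut.conj (n : GL chevE6.Idx F)⁻¹).injective.comp hκ, fun h => ?_, fun h => ?_, fun h hd => ?_⟩
  · show _ * κ h * _ ∈ _
    exact mul_mem (mul_mem (inv_mem (Sys.monomial_le_group S F n.2)) (hg h))
      (inv_mem (inv_mem (Sys.monomial_le_group S F n.2)))
  · simp
  · show _ * κ h * _ ∈ _
    exact (Subgroup.mem_normalizer_iff.mp (Sys.monomial_le_normalizer S F (inv_mem n.2)) _).mp hd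

/-- The Sylow five-subgroup over the two five-cycles and the lifts of the scalings. -/
theorem exists_sylow {H : Type*} [Group H] [Finite H] (π : H →* ↥(alternatingGroup (Fin 12)))
    (hπ : Function.Surjective π) (hK5 : ¬ 5 ∣ Nat.card ↥π.ker) :
    ∃ P : Subgroup H, Nat.card ↥P = 25 ∧ P ≤ P12.comap π ∧ (∀ s ∈ P, ∀ t ∈ P, π s = π t → s = t) ∧
      (∀ q ∈ P12, ∃ s ∈ P, π s = q) ∧ (∀ x : H, (∀ a ∈ P12, π x * a * (π x)⁻¹ ∈ P12) →
        ∃ y : H, ∀ s ∈ P, y * s * y⁻¹ ∈ P ∧ π (y * s * y⁻¹) = π x * π s * (π x)⁻¹) := by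
  classical
  haveI : Fact (Nat.Prime 5) := ⟨by norm_num⟩
  set M := P12.comap π with hM
  have hcard : Nat.card ↥M = 25 * Nat.card ↥π.ker := by
    have h1 : Nat.card ↥M = Nat.card ↥((π.subgroupComap P12).ker) * Nat.card ↥P12 := by
      rw [← (π.subgroupComap P12).ker.card_mul_index, Subgroup.index_ker,
        MonoidHom.range_eq_top.mpr (π.subgroupComap_surjective_of_surjective P12 hπ),
        Subgroup.card_top]
    rw [h1, card_P12, mul_comm]
    congr 1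
    refine Nat.card_congr
      { toFun := fun k => ⟨k.1.1, congrArg Subtype.val (MonoidHom.mem_ker.mp k.2)⟩
        invFun := fun k => ⟨⟨k.1, ?_⟩, ?_⟩
        left_inv := fun k => rfl
        right_inv := fun k => rfl }
    · show π k.1 ∈ P12
      rw [MonoidHom.mem_ker.mp k.2]; exact one_mem _
    · exact MonoidHom.mem_ker.mpr (Subtype.ext (MonoidHom.mem_ker.mp k.2))
  obtain ⟨R⟩ : Nonempty (Sylow 5 ↥M) := inferInstance
  have hR : Nat.card ↥(R : Subgroup ↥M) = 25 := by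
    rw [R.card_eq_multiplicity, hcard, Nat.factorization_mul (by norm_num) Nat.card_pos.ne',
      Finsupp.add_apply, Nat.factorization_eq_zero_of_not_dvd hK5, add_zero,
      show 25 = 5 ^ 2 by norm_num, Nat.Prime.factorization_pow (by norm_num), Finsupp.single_eq_same]
  set P : Subgroup H := (R : Subgroup ↥M).map M.subtype
  have hP : Nat.card ↥P = 25 := by
    rw [Subgroup.card_map_of_injective M.subtype_injective, hR]
  have hPM : P ≤ M := Subgroup.map_subtype_le _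
  have hinj : ∀ s ∈ P, ∀ t ∈ P, π s = π t → s = t := by
    intro s hs t ht e
    have hk : s⁻¹ * t ∈ π.ker := by rw [MonoidHom.mem_ker, map_mul, map_inv, e, inv_mul_cancel]
    have h1 : orderOf (s⁻¹ * t) ∣ 25 := hP ▸ P.orderOf_dvd_natCard (mul_mem (inv_mem hs) ht)
    have h2 : orderOf (s⁻¹ * t) ∣ Nat.card ↥π.ker := π.ker.orderOf_dvd_natCard hk
    have hco : Nat.Coprime 25 (Nat.card ↥π.ker) := by
      rw [show 25 = 5 ^ 2 by norm_num]
      exact Nat.Coprime.pow_left _ ((Nat.Prime.coprime_iff_not_dvd (by norm_num)).mpr hK5)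
    exact inv_mul_eq_one.mp (orderOf_eq_one_iff.mp (Nat.eq_one_of_dvd_coprimes hco h1 h2))
  have hsurj : ∀ q ∈ P12, ∃ s ∈ P, π s = q := by
    have hmap : P.map π = P12 := by
      refine Subgroup.eq_of_le_of_card_ge (fun q ⟨s, hs, e⟩ => e ▸ hPM hs) ?_
      rw [card_P12]
      have hi : Function.Injective (π.comp P.subtype) := fun s t e =>
        Subtype.ext (hinj s s.2 t t.2 e)
      rw [← hP]
      refine le_of_eq ?_
      refine (Nat.card_congr (MonoidHom.ofInjective hi).toEquiv).trans ?_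
      rw [MonoidHom.range_comp, Subgroup.range_subtype]
    intro q hq
    rw [← hmap] at hq
    exact hq
  refine ⟨P, hP, hPM, hinj, hsurj, fun x hx => ?_⟩
  have hidx : ¬ 5 ∣ P.relIndex M := by
    rw [Subgroup.relIndex, show P.subgroupOf M = (R : Subgroup ↥M) from
      Subgroup.comap_map_eq_self_of_injective M.subtype_injective _]
    exact R.not_dvd_index
  obtain ⟨h, hh, hnorm⟩ := exists_normalizing π P12 P ((R.2).map _) hPM hidx x hx
  refine ⟨h * x, fun s hs => ⟨hnorm s hs, ?_⟩⟩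
  have hc : Commute (π h) (π x * π s * (π x)⁻¹) := commute_P12 hh (hx _ (hPM hs))
  rw [map_mul, map_mul, map_inv, map_mul, mul_inv_rev]
  calc π h * π x * π s * ((π x)⁻¹ * (π h)⁻¹) = π h * (π x * π s * (π x)⁻¹) * (π h)⁻¹ := by group
    _ = _ := by rw [hc.eq, mul_inv_cancel_right]

theorem conj_P12 {x : ↥(alternatingGroup (Fin 12))} {i j k l : ℕ}
    (ha : x * a12 * x⁻¹ = a12 ^ i * b12 ^ j) (hb : x * b12 * x⁻¹ = a12 ^ k * b12 ^ l) :
    ∀ q ∈ P12, x * q * x⁻¹ ∈ P12 := by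
  rintro _ ⟨m, n, rfl⟩
  rw [show x * (a12 ^ m * b12 ^ n) * x⁻¹ = (x * a12 * x⁻¹) ^ m * (x * b12 * x⁻¹) ^ n by
    rw [conj_pow, conj_pow]; group, ha, hb]
  exact P12.mul_mem (P12.pow_mem ⟨i, j, rfl⟩ m) (P12.pow_mem ⟨k, l, rfl⟩ n)

/-- Both five-cycles are lifted into the torus in standard position. -/
theorem exists_setup (hq : 25 ∣ Fintype.card F - 1) {ζ : Fˣ} (hζ : orderOf ζ = 5) {H : Type*}
    [Group H] [Finite H] (i : H →* GL chevE6.Idx F) (hi : Function.Injective i)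
    (hig : ∀ h, i h ∈ chevE6.group F) (π : H →* ↥(alternatingGroup (Fin 12)))
    (hπ : Function.Surjective π) (hK5 : ¬ 5 ∣ Nat.card ↥π.ker) :
    ∃ κ : H →* GL chevE6.Idx F, Function.Injective κ ∧ (∀ h, κ h ∈ chevE6.group F) ∧
      ∃ z z' x : H, π z = a12 ∧ π z' = b12 ∧ z ^ 5 = 1 ∧ z' ^ 5 = 1 ∧ Commute z z' ∧
        x * z * x⁻¹ = z ∧ x * z' * x⁻¹ = z' ^ 2 ∧
        IsLog ζ (κ z) fA ∧ IsLog ζ (κ z') fB := by
  classical
  haveI : Fact (Nat.Prime 5) := ⟨by norm_num⟩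
  obtain ⟨ha5, hb5, hsaa, hsab, hsba, hsbb, hab, hane, hbne⟩ := table12
  obtain ⟨P, hP, hPM, hinj, hsurj, hlift⟩ := exists_sylow π hπ hK5
  have hPp : IsPGroup 5 ↥P := IsPGroup.of_card (n := 2) (by rw [hP]; norm_num)
  have hPc : ∀ s ∈ P, ∀ t ∈ P, Commute s t := fun s hs t ht =>
    hinj _ (mul_mem hs ht) _ (mul_mem ht hs) (by
      rw [map_mul, map_mul]; exact (commute_P12 (hPM hs) (hPM ht)).eq)
  have hP5 : ∀ s ∈ P, s ^ 5 = 1 := fun s hs => by
    refine hinj _ (pow_mem hs 5) _ (one_mem P) ?_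
    obtain ⟨m, n, e⟩ := hPM hs
    have hc : Commute a12 b12 := hab
    rw [map_pow, map_one, e, (hc.pow_pow m n).mul_pow, ← pow_mul, ← pow_mul, mul_comm m,
      mul_comm n, pow_mul, pow_mul, ha5, hb5, one_pow, one_pow, one_mul]
  obtain ⟨z, hzP, hz⟩ := hsurj _ a12_mem
  obtain ⟨z', hz'P, hz'⟩ := hsurj _ b12_mem
  have hscale : ∀ x : ↥(alternatingGroup (Fin 12)), ∀ u v : ℕ, x * a12 * x⁻¹ = a12 ^ u →
      x * b12 * x⁻¹ = b12 ^ v → ∃ y : H, y * z * y⁻¹ = z ^ u ∧ y * z' * y⁻¹ = z' ^ v ∧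
        ∀ s ∈ P, y * s * y⁻¹ ∈ P ∧ π (y * s * y⁻¹) = x * π s * x⁻¹ := by
    intro x u v hu hv
    obtain ⟨x', rfl⟩ := hπ x
    obtain ⟨y, hy⟩ := hlift x' (conj_P12 (i := u) (j := 0) (k := 0) (l := v)
      (by rw [hu, pow_zero, mul_one]) (by rw [hv, pow_zero, one_mul]))
    refine ⟨y, hinj _ (hy z hzP).1 _ (pow_mem hzP u) ?_, hinj _ (hy z' hz'P).1 _ (pow_mem hz'P v) ?_,
      hy⟩
    · rw [(hy z hzP).2, hz, hu, map_pow, hz]
    · rw [(hy z' hz'P).2, hz', hv, map_pow, hz']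
  obtain ⟨x2, -, -, hx2⟩ := hscale (sa12 * sb12) 2 2
    (by rw [mul_inv_rev, show sa12 * sb12 * a12 * (sb12⁻¹ * sa12⁻¹) =
      sa12 * (sb12 * a12 * sb12⁻¹) * sa12⁻¹ by group, hsba, hsaa])
    (by rw [mul_inv_rev, show sa12 * sb12 * b12 * (sb12⁻¹ * sa12⁻¹) =
      sa12 * (sb12 * b12 * sb12⁻¹) * sa12⁻¹ by group, hsbb, ← conj_pow, hsab])
  obtain ⟨xa, hxaz, hxaz', -⟩ := hscale sa12 2 1 hsaa (by rw [hsab, pow_one])
  obtain ⟨xb, hxbz, hxbz', -⟩ := hscale sb12 1 2 (by rw [hsba, pow_one]) hsbb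
  rw [pow_one] at hxbz
  have hsq : ∀ s ∈ P, x2 * s * x2⁻¹ = s ^ 2 := by
    intro s hs
    refine hinj _ (hx2 s hs).1 _ (pow_mem hs 2) ?_
    obtain ⟨m, n, e⟩ := hPM hs
    have hc : Commute a12 b12 := hab
    rw [(hx2 s hs).2, e, map_pow, e, (hc.pow_pow m n).mul_pow,
      show sa12 * sb12 * (a12 ^ m * b12 ^ n) * (sa12 * sb12)⁻¹ =
        (sa12 * (sb12 * a12 * sb12⁻¹) * sa12⁻¹) ^ m * (sa12 * (sb12 * b12 * sb12⁻¹) * sa12⁻¹) ^ n by
        simp only [conj_pow]; group, hsba, hsaa, hsbb, ← conj_pow, hsab, ← pow_mul, ← pow_mul,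
      ← pow_mul, ← pow_mul, mul_comm 2 m, mul_comm 2 n]
  -- first move the Sylow subgroup into the monomial subgroup
  let iG : H →* ↥(chevE6.group F) := i.codRestrict _ hig
  obtain ⟨g, hg⟩ := F4AltSection.exists_conj_into _ (five_index_monomial (F := F) hq) (hPp.map iG)
  let κ₀ : H →* GL chevE6.Idx F :=
    (MulAut.conj (g : GL chevE6.Idx F)).toMonoidHom.comp i
  have hκ₀ : Function.Injective κ₀ := (MulAut.conj (g : GL chevE6.Idx F)).injective.comp hi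
  have hκ₀g : ∀ h, κ₀ h ∈ chevE6.group F := fun h => mul_mem (mul_mem g.2 (hig h)) (inv_mem g.2)
  have hκ₀N : ∀ s ∈ P, κ₀ s ∈ chevE6.monomialSubgroup F := fun s hs => by
    have := hg _ (Subgroup.mem_map_of_mem iG hs)
    rw [Subgroup.mem_subgroupOf] at this
    exact this
  -- a nontrivial element in the torus
  obtain ⟨z1, hz1P, hz1, hz1d⟩ : ∃ z1 ∈ P, z1 ≠ 1 ∧ κ₀ z1 ∈ chevE6.diagonalSubgroup F := by
    let ψ : ↥P →* Equiv.Perm (Fin chevE6.nroots) :=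
      (Sys.perm S F).comp ((κ₀.comp P.subtype).codRestrict _ fun s => hκ₀N s s.2)
    have hk : ψ.ker ≠ ⊥ := by
      intro hb
      have hinjψ : Function.Injective ψ := (MonoidHom.ker_eq_bot_iff ψ).mp hb
      have hle : ψ.range ≤ F4AltSection.weylPerms S := by
        rintro _ ⟨s, rfl⟩
        exact Sys.exists_wperm S F _
      have h1 := Subgroup.card_dvd_of_le hle
      rw [natCard_weyl, ← Nat.card_congr (MonoidHom.ofInjective hinjψ).toEquiv, hP] at h1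
      norm_num at h1
    obtain ⟨s, hs, hs1⟩ := (Subgroup.bot_or_exists_ne_one ψ.ker).resolve_left hk
    refine ⟨s.1, s.2, fun e => hs1 (Subtype.ext e), ?_⟩
    rw [MonoidHom.mem_ker, MonoidHom.comp_apply, ← MonoidHom.mem_ker, Sys.ker_perm S, hSub,
      Subgroup.mem_subgroupOf] at hs
    exact hs
  obtain ⟨f1, hf1⟩ := exists_log hζ hz1d (by rw [← map_pow, hP5 _ hz1P, map_one])
  obtain ⟨L1, hL1⟩ := exists_perm_scale hζ (hκ₀g x2) hf1 (j := 2)
    (by rw [← map_inv, ← map_mul, ← map_mul, hsq _ hz1P, map_pow])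
  have hne : ∀ {κ' : H →* GL chevE6.Idx F}, Function.Injective κ' → ∀ {s : H}, s ≠ 1 →
      ∀ {f : Fin chevE6.nroots → ZMod 5}, IsLog ζ (κ' s) f → f ≠ 0 := by
    intro κ' hκ' s hs f hf h0
    refine hs (hκ' ?_)
    rw [map_one]
    exact (h0 ▸ hf).unique (isLog_one ζ)
  have hrev : ∀ {f : Fin chevE6.nroots → ZMod 5} {L : List (Fin chevE6.rank)} {c : ZMod 5},
      (∀ s, c * f (Sys.wperm S L s) = f s) → ∀ s, f (Sys.wperm S L.reverse s) = c * f s := by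
    intro f L c h s
    have := h (Sys.wperm S L.reverse s)
    rw [Sys.wperm_reverse, Equiv.Perm.inv_def, Equiv.apply_symm_apply] at this
    rw [Sys.wperm_reverse, Equiv.Perm.inv_def]
    exact this.symm
  obtain ⟨M1, hM1⟩ := orbit_five hf1.1 (hne hκ₀ hz1 hf1) (L := L1.reverse)
    (hrev (c := 2) fun s => by simpa using hL1 s)
  obtain ⟨κ₁, hκ₁, hκ₁g, hκ₁e, -⟩ := exists_conj_emb κ₀ hκ₀ hκ₀g (Sys.wN S F M1)
  have hlog1 : IsLog ζ (κ₁ z1) fA := by
    rw [hκ₁e, show fA = fun s => f1 (Sys.wperm S M1 s) from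
      vals_inj (isLin_mkLin _) (isLin_wperm hf1.1 M1) (vals_fA.trans hM1.symm)]
    exact hf1.exists_conj hζ _ (Sys.perm_wN S F M1)
  have hκ₁d : ∀ s ∈ P, κ₁ s ∈ chevE6.diagonalSubgroup F := by
    intro s hs
    have hN : κ₁ s ∈ chevE6.monomialSubgroup F := by
      rw [hκ₁e]
      exact mul_mem (mul_mem (inv_mem (Sys.wN S F M1).2) (hκ₀N s hs)) (Sys.wN S F M1).2
    obtain ⟨L, hL⟩ := Sys.exists_wperm S F ⟨κ₁ s, hN⟩
    have hfix : ∀ r, fA (Sys.wperm S L r) = fA r := fun r => by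
      rw [← hL]
      refine hlog1.conj hζ hlog1 ⟨κ₁ s, hN⟩ ?_ r
      rw [← map_inv, ← map_mul, ← map_mul, (hPc s hs z1 hz1P).eq, mul_inv_cancel_right]
    obtain ⟨M, -, -, h12⟩ := stab_word hlog1.1 vals_fA hfix
    have h5 : Sys.perm S F ⟨κ₁ s, hN⟩ ^ 5 = 1 := by
      rw [← map_pow, show (⟨κ₁ s, hN⟩ : ↥(chevE6.monomialSubgroup F)) ^ 5 = 1 from Subtype.ext (by
        rw [SubmonoidClass.coe_pow, OneMemClass.coe_one, ← map_pow, hP5 s hs, map_one]), map_one]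
    rw [← hL] at h12
    have h1 : Sys.perm S F ⟨κ₁ s, hN⟩ = 1 := by
      have := pow_gcd_eq_one.mpr ⟨h5, h12⟩
      simpa using this
    rw [← MonoidHom.mem_ker, Sys.ker_perm S, hSub, Subgroup.mem_subgroupOf] at h1
    exact h1
  have hzne : z ≠ 1 := fun e => hane (by rw [← hz, e, map_one])
  have hz'ne : z' ≠ 1 := fun e => hbne (by rw [← hz', e, map_one])
  obtain ⟨f2, hf2⟩ := exists_log hζ (hκ₁d z hzP) (by rw [← map_pow, hP5 _ hzP, map_one])
  obtain ⟨L2, hL2⟩ := exists_perm_scale hζ (hκ₁g xa) hf2 (j := 2)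
    (by rw [← map_inv, ← map_mul, ← map_mul, hxaz, map_pow])
  obtain ⟨M2, hM2⟩ := orbit_five hf2.1 (hne hκ₁ hzne hf2) (L := L2.reverse)
    (hrev (c := 2) fun s => by simpa using hL2 s)
  obtain ⟨κ₂, hκ₂, hκ₂g, hκ₂e, hκ₂d⟩ := exists_conj_emb κ₁ hκ₁ hκ₁g (Sys.wN S F M2)
  have hlog2 : IsLog ζ (κ₂ z) fA := by
    rw [hκ₂e, show fA = fun s => f2 (Sys.wperm S M2 s) from
      vals_inj (isLin_mkLin _) (isLin_wperm hf2.1 M2) (vals_fA.trans hM2.symm)]
    exact hf2.exists_conj hζ _ (Sys.perm_wN S F M2)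
  have hz'd : κ₂ z' ∈ chevE6.diagonalSubgroup F := hκ₂d _ (hκ₁d z' hz'P)
  obtain ⟨f3, hf3⟩ := exists_log hζ hz'd (by rw [← map_pow, hP5 _ hz'P, map_one])
  obtain ⟨n, hn⟩ := F4AltSection.exists_monomial_conj S (hκ₂g xb)
  obtain ⟨L3, hL3⟩ := Sys.exists_wperm S F n
  have hfA : ∀ s, (1 : ZMod 5) * fA (Sys.wperm S L3 s) = fA s := fun s => by
    rw [← hL3, one_mul]
    refine hlog2.conj hζ hlog2 n ?_ s
    have e : κ₂ xb * κ₂ z * (κ₂ xb)⁻¹ = κ₂ z := by rw [← map_inv, ← map_mul, ← map_mul, hxbz]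
    rw [← hn _ (mem_diagonal_of_isLog hlog2) (by rw [e]; exact mem_diagonal_of_isLog hlog2), e]
  have hf3L : ∀ s, (2 : ZMod 5) * f3 (Sys.wperm S L3 s) = f3 s := fun s => by
    rw [← hL3]
    have e : κ₂ xb * κ₂ z' * (κ₂ xb)⁻¹ = κ₂ z' ^ 2 := by
      rw [← map_inv, ← map_mul, ← map_mul, hxbz', map_pow]
    have := hf3.conj hζ (hf3.pow hζ 2) n (by rw [← hn _ hz'd (e ▸ pow_mem hz'd 2), e]) s
    exact_mod_cast this
  obtain ⟨M3, hM3, hM3v⟩ := second hlog2.1 vals_fA hf3.1 (hne hκ₂ hz'ne hf3) (L := L3.reverse)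
    (fun s => by rw [hrev hfA s, one_mul]) (hrev hf3L)
  obtain ⟨κ, hκ, hκg, hκe, -⟩ := exists_conj_emb κ₂ hκ₂ hκ₂g (Sys.wN S F M3)
  refine ⟨κ, hκ, hκg, z, z', xb, hz, hz', hP5 z hzP, hP5 z' hz'P, hPc z hzP z' hz'P, hxbz, hxbz',
    ?_, ?_⟩
  · have hfix : ∀ s, fA (Sys.wperm S M3 s) = fA s := by
      have : ∀ M : List (Fin chevE6.rank), (∀ i ∈ M, (i : ℕ) ∈ J0) →
          ∀ s, fA (Sys.wperm S M s) = fA s := by
        intro M
        induction M with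
        | nil => intro _ s; rfl
        | cons a M ih =>
          intro hM s
          rw [show (a :: M) = [a] ++ M from rfl, Sys.wperm_append, Equiv.Perm.mul_apply,
            fA_J0 a (hM a (List.mem_cons_self ..)), ih fun i hi => hM i (List.mem_cons_of_mem _ hi)]
      exact this M3 hM3
    have := hlog2.exists_conj hζ _ (Sys.perm_wN S F M3)
    rw [show (fun s => fA (Sys.wperm S M3 s)) = fA from funext hfix] at this
    rw [hκe]; exact this
  · rw [hκe, show fB = fun s => f3 (Sys.wperm S M3 s) from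
      vals_inj (isLin_mkLin _) (isLin_wperm hf3.1 M3) (vals_fB.trans hM3v.symm)]
    exact hf3.exists_conj hζ _ (Sys.perm_wN S F M3)

end CfsgLib.E6Alt65
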