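import Cfsg.Agent.E6AltSection65.Lift
import Cfsg.Agent.E6AltSection65.BlockForm
import Cfsg.Agent.E6AltSection65.Setup
import Cfsg.Agent.E6AltSection65.Generation
import Cfsg.Agent.E6AltSection65.Scalar

/-!
The kernel acts by scalars on the sixteen coordinates when it centralises one of the two lifted
five-cycles.
-/

set_option autoImplicit false
set_option linter.unusedSectionVars false

namespace CfsgLib.E6Alt65

open Cfsg.Lie CfsgLib.Chevalley
open scoped Matrix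

local notation "S" => sysE6

/-- `(0 1 2 3 4)` in degree seven. -/
def b7 : ↥(alternatingGroup (Fin 7)) :=
  ⟨Equiv.swap 0 1 * Equiv.swap 1 2 * Equiv.swap 2 3 * Equiv.swap 3 4,
    Equiv.Perm.mem_alternatingGroup.mpr (by decide)⟩

/-- `(1 2 4 3)(5 6)` in degree seven. -/
def sb7 : ↥(alternatingGroup (Fin 7)) :=
  ⟨Equiv.swap 1 2 * Equiv.swap 2 4 * Equiv.swap 4 3 * Equiv.swap 5 6,
    Equiv.Perm.mem_alternatingGroup.mpr (by decide)⟩

theorem table7 : b7 ^ 5 = 1 ∧ b7 ≠ 1 ∧ sb7 * b7 * sb7⁻¹ = b7 ^ 2 := by decide +kernel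

theorem ι7_table : ι7 b7 = b12 ∧ ι7 u7 = u12 ∧ ι7 v7 = v12 ∧ ι7 c7 = c12 ∧ ι7 x7 = x12 := by
  decide +kernel

/-- The involution exchanging the two five-cycles. -/
def sig12 : ↥(alternatingGroup (Fin 12)) :=
  ⟨Equiv.swap 0 5 * Equiv.swap 1 6 * Equiv.swap 2 7 * Equiv.swap 3 8 * Equiv.swap 4 9 *
    Equiv.swap 10 11, Equiv.Perm.mem_alternatingGroup.mpr (by decide)⟩

theorem sig12_table : sig12 * a12 * sig12⁻¹ = b12 ∧ sig12 * b12 * sig12⁻¹ = a12 := by
  decide +kernel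

variable {F : Type*} [Field F] {H : Type*} [Group H]

/-- Two lifted five-cycles in standard position. -/
structure Std (ζ : Fˣ) (π : H →* ↥(alternatingGroup (Fin 12))) (κ : H →* GL chevE6.Idx F)
    (z z' : H) : Prop where
  inj : Function.Injective κ
  mem : ∀ h, κ h ∈ chevE6.group F
  pza : π z = a12
  pzb : π z' = b12
  za : z ^ 5 = 1
  zb : z' ^ 5 = 1
  comm : Commute z z'
  la : IsLog ζ (κ z) fA
  lb : IsLog ζ (κ z') fB

/-- The preimage of the copy of degree seven in the centraliser of the first lift. -/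
def L7 (π : H →* ↥(alternatingGroup (Fin 12))) (z : H) : Subgroup H :=
  (ι7.range).comap π ⊓ Subgroup.centralizer {z}

/-- Its projection to degree seven. -/
noncomputable def π7 (π : H →* ↥(alternatingGroup (Fin 12))) (z : H) :
    ↥(L7 π z) →* ↥(alternatingGroup (Fin 7)) :=
  (MonoidHom.ofInjective ι7_injective).symm.toMonoidHom.comp
    ((π.comp (L7 π z).subtype).codRestrict ι7.range fun h => h.2.1)

theorem ι7_π7 {π : H →* ↥(alternatingGroup (Fin 12))} {z : H} (h : ↥(L7 π z)) :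
    ι7 (π7 π z h) = π h :=
  congrArg Subtype.val ((MonoidHom.ofInjective ι7_injective).apply_symm_apply
    ⟨π h, h.2.1⟩)

theorem mem_L7 {π : H →* ↥(alternatingGroup (Fin 12))} {z g : H} {p : ↥(alternatingGroup (Fin 7))}
    (hp : π g = ι7 p) (hc : Commute g z) : g ∈ L7 π z :=
  ⟨⟨p, hp.symm⟩, Subgroup.mem_centralizer_singleton_iff.mpr hc.eq⟩

theorem π7_eq {π : H →* ↥(alternatingGroup (Fin 12))} {z : H} (h : ↥(L7 π z))
    {p : ↥(alternatingGroup (Fin 7))} (hp : π h = ι7 p) : π7 π z h = p :=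
  ι7_injective ((ι7_π7 h).trans hp)

theorem comm_a12 (p : ↥(alternatingGroup (Fin 7))) : Commute (ι7 p) a12 :=
  ι7_commute p fun i hi => by
    have : ∀ i : Fin 12, 5 ≤ (i : ℕ) → (a12 : Equiv.Perm (Fin 12)) i = i := by decide +kernel
    exact this i hi

variable [Fintype F] [Finite H] {ζ : Fˣ} {π : H →* ↥(alternatingGroup (Fin 12))}
  {κ : H →* GL chevE6.Idx F} {z z' : H}

theorem exists_L7 (st : Std ζ π κ z z') (hπ : Function.Surjective π)
    (hK5 : ¬ 5 ∣ Nat.card ↥π.ker) (p : ↥(alternatingGroup (Fin 7))) :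
    ∃ g : ↥(L7 π z), π7 π z g = p := by
  obtain ⟨-, -, -, -, -, -, -, hane, -⟩ := table12
  obtain ⟨y, hy, hyz⟩ := exists_lift_pow π hπ hK5 st.za (st.pza ▸ hane) (q := ι7 p) (j := 1)
    (by rw [st.pza, pow_one, (comm_a12 p).eq, mul_inv_cancel_right])
  rw [pow_one, mul_inv_eq_iff_eq_mul] at hyz
  exact ⟨⟨y, mem_L7 hy hyz⟩, π7_eq _ hy⟩

theorem mem_Mz_a (st : Std ζ π κ z z') (hζ : orderOf ζ = 5) {g : H} (hc : Commute g z) :
    κ g ∈ Mz F a0 :=
  centralizer_le_Mz hζ st.la (st.mem g) (hc.map κ).eq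

theorem mem_pres16_a (st : Std ζ π κ z z') (hζ : orderOf ζ = 5) {g : H} (hc : Commute g z) :
    κ g ∈ Pres ix16 :=
  Mz_le_pres16 chk_sixteen.1 (mem_Mz_a st hζ hc)

theorem mem_pres16_b (st : Std ζ π κ z z') (hζ : orderOf ζ = 5) {g : H} (hc : Commute g z') :
    κ g ∈ Pres ix16 :=
  Mz_le_pres16 chk_sixteen.2 (centralizer_le_Mz_b0 hζ st.lb (st.mem g) (hc.map κ).eq)

theorem commute_of_mem_L7 (g : ↥(L7 π z)) : Commute (g : H) z :=
  Subgroup.mem_centralizer_singleton_iff.mp g.2.2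

theorem blk16_L7 (st : Std ζ π κ z z') (hζ : orderOf ζ = 5) {g : H} (hc : Commute g z) :
    blk16 (κ g) = Φ fun i => blk4 i (κ g) :=
  blk16_eq fun i => Mz_le_pres4 i (mem_Mz_a st hζ hc)

/-- The action on a block. -/
noncomputable def ρE (st : Std ζ π κ z z') (hζ : orderOf ζ = 5) (i : Fin 4) :
    ↥(L7 π z) →* GL (Fin 4) F :=
  (res (ix4 i) (ix4_injective i)).comp ((κ.comp (L7 π z).subtype).codRestrict (Pres (ix4 i))
    fun g => Mz_le_pres4 i (mem_Mz_a st hζ (commute_of_mem_L7 g)))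

theorem ρE_val (st : Std ζ π κ z z') (hζ : orderOf ζ = 5) (i : Fin 4) (g : ↥(L7 π z)) :
    (ρE st hζ i g : Matrix (Fin 4) (Fin 4) F) = blk4 i (κ g) := rfl

/-- The second lift in the preimage of degree seven. -/
def zE (st : Std ζ π κ z z') : ↥(L7 π z) :=
  ⟨z', mem_L7 (st.pzb.trans ι7_table.1.symm) st.comm.symm⟩

theorem π7_zE (st : Std ζ π κ z z') : π7 π z (zE st) = b7 :=
  π7_eq _ (st.pzb.trans ι7_table.1.symm)

theorem zeta_pow_eq (hζ : orderOf ζ = 5) {m n : ℕ} (h : (ζ : F) ^ m = (ζ : F) ^ n) :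
    m % 5 = n % 5 := by
  rw [← Units.val_pow_eq_pow_val, ← Units.val_pow_eq_pow_val, Units.val_inj,
    pow_eq_pow_iff_modEq, hζ] at h
  exact h

theorem ρE_zE (st : Std ζ π κ z z') (hζ : orderOf ζ = 5) (i : Fin 4) :
    (ρE st hζ i (zE st) : Matrix (Fin 4) (Fin 4) F) =
      Matrix.diagonal fun k => (ζ : F) ^ (fB (r16 (pos4 i k))).val := by
  have : Fact (Nat.Prime 5) := ⟨by norm_num⟩
  rw [ρE_val]
  show blk4 i (κ z') = _
  have h := blk16_isLog st.lb
  ext a b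
  refine (congrFun (congrFun h (pos4 i a)) (pos4 i b) : _).trans ?_
  by_cases hab : a = b
  · subst hab; simp
  · have hne : pos4 i a ≠ pos4 i b :=
      fun e => hab (congrArg Prod.fst (e16.injective (a₁ := (a, i)) (a₂ := (b, i)) e))
    rw [Matrix.diagonal_apply_ne _ hab, Matrix.diagonal_apply_ne _ hne]

/-- The values of the second function in a block are the four nonzero ones. -/
theorem fB_block_table : ∀ i a : Fin 4,
    [2, 3, 1, 4, 1, 4, 2, 3, 1, 4, 2, 3, 2, 3, 1, 4].getD (pos4 i a) 0 % 5 ≠ 0 ∧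
    ∀ b : Fin 4, ([2, 3, 1, 4, 1, 4, 2, 3, 1, 4, 2, 3, 2, 3, 1, 4].getD (pos4 i a) 0 % 5 =
      [2, 3, 1, 4, 1, 4, 2, 3, 1, 4, 2, 3, 2, 3, 1, 4].getD (pos4 i b) 0 % 5 → a = b) ∧
      ∃ m : Fin 4, [2, 3, 1, 4, 1, 4, 2, 3, 1, 4, 2, 3, 2, 3, 1, 4].getD (pos4 i b) 0 % 5 =
        3 ^ (m : ℕ) * [2, 3, 1, 4, 1, 4, 2, 3, 1, 4, 2, 3, 2, 3, 1, 4].getD (pos4 i a) 0 % 5 := by
  decide +kernel

theorem fB_ne (i a : Fin 4) : (fB (r16 (pos4 i a))).val % 5 ≠ 0 := by
  rw [fB_r16]; exact (fB_block_table i a).1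

theorem fB_inj (i : Fin 4) {a b : Fin 4}
    (h : (fB (r16 (pos4 i a))).val % 5 = (fB (r16 (pos4 i b))).val % 5) : a = b := by
  rw [fB_r16, fB_r16] at h
  exact ((fB_block_table i a).2 b).1 h

theorem fB_reach (i a b : Fin 4) :
    ∃ m : ℕ, (fB (r16 (pos4 i b))).val % 5 = 3 ^ m * (fB (r16 (pos4 i a))).val % 5 := by
  rw [fB_r16, fB_r16]
  obtain ⟨m, hm⟩ := ((fB_block_table i a).2 b).2
  exact ⟨m, hm⟩

theorem hfix_zE (st : Std ζ π κ z z') (hζ : orderOf ζ = 5) (i : Fin 4) (v : Fin 4 → F)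
    (hv : (ρE st hζ i (zE st) : Matrix (Fin 4) (Fin 4) F) *ᵥ v = v) : v = 0 := by
  funext k
  have h := congrFun hv k
  rw [ρE_zE, Matrix.mulVec_diagonal] at h
  by_contra hne
  refine fB_ne i k (zeta_pow_eq hζ (n := 0) ?_)
  rw [pow_zero]
  exact mul_right_cancel₀ hne (h.trans (one_mul _).symm)

theorem irred_block (st : Std ζ π κ z z') (hζ : orderOf ζ = 5)
    (hK5 : ¬ 5 ∣ Nat.card ↥π.ker) (i : Fin 4) (U : Subgroup ↥(L7 π z))
    (hU : U.map (π7 π z) = ⊤) : Irred ((ρE st hζ i).comp U.subtype) := by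
  classical
  intro W hW
  by_cases hb : W = ⊥
  · exact Or.inl hb
  refine Or.inr ?_
  obtain ⟨hb5, hbne, hsb⟩ := table7
  have hπU : Function.Surjective ((π7 π z).comp U.subtype) := fun q => by
    obtain ⟨u, hu, rfl⟩ := (hU.symm ▸ Subgroup.mem_top q : q ∈ U.map (π7 π z))
    exact ⟨⟨u, hu⟩, rfl⟩
  have hker : ∀ u : ↥(L7 π z), π7 π z u = 1 → (u : H) ∈ π.ker := fun u hu => by
    rw [MonoidHom.mem_ker, ← ι7_π7 u, hu, map_one]
  have hK7 : ¬ 5 ∣ Nat.card ↥(π7 π z).ker := fun h => hK5 (h.trans (Subgroup.card_dvd_of_injective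
    (((L7 π z).subtype.comp (π7 π z).ker.subtype).codRestrict π.ker fun u => hker u.1 u.2)
    fun u v e => Subtype.ext (Subtype.ext (congrArg (fun x : ↥π.ker => (x : H)) e))))
  have hKU : ¬ 5 ∣ Nat.card ↥((π7 π z).comp U.subtype).ker := fun h =>
    hK7 (h.trans (Subgroup.card_dvd_of_injective
      ((U.subtype.comp ((π7 π z).comp U.subtype).ker.subtype).codRestrict (π7 π z).ker
        fun u => u.2)
      fun u v e => Subtype.ext (Subtype.ext (congrArg (fun x : ↥(π7 π z).ker => (x : ↥(L7 π z))) e))))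
  -- an element of order five of the subgroup over the five-cycle
  obtain ⟨u₀, hu₀⟩ := hπU b7
  set K := ((π7 π z).comp U.subtype).ker with hK
  obtain ⟨e, he5, heK⟩ : ∃ e : ℕ, e ≡ 1 [MOD 5] ∧ e ≡ 0 [MOD Nat.card ↥K] := by
    obtain ⟨e, h1, h2⟩ := Nat.chineseRemainder
      ((Nat.Prime.coprime_iff_not_dvd (by norm_num)).mpr hKU) 1 0
    exact ⟨e, h1, h2⟩
  set u := u₀ ^ e with hu
  have hbu : (π7 π z) (u : ↥(L7 π z)) = b7 := by
    have : ((π7 π z).comp U.subtype) u = b7 ^ e := by rw [hu, map_pow, hu₀]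
    refine this.trans ?_
    rw [pow_eq_pow_mod e hb5, show e % 5 = 1 from he5, pow_one]
  have hu5 : (u : ↥(L7 π z)) ^ 5 = 1 := by
    have h1 : u₀ ^ 5 ∈ K := by rw [hK, MonoidHom.mem_ker, map_pow, hu₀, hb5]
    obtain ⟨c, hc⟩ := Nat.modEq_zero_iff_dvd.mp heK
    have h2 : u ^ 5 = 1 := by
      rw [hu, ← pow_mul, mul_comm, pow_mul, hc, pow_mul]
      have : (⟨u₀ ^ 5, h1⟩ : ↥K) ^ Nat.card ↥K = 1 := pow_card_eq_one'
      rw [show (u₀ ^ 5) ^ Nat.card ↥K = 1 from congrArg Subtype.val this, one_pow]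
    exact congrArg Subtype.val h2
  -- move it to the second lift
  have hzb : (zE st : ↥(L7 π z)) ^ 5 = 1 := Subtype.ext st.zb
  obtain ⟨g, -, hg⟩ := exists_conj_lift (π7 π z) hK7 hzb hu5 (hbu.trans (π7_zE st).symm)
    (by rw [π7_zE]; exact hbne)
  obtain ⟨y, -, hy⟩ := exists_lift_pow ((π7 π z).comp U.subtype) hπU hKU (z := u)
    (Subtype.ext hu5) (by rw [MonoidHom.comp_apply]; exact hbu.symm ▸ hbne) (q := sb7) (j := 2)
    (by rw [MonoidHom.comp_apply, show (π7 π z) (U.subtype u) = b7 from hbu]; exact hsb)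
  set ρ : ↥U →* GL (Fin 4) F :=
    ((MulAut.conj (ρE st hζ i g)).toMonoidHom.comp ((ρE st hζ i).comp U.subtype)) with hρ
  set W' : Submodule F (Fin 4 → F) :=
    W.map (Matrix.mulVecLin (ρE st hζ i g : Matrix (Fin 4) (Fin 4) F)) with hW'
  have hW'i : ∀ a : ↥U, ∀ v ∈ W', (ρ a : Matrix (Fin 4) (Fin 4) F) *ᵥ v ∈ W' := by
    rintro a _ ⟨w, hw, rfl⟩
    refine ⟨_, hW a w hw, ?_⟩
    simp only [hρ, Matrix.mulVecLin_apply, MonoidHom.comp_apply, MulEquiv.coe_toMonoidHom,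
      MulAut.conj_apply, Units.val_mul, Matrix.mulVec_mulVec, mul_assoc, Units.inv_mul, mul_one]
  have hρu : (ρ u : Matrix (Fin 4) (Fin 4) F) =
      Matrix.diagonal fun k => (ζ : F) ^ (fB (r16 (pos4 i k))).val := by
    rw [← ρE_zE st hζ i, ← hg]
    simp [hρ, mul_assoc]
  have hχ : Function.Injective fun (k : Fin 4) (_ : Unit) =>
      (ζ : F) ^ (fB (r16 (pos4 i k))).val := fun a b h =>
    fB_inj i (zeta_pow_eq hζ (congrFun h ()))
  obtain ⟨w, hw, hw0⟩ := Submodule.exists_mem_ne_zero_of_ne_bot hb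
  have hgw : (ρE st hζ i g : Matrix (Fin 4) (Fin 4) F) *ᵥ w ≠ 0 := fun h0 => hw0 (by
    simpa [Matrix.mulVec_mulVec] using congrArg
      ((((ρE st hζ i g)⁻¹ : GL (Fin 4) F) : Matrix (Fin 4) (Fin 4) F) *ᵥ ·) h0)
  obtain ⟨k₀, hk₀⟩ := Function.ne_iff.mp hgw
  have hstart : Pi.single k₀ 1 ∈ W' := by
    refine coord_mem W' _ hχ (fun _ v hv => ?_) (Submodule.mem_map_of_mem hw) hk₀
    have e : (fun k => (ζ : F) ^ (fB (r16 (pos4 i k))).val * v k) =
        (Matrix.diagonal fun k => (ζ : F) ^ (fB (r16 (pos4 i k))).val) *ᵥ v :=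
      funext fun m => (Matrix.mulVec_diagonal
        (fun k => (ζ : F) ^ (fB (r16 (pos4 i k))).val) v m).symm
    rw [e, ← hρu]
    exact hW'i u v hv
  have hyu : y⁻¹ * u * y = u ^ 3 := by
    have h3 : y * u ^ 3 * y⁻¹ = u := by
      rw [← conj_pow, hy, ← pow_mul,
        pow_eq_pow_mod (2 * 3) (Subtype.ext hu5 : (u : ↥U) ^ 5 = 1), pow_one]
    calc y⁻¹ * u * y = y⁻¹ * (y * u ^ 3 * y⁻¹) * y := by rw [h3]
      _ = u ^ 3 := by group
  have hstep : ∀ m : ℕ, ∃ l, Pi.single l 1 ∈ W' ∧ (fB (r16 (pos4 i l))).val % 5 =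
      3 ^ m * (fB (r16 (pos4 i k₀))).val % 5 := by
    intro m
    induction m with
    | zero => exact ⟨k₀, hstart, by rw [pow_zero, one_mul]⟩
    | succ m ih =>
      obtain ⟨l, hl, hlm⟩ := ih
      obtain ⟨l', hl', hrel⟩ := exists_coord ρ W' hW'i (fun _ : Unit => u) _ hχ (fun _ => hρu) hl y
      refine ⟨l', hl', ?_⟩
      rw [zeta_pow_eq hζ ((hrel () 3 hyu).trans (pow_mul _ _ _).symm), Nat.mul_mod, hlm, pow_succ,
        ← Nat.mul_mod]
      ring_nf
  have htop : W' = ⊤ := eq_top_of_coord W' fun k => by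
    obtain ⟨m, hm⟩ := fB_reach i k₀ k
    obtain ⟨l, hl, hlm⟩ := hstep m
    rwa [fB_inj i (hm.trans hlm.symm)]
  refine eq_top_iff.mpr fun v _ => ?_
  obtain ⟨w', hw', e'⟩ := (htop ▸ Submodule.mem_top :
    (ρE st hζ i g : Matrix (Fin 4) (Fin 4) F) *ᵥ v ∈ W')
  have := congrArg ((((ρE st hζ i g)⁻¹ : GL (Fin 4) F) : Matrix (Fin 4) (Fin 4) F) *ᵥ ·) e'
  simp only [Matrix.mulVecLin_apply, Matrix.mulVec_mulVec, Units.inv_mul, Matrix.one_mulVec] at this
  exact this ▸ hw'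

/-- The kernel acts by scalars on each block. -/
theorem ker_scalar_block (p : ℕ) [Fact p.Prime] [CharP F p] (st : Std ζ π κ z z')
    (hζ : orderOf ζ = 5) (hπ : Function.Surjective π) (hK : Group.IsNilpotent ↥π.ker)
    (hK5 : ¬ 5 ∣ Nat.card ↥π.ker)
    (hsplit : ∀ h : H, (orderOf h).Coprime p → orderOf h ∣ Fintype.card F - 1) (i : Fin 4)
    (k : ↥(L7 π z)) (hk : π7 π z k = 1) : IsScalarMat (ρE st hζ i k) := by
  have : Fact (Nat.Prime 5) := ⟨by norm_num⟩
  have hker : ∀ u : (π7 π z).ker, ((u : ↥(L7 π z)) : H) ∈ π.ker := fun u => by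
    rw [MonoidHom.mem_ker, ← ι7_π7 u.1, u.2, map_one]
  let f : (π7 π z).ker →* π.ker :=
    ((L7 π z).subtype.comp (π7 π z).ker.subtype).codRestrict π.ker hker
  have hnil : Group.IsNilpotent ↥(π7 π z).ker := by
    refine Subgroup.isNilpotent_of_ker_le_center f ?_
    rw [(MonoidHom.ker_eq_bot_iff f).mpr fun u v e =>
      Subtype.ext (Subtype.ext (congrArg (fun x : ↥π.ker => (x : H)) e))]
    exact bot_le
  refine scalar_kernel_seven' p (by simp) (fun h => ?_) (π7 π z)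
    (fun q => exists_L7 st hπ hK5 q) hnil (ρE st hζ i) (irred_block st hζ hK5 i) (zE st)
    (Subtype.ext st.zb) (by rw [π7_zE]; exact table7.2.1) (hfix_zE st hζ i) k hk
  rw [← Subgroup.orderOf_coe]
  exact hsplit h

/-- The kernel elements centralising the first lift act on each block by a scalar. -/
theorem ker_diag (p : ℕ) [Fact p.Prime] [CharP F p] (st : Std ζ π κ z z')
    (hζ : orderOf ζ = 5) (hπ : Function.Surjective π) (hK : Group.IsNilpotent ↥π.ker)
    (hK5 : ¬ 5 ∣ Nat.card ↥π.ker)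
    (hsplit : ∀ h : H, (orderOf h).Coprime p → orderOf h ∣ Fintype.card F - 1) {k : H}
    (hk : k ∈ π.ker) (hc : Commute k z) :
    ∃ c : Fin 4 → F, blk16 (κ k) = Matrix.diagonal fun t => c (blkOf t) := by
  have hmem : k ∈ L7 π z := mem_L7 (p := 1) (by rw [map_one]; exact hk) hc
  have h1 : π7 π z ⟨k, hmem⟩ = 1 := π7_eq _ (by rw [map_one]; exact hk)
  choose c hc' using fun i => ker_scalar_block p st hζ hπ hK hK5 hsplit i ⟨k, hmem⟩ h1
  refine ⟨c, ?_⟩
  rw [blk16_L7 st hζ hc, ← Φ_diagonal]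
  exact congrArg Φ (funext fun i => (ρE_val st hζ i ⟨k, hmem⟩).symm.trans (hc' i))

/-- Exchanging the two lifts. -/
theorem Std.swap (st : Std ζ π κ z z') (hζ : orderOf ζ = 5) :
    Std ζ ((MulAut.conj sig12).toMonoidHom.comp π)
      ((MulAut.conj (nsw F)⁻¹).toMonoidHom.comp κ) z' z where
  inj := (MulAut.conj (nsw F)⁻¹).injective.comp st.inj
  mem h := mul_mem (mul_mem (inv_mem (Sys.monomial_le_group S F (Subtype.coe_prop _))) (st.mem h))
    (inv_mem (inv_mem (Sys.monomial_le_group S F (Subtype.coe_prop _))))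
  pza := by simp [st.pzb, sig12_table.2]
  pzb := by simp [st.pza, sig12_table.1]
  za := st.zb
  zb := st.za
  comm := st.comm.symm
  la := by
    have : Fact (Nat.Prime 5) := ⟨by norm_num⟩
    have h := st.lb.exists_conj hζ _ (Sys.perm_wN S F Wsw)
    rw [show (fun s => fB (Sys.wperm S Wsw s)) = fA from funext fB_Wsw] at h
    simpa [nsw] using h
  lb := by
    have : Fact (Nat.Prime 5) := ⟨by norm_num⟩
    have h := st.la.exists_conj hζ _ (Sys.perm_wN S F Wsw)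
    rw [show (fun s => fA (Sys.wperm S Wsw s)) = fB from funext fA_Wsw] at h
    simpa [nsw] using h

theorem ker_swap (π : H →* ↥(alternatingGroup (Fin 12))) :
    ((MulAut.conj sig12).toMonoidHom.comp π).ker = π.ker := by
  ext k
  simp [MonoidHom.mem_ker]

theorem conj_nsw (κ : H →* GL chevE6.Idx F) (k : H) :
    κ k * nsw F = nsw F * ((MulAut.conj (nsw F)⁻¹).toMonoidHom.comp κ) k := by
  simp [mul_assoc]

/-- The kernel elements centralising both lifts act as scalars. -/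
theorem ker_scalar_both (p : ℕ) [Fact p.Prime] [CharP F p] (st : Std ζ π κ z z')
    (hζ : orderOf ζ = 5) (hπ : Function.Surjective π) (hK : Group.IsNilpotent ↥π.ker)
    (hK5 : ¬ 5 ∣ Nat.card ↥π.ker)
    (hsplit : ∀ h : H, (orderOf h).Coprime p → orderOf h ∣ Fintype.card F - 1) {k : H}
    (hk : k ∈ π.ker) (hc : Commute k z) (hc' : Commute k z') :
    ∃ c : F, blk16 (κ k) = c • 1 := by
  obtain ⟨cA, hA⟩ := ker_diag p st hζ hπ hK hK5 hsplit hk hc
  obtain ⟨cB, hB⟩ := ker_diag p (st.swap hζ) hζ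
    ((MulAut.conj sig12).surjective.comp hπ) (by rw [ker_swap]; exact hK)
    (by rw [ker_swap]; exact hK5) hsplit (k := k) (by rw [ker_swap]; exact hk) hc'
  have hN := congrArg blk16 (conj_nsw κ k)
  rw [blk16_mul nsw_mem_pres, blk16_mul (mem_pres16_a (st.swap hζ) hζ hc'), hA, hB] at hN
  have hrel : ∀ t, cA (blkOf (wT t)) = cB (blkOf t) := fun t => by
    have h := congrFun (congrFun hN (wT t)) t
    rw [Matrix.diagonal_mul, Matrix.mul_diagonal, mul_comm (blk16 (nsw F) (wT t) t)] at h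
    exact mul_right_cancel₀ (nsw_entry t) h
  have hall : ∀ i j, cA i = cB j := fun i j => by
    obtain ⟨t, h1, h2⟩ := wT_table.2 i j
    rw [← h2, hrel, h1]
  refine ⟨cB 0, ?_⟩
  rw [hA, show (fun t => cA (blkOf t)) = fun _ => cB 0 from funext fun t => hall _ 0,
    Matrix.smul_one_eq_diagonal]

/-- The kernel elements centralising the first lift act as scalars. -/
theorem ker_scalar_first (p : ℕ) [Fact p.Prime] [CharP F p] (st : Std ζ π κ z z')
    (hζ : orderOf ζ = 5) (hπ : Function.Surjective π) (hK : Group.IsNilpotent ↥π.ker)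
    (hK5 : ¬ 5 ∣ Nat.card ↥π.ker)
    (hsplit : ∀ h : H, (orderOf h).Coprime p → orderOf h ∣ Fintype.card F - 1) {k : H}
    (hk : k ∈ π.ker) (hc : Commute k z) :
    ∃ c : F, blk16 (κ k) = c • 1 := by
  classical
  have : Fact (Nat.Prime 5) := ⟨by norm_num⟩
  set C : Subgroup H := π.ker ⊓ Subgroup.centralizer {z} with hC
  have hCz : ∀ u : ↥C, Commute (u : H) z := fun u =>
    Subgroup.mem_centralizer_singleton_iff.mp u.2.2
  let φ : ↥C →* GL (Fin 16) F := (res ix16 ix16_injective).comp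
    ((κ.comp C.subtype).codRestrict (Pres ix16) fun u => mem_pres16_a st hζ (hCz u))
  have hφ : ∀ u : ↥C, (φ u : Matrix (Fin 16) (Fin 16) F) = blk16 (κ u) := fun u => rfl
  let k₀ : ↥C := ⟨k, hk, Subgroup.mem_centralizer_singleton_iff.mpr hc.eq⟩
  have hzC : ∀ u : ↥C, z' * u * z'⁻¹ ∈ C := fun u =>
    ⟨(inferInstance : π.ker.Normal).conj_mem _ u.2.1 _,
      Subgroup.mem_centralizer_singleton_iff.mpr
        ((st.comm.symm.mul_left (hCz u)).mul_left st.comm.symm.inv_left).eq⟩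
  have hzφ : ∀ u : ↥C, φ ⟨z' * u * z'⁻¹, hzC u⟩ = φ u := fun u => by
    refine Units.ext ?_
    rw [hφ, hφ]
    obtain ⟨c, hd⟩ := ker_diag p st hζ hπ hK hK5 hsplit u.2.1 (hCz u)
    have hzz : Commute z' z' := Commute.refl z'
    rw [map_mul, map_mul, blk16_mul (mem_pres16_b st hζ hzz.inv_left),
      blk16_mul (mem_pres16_a st hζ (hCz u)), hd]
    rw [blk16_isLog st.lb, Matrix.diagonal_mul_diagonal]
    rw [show (fun t => (ζ : F) ^ (fB (r16 t)).val * c (blkOf t)) =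
      fun t => c (blkOf t) * (ζ : F) ^ (fB (r16 t)).val from funext fun t => mul_comm _ _,
      ← Matrix.diagonal_mul_diagonal, mul_assoc, ← blk16_isLog st.lb,
      ← blk16_mul (mem_pres16_b st hζ hzz.inv_left), ← map_mul, mul_inv_cancel, map_one,
      blk16_one, mul_one]
  let σ : Equiv.Perm {u : ↥C // φ u = φ k₀} := Equiv.ofBijective
    (fun u => ⟨⟨z' * (u.1 : H) * z'⁻¹, hzC u.1⟩, (hzφ u.1).trans u.2⟩)
    (Finite.injective_iff_bijective.mp fun u v e => Subtype.ext (Subtype.ext (by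
      simpa using congrArg (fun x : {u : ↥C // φ u = φ k₀} => ((x : ↥C) : H)) e)))
  have hσ : ∀ (n : ℕ) u, (((σ ^ n) u : ↥C) : H) = z' ^ n * ((u : ↥C) : H) * (z' ^ n)⁻¹ := by
    intro n
    induction n with
    | zero => intro u; simp
    | succ n ih =>
      intro u
      rw [pow_succ', Equiv.Perm.mul_apply]
      show z' * (((σ ^ n) u : ↥C) : H) * z'⁻¹ = _
      rw [ih u]
      group
  have hσ5 : σ ^ 5 = 1 := Equiv.ext fun u => Subtype.ext (Subtype.ext (by
    rw [hσ, st.zb]; simp))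
  have hcard : Nat.card {u : ↥C // φ u = φ k₀} = Nat.card ↥φ.ker := Nat.card_congr
    { toFun := fun u => ⟨k₀⁻¹ * u.1, by rw [MonoidHom.mem_ker, map_mul, map_inv, u.2, inv_mul_cancel]⟩
      invFun := fun u => ⟨k₀ * u.1, by rw [map_mul, MonoidHom.mem_ker.mp u.2, mul_one]⟩
      left_inv := fun u => Subtype.ext (mul_inv_cancel_left _ _)
      right_inv := fun u => Subtype.ext (inv_mul_cancel_left _ _) }
  have hnd : ¬ 5 ∣ Nat.card {u : ↥C // φ u = φ k₀} := fun h => hK5 ((hcard ▸ h).trans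
    ((Subgroup.card_subgroup_dvd_card _).trans (Subgroup.card_dvd_of_le inf_le_left)))
  have hfix : Nonempty {u // σ u = u} := by
    by_contra he
    rw [not_nonempty_iff] at he
    have h := card_fix_modEq σ hσ5
    rw [Nat.card_of_isEmpty (α := {u // σ u = u})] at h
    exact hnd (Nat.modEq_zero_iff_dvd.mp h)
  obtain ⟨⟨⟨u, hu⟩, hfu⟩⟩ := hfix
  have hcu : Commute (u : H) z' := by
    have h : z' * (u : H) * z'⁻¹ = u :=
      congrArg (fun x : {u : ↥C // φ u = φ k₀} => ((x : ↥C) : H)) hfu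
    exact (mul_inv_eq_iff_eq_mul.mp h).symm
  obtain ⟨c, hc'⟩ := ker_scalar_both p st hζ hπ hK hK5 hsplit u.2.1 (hCz u) hcu
  exact ⟨c, (hφ k₀).symm.trans ((congrArg Units.val hu).symm.trans ((hφ u).trans hc'))⟩

/-- The kernel elements centralising the second lift act as scalars. -/
theorem ker_scalar_second (p : ℕ) [Fact p.Prime] [CharP F p] (st : Std ζ π κ z z')
    (hζ : orderOf ζ = 5) (hπ : Function.Surjective π) (hK : Group.IsNilpotent ↥π.ker)
    (hK5 : ¬ 5 ∣ Nat.card ↥π.ker)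
    (hsplit : ∀ h : H, (orderOf h).Coprime p → orderOf h ∣ Fintype.card F - 1) {k : H}
    (hk : k ∈ π.ker) (hc : Commute k z') :
    ∃ c : F, blk16 (κ k) = c • 1 := by
  obtain ⟨c, h⟩ := ker_scalar_first p (st.swap hζ) hζ
    ((MulAut.conj sig12).surjective.comp hπ) (by rw [ker_swap]; exact hK)
    (by rw [ker_swap]; exact hK5) hsplit (k := k) (by rw [ker_swap]; exact hk) hc
  refine ⟨c, ?_⟩
  have hN := congrArg blk16 (conj_nsw κ k)
  rw [blk16_mul nsw_mem_pres, blk16_mul (mem_pres16_a (st.swap hζ) hζ hc), h, mul_smul_comm,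
    mul_one] at hN
  calc blk16 (κ k) = blk16 (κ k) * (blk16 (nsw F) * blk16 (nsw F)⁻¹) := by
        rw [← blk16_mul (inv_mem nsw_mem_pres), mul_inv_cancel, blk16_one, mul_one]
    _ = _ := by
        rw [← mul_assoc, hN, smul_mul_assoc, ← blk16_mul (inv_mem nsw_mem_pres), mul_inv_cancel,
          blk16_one]

end CfsgLib.E6Alt65
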