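import Cfsg.Agent.E6AltSection65.Scalar

/-!
Projective representations of `A_7` in degree 4 and of `A_12` in degree 16, by commutators of lifts
of commuting elements.
-/

set_option autoImplicit false

namespace CfsgLib.E6Alt65

open scoped Matrix commutatorElement

section Lifts

variable {F : Type*} [Field F] {H : Type*} [Group H] {n : Type*} [Fintype n] [DecidableEq n]
  {A : Type*} [Group A] {π : H →* A} {ρ : H →* GL n F}

/-- An invertible matrix lifting an element of the quotient. -/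
def Lift (π : H →* A) (ρ : H →* GL n F) (R : GL n F) (a : A) : Prop :=
  ∃ h : H, π h = a ∧
    (QuotientGroup.mk (ρ h) : GL n F ⧸ scal n F) = QuotientGroup.mk R

theorem Lift.of {h : H} {a : A} (ha : π h = a) : Lift π ρ (ρ h) a := ⟨h, ha, rfl⟩

theorem Lift.mul {R S : GL n F} {a b : A} (hR : Lift π ρ R a) (hS : Lift π ρ S b) :
    Lift π ρ (R * S) (a * b) := by
  obtain ⟨g, hg, hg'⟩ := hR
  obtain ⟨h, hh, hh'⟩ := hS
  exact ⟨g * h, by rw [map_mul, hg, hh],
    by rw [map_mul, QuotientGroup.mk_mul, QuotientGroup.mk_mul, hg', hh']⟩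

theorem Lift.inv {R : GL n F} {a : A} (hR : Lift π ρ R a) : Lift π ρ R⁻¹ a⁻¹ := by
  obtain ⟨g, hg, hg'⟩ := hR
  exact ⟨g⁻¹, by rw [map_inv, hg],
    by rw [map_inv, QuotientGroup.mk_inv, QuotientGroup.mk_inv, hg']⟩

theorem Lift.conj {R S : GL n F} {a b : A} (hR : Lift π ρ R a) (hS : Lift π ρ S b) :
    Lift π ρ (R * S * R⁻¹) (a * b * a⁻¹) := (hR.mul hS).mul hR.inv

theorem Lift.one : Lift π ρ 1 1 := ⟨1, map_one π, by rw [map_one]⟩

theorem Lift.pow {R : GL n F} {a : A} (hR : Lift π ρ R a) (m : ℕ) :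
    Lift π ρ (R ^ m) (a ^ m) := by
  induction m with
  | zero => simpa using Lift.one
  | succ m IH => simpa [pow_succ] using IH.mul hR

theorem Lift.smul {R : GL n F} {a : A} (hR : Lift π ρ R a) {t : GL n F} (ht : t ∈ scal n F) :
    Lift π ρ (t * R) a := by
  obtain ⟨g, hg, hg'⟩ := hR
  refine ⟨g, hg, ?_⟩
  rw [QuotientGroup.mk_mul, (QuotientGroup.eq_one_iff t).mpr ht, one_mul, hg']

theorem mk_eq_of_lift [Nonempty n] (hker : ∀ k ∈ π.ker, IsScalarMat (ρ k)) {R S : GL n F} {a : A}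
    (hR : Lift π ρ R a) (hS : Lift π ρ S a) :
    (QuotientGroup.mk R : GL n F ⧸ scal n F) = QuotientGroup.mk S := by
  obtain ⟨g, hg, hg'⟩ := hR
  obtain ⟨h, hh, hh'⟩ := hS
  rw [← hg', ← hh']
  have hk : g⁻¹ * h ∈ π.ker := by
    rw [MonoidHom.mem_ker, map_mul, map_inv, hg, hh, inv_mul_cancel]
  have := mem_of_isScalarMat (hker _ hk)
  rw [map_mul, map_inv] at this
  exact QuotientGroup.eq.mpr this

theorem mem_scal_of_lift_one [Nonempty n] (hker : ∀ k ∈ π.ker, IsScalarMat (ρ k)) {R : GL n F}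
    (hR : Lift π ρ R 1) : R ∈ scal n F :=
  (QuotientGroup.eq_one_iff R).mp ((mk_eq_of_lift hker hR Lift.one).trans rfl)

theorem comm_mem_of_lift [Nonempty n] (hker : ∀ k ∈ π.ker, IsScalarMat (ρ k)) {R S : GL n F}
    {a b : A} (hR : Lift π ρ R a) (hS : Lift π ρ S b) (hab : Commute a b) :
    ⁅R, S⁆ ∈ scal n F := by
  refine mem_scal_of_lift_one hker ?_
  have h := ((hR.mul hS).mul hR.inv).mul hS.inv
  rw [hab.eq, mul_inv_cancel_right, mul_inv_cancel] at h
  rwa [commutatorElement_def]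

theorem exists_lift (hπ : Function.Surjective π) (a : A) : ∃ R : GL n F, Lift π ρ R a :=
  ⟨_, Lift.of (Function.surjInv_eq hπ a)⟩

/-- The commutator of lifts. -/
noncomputable def dcom (hπ : Function.Surjective π) (ρ : H →* GL n F) (a b : A) : GL n F :=
  ⁅ρ (Function.surjInv hπ a), ρ (Function.surjInv hπ b)⁆

variable [Nonempty n] (hπ : Function.Surjective π) (hker : ∀ k ∈ π.ker, IsScalarMat (ρ k))

include hker

theorem dcom_eq {R S : GL n F} {a b : A} (hR : Lift π ρ R a) (hS : Lift π ρ S b) :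
    ⁅R, S⁆ = dcom hπ ρ a b := by
  have h1 := mk_eq_of_lift hker hR (Lift.of (Function.surjInv_eq hπ a))
  have h2 := mk_eq_of_lift hker hS (Lift.of (Function.surjInv_eq hπ b))
  rw [dcom, ← pcomm_mk, ← pcomm_mk, h1, h2]

theorem dcom_mem {a b : A} (hab : Commute a b) : dcom hπ ρ a b ∈ scal n F :=
  comm_mem_of_lift hker (Lift.of (Function.surjInv_eq hπ a)) (Lift.of (Function.surjInv_eq hπ b))
    hab

theorem dcom_mul_right {a b c : A} (hac : Commute a c) :
    dcom hπ ρ a (b * c) = dcom hπ ρ a b * dcom hπ ρ a c := by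
  obtain ⟨R, hR⟩ := exists_lift (ρ := ρ) hπ a
  obtain ⟨S, hS⟩ := exists_lift (ρ := ρ) hπ b
  obtain ⟨T, hT⟩ := exists_lift (ρ := ρ) hπ c
  rw [← dcom_eq hπ hker hR (hS.mul hT), ← dcom_eq hπ hker hR hS, ← dcom_eq hπ hker hR hT]
  exact comm_mul_right' (comm_mem_of_lift hker hR hT hac)

theorem dcom_mul_left {a b c : A} (hbc : Commute b c) :
    dcom hπ ρ (a * b) c = dcom hπ ρ a c * dcom hπ ρ b c := by
  obtain ⟨R, hR⟩ := exists_lift (ρ := ρ) hπ a
  obtain ⟨S, hS⟩ := exists_lift (ρ := ρ) hπ b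
  obtain ⟨T, hT⟩ := exists_lift (ρ := ρ) hπ c
  rw [← dcom_eq hπ hker (hR.mul hS) hT, ← dcom_eq hπ hker hR hT, ← dcom_eq hπ hker hS hT]
  exact comm_mul_left' (comm_mem_of_lift hker hS hT hbc)

theorem dcom_conj {a b : A} (hab : Commute a b) (g : A) :
    dcom hπ ρ (g * a * g⁻¹) (g * b * g⁻¹) = dcom hπ ρ a b := by
  obtain ⟨R, hR⟩ := exists_lift (ρ := ρ) hπ a
  obtain ⟨S, hS⟩ := exists_lift (ρ := ρ) hπ b
  obtain ⟨G, hG⟩ := exists_lift (ρ := ρ) hπ g
  have hs := comm_mem_of_lift hker hR hS hab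
  rw [← dcom_eq hπ hker hR hS, ← dcom_eq hπ hker (hG.conj hR) (hG.conj hS), ← MulAut.conj_apply,
    ← MulAut.conj_apply, ← map_commutatorElement, MulAut.conj_apply, ← (scal_commute hs G).eq,
    mul_inv_cancel_right]

theorem dcom_pow_right {a b : A} (hab : Commute a b) (m : ℕ) :
    dcom hπ ρ a (b ^ m) = dcom hπ ρ a b ^ m := by
  induction m with
  | zero =>
    rw [pow_zero, pow_zero, ← dcom_eq hπ hker (Lift.of (Function.surjInv_eq hπ a)) Lift.one]
    exact commutatorElement_one_right _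
  | succ m IH => rw [pow_succ, dcom_mul_right hπ hker hab, IH, pow_succ]

theorem dcom_pow_left {a b : A} (hab : Commute a b) (m : ℕ) :
    dcom hπ ρ (a ^ m) b = dcom hπ ρ a b ^ m := by
  induction m with
  | zero =>
    rw [pow_zero, pow_zero, ← dcom_eq hπ hker Lift.one (Lift.of (Function.surjInv_eq hπ b))]
    exact commutatorElement_one_left _
  | succ m IH => rw [pow_succ, dcom_mul_left hπ hker hab, IH, pow_succ]

theorem dcom_eq_one_of_coprime {a b : A} (hab : Commute a b) {k m : ℕ} (ha : a ^ k = 1)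
    (hb : b ^ m = 1) (hco : Nat.Coprime k m) : dcom hπ ρ a b = 1 := by
  have h0 : dcom hπ ρ 1 b = 1 := by
    simpa using dcom_pow_left hπ hker (a := a) (b := b) hab 0
  have h1 : dcom hπ ρ a b ^ k = 1 := by rw [← dcom_pow_left hπ hker hab, ha, h0]
  have h0' : dcom hπ ρ a 1 = 1 := by
    simpa using dcom_pow_right hπ hker (a := a) (b := b) hab 0
  have h2 : dcom hπ ρ a b ^ m = 1 := by rw [← dcom_pow_right hπ hker hab, hb, h0']
  have := pow_gcd_eq_one.mpr ⟨h1, h2⟩
  rwa [hco.gcd_eq_one, pow_one] at this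

include hπ in
/-- An element differing from a known conjugator by a coprime centralising element conjugates in
the same way. -/
theorem conj_transfer {R S G K : GL n F} {c g f : A} (hR : Lift π ρ R c) (hG : Lift π ρ G g)
    (hK : Lift π ρ K f) (hGR : G * R * G⁻¹ = S) (hc : c ^ 3 = 1) (m : ℕ)
    (hm : (g⁻¹ * f) ^ m = 1) (hco : Nat.Coprime m 3) (hcm : Commute (g⁻¹ * f) c) :
    K * R * K⁻¹ = S := by
  have h1 : ⁅G⁻¹ * K, R⁆ = 1 := by
    rw [dcom_eq hπ hker (hG.inv.mul hK) hR, dcom_eq_one_of_coprime hπ hker hcm hm hc hco]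
  rw [commutatorElement_eq_one_iff_commute] at h1
  rw [← hGR]
  calc K * R * K⁻¹ = G * (G⁻¹ * K * R) * (G⁻¹ * K)⁻¹ * G⁻¹ := by group
    _ = G * (R * (G⁻¹ * K)) * (G⁻¹ * K)⁻¹ * G⁻¹ := by rw [h1.eq]
    _ = G * R * G⁻¹ := by group

end Lifts

section Linear

variable {F : Type*} [Field F] {n : Type*} [Fintype n] [DecidableEq n]

theorem even_finrank_of_anticomm {M : Type*} [AddCommGroup M] [Module F M] [Module.Finite F M]
    (h2 : (2 : F) ≠ 0) (f g : M →ₗ[F] M) (hf : Function.Injective f) (hg : Function.Injective g)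
    (hfg : ∀ x, f (g x) = -g (f x)) : Even (Module.finrank F M) := by
  have heq : f * g = (-1 : F) • (g * f) := by
    ext x; simp [hfg x]
  have hu : ∀ k : M →ₗ[F] M, Function.Injective k → LinearMap.det k ≠ 0 := by
    intro k hk
    have : IsUnit k := (LinearMap.isUnit_iff_ker_eq_bot k).mpr (LinearMap.ker_eq_bot.mpr hk)
    exact (this.map LinearMap.det).ne_zero
  have h := congrArg LinearMap.det heq
  rw [LinearMap.det_smul, map_mul, map_mul, mul_comm (LinearMap.det g)] at h
  have h1 : (-1 : F) ^ Module.finrank F M = 1 :=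
    (mul_eq_right₀ (mul_ne_zero (hu f hf) (hu g hg))).mp h.symm
  by_contra hodd
  rw [Nat.not_even_iff_odd] at hodd
  rw [hodd.neg_one_pow] at h1
  exact h2 (by linear_combination -h1)

theorem inj_mulVec (g : GL n F) : Function.Injective fun v : n → F => (g : Matrix n n F) *ᵥ v := by
  intro v w h
  have := congrArg (fun u => ((g⁻¹ : GL n F) : Matrix n n F) *ᵥ u) h
  simpa [Matrix.mulVec_mulVec] using this

theorem mulVec_comm {g h : GL n F} (hgh : g * h = h * g) (v : n → F) :
    (g : Matrix n n F) *ᵥ ((h : Matrix n n F) *ᵥ v) =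
      (h : Matrix n n F) *ᵥ ((g : Matrix n n F) *ᵥ v) := by
  rw [Matrix.mulVec_mulVec, Matrix.mulVec_mulVec, ← Units.val_mul, hgh, Units.val_mul]

theorem scal_mulVec {s : GL n F} (hs : s ∈ scal n F) :
    ∃ c : F, c ≠ 0 ∧ ∀ v : n → F, (s : Matrix n n F) *ᵥ v = c • v := by
  obtain ⟨u, rfl⟩ := hs
  refine ⟨u, u.ne_zero, fun v => ?_⟩
  rw [Matrix.GeneralLinearGroup.coe_scalar, Matrix.scalar_apply, ← Matrix.smul_one_eq_diagonal,
    Matrix.smul_mulVec, Matrix.one_mulVec]

theorem scalar_mulVec (u : Fˣ) (v : n → F) :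
    ((Matrix.GeneralLinearGroup.scalar n u : GL n F) : Matrix n n F) *ᵥ v = (u : F) • v := by
  rw [Matrix.GeneralLinearGroup.coe_scalar, Matrix.scalar_apply, ← Matrix.smul_one_eq_diagonal,
    Matrix.smul_mulVec, Matrix.one_mulVec]

end Linear

section Seven

variable {F : Type*} [Field F] {H : Type*} [Group H] {n : Type*} [Fintype n] [DecidableEq n]

/-- `(123)` in degree seven. -/
def t7 : ↥(alternatingGroup (Fin 7)) :=
  ⟨Equiv.swap 1 2 * Equiv.swap 2 3, Equiv.Perm.mem_alternatingGroup.mpr (by decide)⟩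

theorem t7_u : t7 * u7 * t7⁻¹ = v7 := by decide +kernel
theorem t7_v : t7 * v7 * t7⁻¹ = u7 * v7 := by decide +kernel
theorem t7_w : t7 * (u7 * v7) * t7⁻¹ = u7 := by decide +kernel
theorem t7_cube : t7 ^ 3 = 1 := by decide +kernel
theorem u7_sq : u7 ^ 2 = 1 := by decide +kernel
theorem v7_sq : v7 ^ 2 = 1 := by decide +kernel
theorem c7_cube : c7 ^ 3 = 1 := by decide +kernel
theorem u7_ne : u7 ≠ 1 := by decide +kernel
theorem c7_ne : c7 ≠ 1 := by decide +kernel
theorem uv7 : Commute u7 v7 := by unfold Commute SemiconjBy; decide +kernel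
theorem uc7 : Commute u7 c7 := by unfold Commute SemiconjBy; decide +kernel
theorem vc7 : Commute v7 c7 := by unfold Commute SemiconjBy; decide +kernel
theorem tc7 : Commute t7 c7 := by unfold Commute SemiconjBy; decide +kernel

theorem lift_not_scalar [Nonempty n] {π : H →* ↥(alternatingGroup (Fin 7))}
    {ρ : H →* GL n F}
    (hker : ∀ k ∈ π.ker, IsScalarMat (ρ k)) (hns : ∃ h, ¬ IsScalarMat (ρ h))
    (hπ : Function.Surjective π) {R : GL n F}
    {a : ↥(alternatingGroup (Fin 7))} (hR : Lift π ρ R a) (ha : a ≠ 1) : R ∉ scal n F := by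
  haveI : IsSimpleGroup ↥(alternatingGroup (Fin 7)) := alternatingGroup.isSimpleGroup (by simp)
  intro hs
  let N : Subgroup H := (scal n F).comap ρ
  obtain ⟨g, hg, hg'⟩ := hR
  have hgN : g ∈ N := by
    have h1 : (QuotientGroup.mk (ρ g) : GL n F ⧸ scal n F) = 1 := by
      rw [hg', QuotientGroup.eq_one_iff]; exact hs
    exact Subgroup.mem_comap.mpr ((QuotientGroup.eq_one_iff (ρ g)).mp h1)
  haveI := Subgroup.Normal.map (scal_normal.comap ρ : N.Normal) π hπ
  rcases Subgroup.Normal.eq_bot_or_eq_top (inferInstance : (N.map π).Normal) with h | h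
  · exact ha ((Subgroup.eq_bot_iff_forall _).mp h _ ⟨g, hgN, hg⟩)
  · obtain ⟨y, hy⟩ := hns
    obtain ⟨x, hx, hxy⟩ : π y ∈ N.map π := by rw [h]; trivial
    have hk : x⁻¹ * y ∈ π.ker := by
      rw [MonoidHom.mem_ker, map_mul, map_inv, hxy, inv_mul_cancel]
    have hyN : y ∈ N := by
      have h2 : x⁻¹ * y ∈ N := mem_of_isScalarMat (hker _ hk)
      simpa using N.mul_mem hx h2
    exact hy (isScalarMat_of_mem hyN)

/-- Commuting lifts of a four-group in degree four force a scalar lift of a three-cycle. -/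
theorem seven_dcom_ne_one (h2 : (2 : F) ≠ 0) (hn : Fintype.card n = 4) [Nonempty n]
    {π : H →* ↥(alternatingGroup (Fin 7))} (hπ : Function.Surjective π) {ρ : H →* GL n F}
    (hker : ∀ k ∈ π.ker, IsScalarMat (ρ k)) (hns : ∃ h, ¬ IsScalarMat (ρ h)) :
    dcom hπ ρ u7 v7 ≠ 1 := by
  intro hδ
  obtain ⟨U, hU⟩ := exists_lift (ρ := ρ) hπ u7
  obtain ⟨T, hT⟩ := exists_lift (ρ := ρ) hπ t7
  obtain ⟨C, hC⟩ := exists_lift (ρ := ρ) hπ c7
  obtain ⟨X, hX⟩ := exists_lift (ρ := ρ) hπ x7
  have hV : Lift π ρ (T * U * T⁻¹) v7 := by rw [← t7_u]; exact hT.conj hU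
  set V := T * U * T⁻¹ with hVdef
  have hW : Lift π ρ (T * V * T⁻¹) (u7 * v7) := by rw [← t7_v]; exact hT.conj hV
  set W := T * V * T⁻¹ with hWdef
  have hUV : Commute U V := by
    rw [← commutatorElement_eq_one_iff_commute, dcom_eq hπ hker hU hV, hδ]
  have hT3 : T ^ 3 ∈ scal n F := mem_scal_of_lift_one hker (t7_cube ▸ hT.pow 3)
  have hTW : T * W * T⁻¹ = U := by
    have : T * W * T⁻¹ = T ^ 3 * U * (T ^ 3)⁻¹ := by
      rw [hWdef, hVdef]; simp only [pow_succ, pow_zero, one_mul, mul_inv_rev, mul_assoc]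
    rw [this, (scal_commute hT3 U).eq, mul_inv_cancel_right]
  have hU2 : U ^ 2 ∈ scal n F := mem_scal_of_lift_one hker (u7_sq ▸ hU.pow 2)
  have hb : U * V * W ∈ scal n F := by
    refine mem_scal_of_lift_one hker ?_
    have h := (hU.mul hV).mul hW
    have he : u7 * v7 * (u7 * v7) = 1 := by decide +kernel
    rwa [he] at h
  obtain ⟨a, ha⟩ := hU2
  obtain ⟨b, hbb⟩ := hb
  -- eigenvalues on vectors
  set μU : (n → F) →ₗ[F] (n → F) := Matrix.mulVecLin (U : Matrix n n F) with hμU
  set μV : (n → F) →ₗ[F] (n → F) := Matrix.mulVecLin (V : Matrix n n F) with hμV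
  set μW : (n → F) →ₗ[F] (n → F) := Matrix.mulVecLin (W : Matrix n n F) with hμW
  have hsq : ∀ v, μU (μU v) = (a : F) • v := by
    intro v
    simp only [hμU, Matrix.mulVecLin_apply, Matrix.mulVec_mulVec, ← Units.val_mul]
    rw [← sq, ← ha, scalar_mulVec]
  have hsqV : ∀ v, μV (μV v) = (a : F) • v := by
    intro v
    have h1 : V * V = U * U := by
      rw [hVdef]
      calc T * U * T⁻¹ * (T * U * T⁻¹) = T * (U * U) * T⁻¹ := by group
        _ = U * U := by
          rw [← sq, ← ha, ← (scal_commute ⟨a, rfl⟩ T).eq, mul_inv_cancel_right]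
    simp only [hμV, Matrix.mulVecLin_apply, Matrix.mulVec_mulVec, ← Units.val_mul]
    rw [h1, ← sq, ← ha, scalar_mulVec]
  have hcomm : ∀ v, μU (μV v) = μV (μU v) := fun v => mulVec_comm hUV.eq v
  have hprod : ∀ v, μU (μV (μW v)) = (b : F) • v := by
    intro v
    simp only [hμU, hμV, hμW, Matrix.mulVecLin_apply, Matrix.mulVec_mulVec, ← Units.val_mul,
      ← mul_assoc, ← hbb, scalar_mulVec]
  -- normalise by l with l^2 = a
  have hWexpr : ∀ v, ((a : F) * (a : F)) • μW v = (b : F) • μU (μV v) := by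
    intro v
    have h1 := congrArg (fun w => μV (μU w)) (hprod v)
    simp only [map_smul, hsq, hsqV, smul_smul] at h1
    rw [← smul_smul, smul_smul, ← hcomm] at h1
    rw [← h1]
  have hb2 : (b : F) * (b : F) = (a : F) * (a : F) * (a : F) := by
    obtain ⟨i⟩ := ‹Nonempty n›
    have h1 : W * W = U * U := by
      rw [hWdef]
      calc T * V * T⁻¹ * (T * V * T⁻¹) = T * (V * V) * T⁻¹ := by group
        _ = U * U := by
          rw [hVdef]
          calc T * (T * U * T⁻¹ * (T * U * T⁻¹)) * T⁻¹ = T * (T * (U * U) * T⁻¹) * T⁻¹ := by group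
            _ = U * U := by
              rw [← sq, ← ha, ← (scal_commute ⟨a, rfl⟩ T).eq, mul_inv_cancel_right,
                ← (scal_commute ⟨a, rfl⟩ T).eq, mul_inv_cancel_right]
    have hsqW : ∀ v, μW (μW v) = (a : F) • v := by
      intro v
      simp only [hμW, Matrix.mulVecLin_apply, Matrix.mulVec_mulVec, ← Units.val_mul]
      rw [h1, ← sq, ← ha, scalar_mulVec]
    have h2 := hWexpr (μW (Pi.single i 1))
    rw [hsqW, hprod, smul_smul, smul_smul] at h2
    have h3 := congrFun h2 i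
    simp only [Pi.smul_apply, Pi.single_eq_same, smul_eq_mul, mul_one] at h3
    exact h3.symm
  set l : F := (b : F) / (a : F) with hl
  have hl2 : l * l = (a : F) := by
    rw [hl]; field_simp
    linear_combination hb2
  have hl0 : l ≠ 0 := fun h => a.ne_zero (by rw [← hl2, h, mul_zero])
  set u : (n → F) →ₗ[F] (n → F) := l⁻¹ • μU with hu
  set v' : (n → F) →ₗ[F] (n → F) := l⁻¹ • μV with hv'
  have huu : ∀ x, u (u x) = x := by
    intro x
    simp only [hu, LinearMap.smul_apply, map_smul, hsq, smul_smul]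
    rw [show l⁻¹ * (l⁻¹ * (a : F)) = 1 by rw [← hl2]; field_simp, one_smul]
  have hvv : ∀ x, v' (v' x) = x := by
    intro x
    simp only [hv', LinearMap.smul_apply, map_smul, hsqV, smul_smul]
    rw [show l⁻¹ * (l⁻¹ * (a : F)) = 1 by rw [← hl2]; field_simp, one_smul]
  have huv : ∀ x, u (v' x) = v' (u x) := by
    intro x; simp only [hu, hv', LinearMap.smul_apply, map_smul, hcomm]
  set T' : (n → F) →ₗ[F] (n → F) := Matrix.mulVecLin (T : Matrix n n F) with hT'
  have hTu : ∀ x, T' (u x) = v' (T' x) := by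
    intro x
    simp only [hT', hu, hv', LinearMap.smul_apply, hμU, hμV, Matrix.mulVecLin_apply,
      Matrix.mulVec_smul, Matrix.mulVec_mulVec, ← Units.val_mul]
    rw [show V * T = T * U by rw [hVdef]; group]
  have hWuv : ∀ x, l⁻¹ • μW x = u (v' x) := by
    intro x
    have h := hWexpr x
    simp only [hu, hv', LinearMap.smul_apply, map_smul, smul_smul]
    have : μW x = ((a : F) * (a : F))⁻¹ • (b : F) • μU (μV x) := by
      rw [← h, inv_smul_smul₀ (mul_ne_zero a.ne_zero a.ne_zero)]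
    rw [this, smul_smul, smul_smul]
    congr 1
    rw [show (b : F) = l * a by rw [hl]; field_simp, ← hl2]
    field_simp
  have hTv : ∀ x, T' (v' x) = u (v' (T' x)) := by
    intro x
    rw [← hWuv]
    simp only [hT', hv', LinearMap.smul_apply, hμV, hμW, Matrix.mulVecLin_apply,
      Matrix.mulVec_smul, Matrix.mulVec_mulVec, ← Units.val_mul]
    rw [show W * T = T * V by rw [hWdef]; group]
  -- the four weight spaces
  let E : F → F → Submodule F (n → F) := fun s t =>
    { carrier := {x | u x = s • x ∧ v' x = t • x}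
      zero_mem' := by simp
      add_mem' := fun {x y} hx hy => ⟨by rw [map_add, hx.1, hy.1, smul_add],
        by rw [map_add, hx.2, hy.2, smul_add]⟩
      smul_mem' := fun c x hx => ⟨by rw [map_smul, hx.1, smul_comm],
        by rw [map_smul, hx.2, smul_comm]⟩ }
  have hTmap : ∀ (s t : F) (x), x ∈ E s t → T' x ∈ E (s * t) s := by
    intro s t x hx
    have h1 : v' (T' x) = s • T' x := by rw [← hTu, hx.1, map_smul]
    have h2 : u (v' (T' x)) = t • T' x := by rw [← hTv, hx.2, map_smul]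
    refine ⟨?_, h1⟩
    rw [h1, map_smul] at h2
    have h3 := congrArg u h2
    rw [map_smul, map_smul, huu] at h3
    -- s • T'x = t • u (T'x)
    have ht : t * t = 1 ∨ T' x = 0 := by
      by_cases h0 : T' x = 0
      · exact Or.inr h0
      · left
        have h4 := congrArg (fun y => t • y) h3
        simp only [smul_smul] at h4
        have h5 := congrArg (fun y => s • y) h2
        simp only [smul_smul] at h5
        have hx0 : x ≠ 0 := fun h => h0 (by rw [h, map_zero])
        have h6 := hvv x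
        rw [hx.2, map_smul, hx.2, smul_smul] at h6
        exact smul_left_injective F hx0 (by simpa using h6)
    rcases ht with ht | h0
    · have h4 := congrArg (fun y => t • y) h3
      simp only [smul_smul] at h4
      rw [ht, one_smul, mul_comm] at h4
      exact h4.symm
    · rw [h0, map_zero, smul_zero]
  have hTinj : Function.Injective T' := inj_mulVec T
  let a1 := E 1 1
  let b1 := E (1 : F) (-1)
  let b2 := E (-1 : F) 1
  let b3 := E (-1 : F) (-1)
  have hq : (4 : F) ≠ 0 := by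
    rw [show (4 : F) = 2 * 2 by norm_num]; exact mul_ne_zero h2 h2
  have hPmem : ∀ (s t : F), s * s = 1 → t * t = 1 → ∀ x,
      x + s • u x + t • v' x + (s * t) • u (v' x) ∈ E s t := by
    intro s t hs ht x
    constructor
    · simp only [map_add, map_smul, huu, smul_add, smul_smul]
      rw [show s * s = 1 from hs, ← mul_assoc, hs, one_mul]
      module
    · simp only [map_add, map_smul, huv, hvv, smul_add, smul_smul]
      rw [show t * t = 1 from ht, show t * (s * t) = s by linear_combination s * ht,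
        ← huv]
      module
  let Φ : (n → F) ≃ₗ[F] (↥a1 × ↥b1) × (↥b2 × ↥b3) :=
    { toFun := fun x =>
        ((⟨(4 : F)⁻¹ • (x + (1 : F) • u x + (1 : F) • v' x + ((1 : F) * 1) • u (v' x)),
            a1.smul_mem _ (hPmem 1 1 (by ring) (by ring) x)⟩,
          ⟨(4 : F)⁻¹ • (x + (1 : F) • u x + (-1 : F) • v' x + ((1 : F) * -1) • u (v' x)),
            b1.smul_mem _ (hPmem 1 (-1) (by ring) (by ring) x)⟩),
          (⟨(4 : F)⁻¹ • (x + (-1 : F) • u x + (1 : F) • v' x + ((-1 : F) * 1) • u (v' x)),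
            b2.smul_mem _ (hPmem (-1) 1 (by ring) (by ring) x)⟩,
          ⟨(4 : F)⁻¹ • (x + (-1 : F) • u x + (-1 : F) • v' x + ((-1 : F) * -1) • u (v' x)),
            b3.smul_mem _ (hPmem (-1) (-1) (by ring) (by ring) x)⟩))
      map_add' := fun x y => by
        ext <;> simp only [map_add, Submodule.coe_add, Prod.fst_add, Prod.snd_add, Pi.add_apply,
          Pi.smul_apply, smul_eq_mul] <;> ring
      map_smul' := fun c x => by
        ext <;> simp only [map_smul, SetLike.val_smul, Prod.smul_fst, Prod.smul_snd, RingHom.id_apply,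
          Pi.add_apply, Pi.smul_apply, smul_eq_mul] <;> ring
      invFun := fun p => p.1.1.1 + p.1.2.1 + p.2.1.1 + p.2.2.1
      left_inv := fun x => by
        funext i
        simp only [Pi.add_apply, Pi.smul_apply, smul_eq_mul]
        field_simp
        ring
      right_inv := by
        rintro ⟨⟨⟨p, hp⟩, ⟨q, hq'⟩⟩, ⟨r, hr⟩, ⟨w, hw⟩⟩
        ext i <;>
        · simp only [map_add, hp.1, hp.2, hq'.1, hq'.2, hr.1, hr.2, hw.1, hw.2, map_smul,
            Pi.add_apply, Pi.smul_apply, smul_eq_mul]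
          field_simp
          ring }
  have hrk : ∀ (s t : F), Module.finrank F ↥(E s t) ≤ Module.finrank F ↥(E (s * t) s) :=
    fun s t => LinearMap.finrank_le_finrank_of_injective
      (f := T'.restrict (hTmap s t)) (fun x y h => Subtype.ext (hTinj (congrArg Subtype.val h)))
  have r1 : Module.finrank F ↥b1 ≤ Module.finrank F ↥(E (-1 : F) 1) := by
    have := hrk 1 (-1); rwa [one_mul] at this
  have r2 : Module.finrank F ↥b2 ≤ Module.finrank F ↥(E (-1 : F) (-1)) := by
    have := hrk (-1) 1; rwa [mul_one] at this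
  have r3 : Module.finrank F ↥b3 ≤ Module.finrank F ↥(E (1 : F) (-1)) := by
    have := hrk (-1) (-1); rwa [neg_one_mul, neg_neg] at this
  change Module.finrank F ↥b1 ≤ Module.finrank F ↥b2 at r1
  change Module.finrank F ↥b2 ≤ Module.finrank F ↥b3 at r2
  change Module.finrank F ↥b3 ≤ Module.finrank F ↥b1 at r3
  have htot : Module.finrank F ↥a1 + Module.finrank F ↥b1 +
      (Module.finrank F ↥b2 + Module.finrank F ↥b3) = 4 := by
    rw [← Module.finrank_prod, ← Module.finrank_prod, ← Module.finrank_prod, ← Φ.finrank_eq,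
      Module.finrank_pi, hn]
  have hb1 : Module.finrank F ↥b1 ≠ 0 := by
    intro h0
    have e1 : b1 = ⊥ := Submodule.finrank_eq_zero.mp h0
    have e2 : b2 = ⊥ := Submodule.finrank_eq_zero.mp (by omega)
    have e3 : b3 = ⊥ := Submodule.finrank_eq_zero.mp (by omega)
    refine lift_not_scalar hker hns hπ hU u7_ne (mem_of_isScalarMat ⟨l, ?_⟩)
    refine Matrix.ext_of_mulVec_single fun i => ?_
    set x : n → F := Pi.single i 1
    have hx : x = (Φ x).1.1.1 + (Φ x).1.2.1 + (Φ x).2.1.1 + (Φ x).2.2.1 :=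
      (Φ.symm_apply_apply x).symm
    have z1 : (Φ x).1.2.1 = 0 := (Submodule.eq_bot_iff _).mp e1 _ (Φ x).1.2.2
    have z2 : (Φ x).2.1.1 = 0 := (Submodule.eq_bot_iff _).mp e2 _ (Φ x).2.1.2
    have z3 : (Φ x).2.2.1 = 0 := (Submodule.eq_bot_iff _).mp e3 _ (Φ x).2.2.2
    have hux : u x = x := by
      rw [hx, z1, z2, z3, add_zero, add_zero, add_zero, (Φ x).1.1.2.1, one_smul]
    rw [Matrix.smul_mulVec, Matrix.one_mulVec]
    have := congrArg (fun y => l • y) hux
    simpa [hu, LinearMap.smul_apply, smul_smul, hl0, hμU] using this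
  have d1 : Module.finrank F ↥b1 = 1 := by
    change Module.finrank F ↥b1 ≤ Module.finrank F ↥b2 at r1
    change Module.finrank F ↥b2 ≤ Module.finrank F ↥b3 at r2
    change Module.finrank F ↥b3 ≤ Module.finrank F ↥b1 at r3
    omega
  have dd : Module.finrank F ↥a1 = 1 ∧ Module.finrank F ↥b2 = 1 ∧ Module.finrank F ↥b3 = 1 := by
    change Module.finrank F ↥b1 ≤ Module.finrank F ↥b2 at r1
    change Module.finrank F ↥b2 ≤ Module.finrank F ↥b3 at r2
    change Module.finrank F ↥b3 ≤ Module.finrank F ↥b1 at r3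
    omega
  -- the lift of the three-cycle
  set C' : (n → F) →ₗ[F] (n → F) := Matrix.mulVecLin (C : Matrix n n F) with hC'
  have hCU : U * C = C * U := by
    have := dcom_eq_one_of_coprime hπ hker uc7 u7_sq c7_cube (by norm_num)
    rw [← dcom_eq hπ hker hU hC] at this
    exact (commutatorElement_eq_one_iff_commute.mp this).eq
  have hCV : V * C = C * V := by
    have := dcom_eq_one_of_coprime hπ hker vc7 v7_sq c7_cube (by norm_num)
    rw [← dcom_eq hπ hker hV hC] at this
    exact (commutatorElement_eq_one_iff_commute.mp this).eq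
  have hCE : ∀ (s t : F) (x), x ∈ E s t → C' x ∈ E s t := by
    intro s t x hx
    constructor
    · rw [← map_smul, ← hx.1]
      simp only [hC', hu, LinearMap.smul_apply, hμU, Matrix.mulVecLin_apply, Matrix.mulVec_smul,
        Matrix.mulVec_mulVec, ← Units.val_mul, hCU]
    · rw [← map_smul, ← hx.2]
      simp only [hC', hv', LinearMap.smul_apply, hμV, Matrix.mulVecLin_apply, Matrix.mulVec_smul,
        Matrix.mulVec_mulVec, ← Units.val_mul, hCV]
  obtain ⟨k, hk0, hkap⟩ : ∃ k : F, k ≠ 0 ∧ ∀ x, T' (C' x) = k • C' (T' x) := by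
    obtain ⟨c, hc, hcv⟩ := scal_mulVec (comm_mem_of_lift hker hT hC tc7)
    refine ⟨c, hc, fun x => ?_⟩
    have h : T * C = ⁅T, C⁆ * (C * T) := by rw [commutatorElement_def]; group
    simp only [hT', hC', Matrix.mulVecLin_apply, Matrix.mulVec_mulVec, ← Units.val_mul]
    rw [h, Units.val_mul, ← Matrix.mulVec_mulVec, hcv]
  obtain ⟨e0, he0, he0'⟩ := finrank_eq_one_iff'.mp dd.1
  obtain ⟨e1, he1, he1'⟩ := finrank_eq_one_iff'.mp d1
  have hw2 : T' e1.1 ∈ b2 := by
    have := hTmap 1 (-1) e1.1 e1.2; rwa [one_mul] at this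
  have hw3 : T' (T' e1.1) ∈ b3 := by
    have := hTmap (-1) 1 _ hw2; rwa [mul_one] at this
  obtain ⟨ν, hν⟩ := he0' ⟨C' e0, hCE 1 1 _ e0.2⟩
  obtain ⟨μ, hμ⟩ := he1' ⟨C' e1, hCE 1 (-1) _ e1.2⟩
  have hν' : C' e0.1 = ν • e0.1 := (congrArg Subtype.val hν).symm
  have hμ' : C' e1.1 = μ • e1.1 := (congrArg Subtype.val hμ).symm
  have hTe0 : T' e0.1 ∈ a1 := by
    have := hTmap 1 1 e0.1 e0.2; rwa [one_mul] at this
  obtain ⟨τ, hτ⟩ := he0' ⟨T' e0, hTe0⟩
  have hτ' : T' e0.1 = τ • e0.1 := (congrArg Subtype.val hτ).symm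
  have he0v : e0.1 ≠ 0 := fun h => he0 (Subtype.ext h)
  have he1v : e1.1 ≠ 0 := fun h => he1 (Subtype.ext h)
  have hν0 : ν ≠ 0 := by
    intro h
    rw [h, zero_smul] at hν'
    exact he0v (inj_mulVec C (hν'.trans (map_zero C').symm))
  have hk1 : k = 1 := by
    have h := hkap e0.1
    rw [hν', hτ', map_smul, map_smul, hτ', hν', smul_smul, smul_smul, smul_smul] at h
    have h' := smul_left_injective F he0v h
    have hτ0 : τ ≠ 0 := by
      intro h0
      rw [h0, zero_smul] at hτ'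
      exact he0v (hTinj (hτ'.trans (map_zero T').symm))
    have : ν * τ * (k - 1) = 0 := by linear_combination -h'
    rcases mul_eq_zero.mp this with h3 | h3
    · exact absurd h3 (mul_ne_zero hν0 hτ0)
    · exact sub_eq_zero.mp h3
  have hμ2 : C' (T' e1.1) = μ • T' e1.1 := by
    have h := hkap e1.1
    rw [hk1, one_smul, hμ', map_smul] at h
    exact h.symm
  have hμ3 : C' (T' (T' e1.1)) = μ • T' (T' e1.1) := by
    have h := hkap (T' e1.1)
    rw [hk1, one_smul, hμ2, map_smul] at h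
    exact h.symm
  have hline : ∀ (S : Submodule F (n → F)), Module.finrank F ↥S = 1 → ∀ w, w ∈ S → w ≠ 0 →
      ∀ x ∈ S, ∃ c : F, x = c • w := by
    intro S hS w hw hw0 x hx
    obtain ⟨c, hc⟩ := exists_smul_eq_of_finrank_eq_one hS
      (x := (⟨w, hw⟩ : ↥S)) (fun h => hw0 (congrArg Subtype.val h)) ⟨x, hx⟩
    exact ⟨c, (congrArg Subtype.val hc).symm⟩
  have hdec : ∀ x : n → F, ∃ p q : n → F, x = p + q ∧ C' p = ν • p ∧ C' q = μ • q ∧
      (∃ c : F, p = c • e0.1) := by
    intro x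
    have hx : x = (Φ x).1.1.1 + (Φ x).1.2.1 + (Φ x).2.1.1 + (Φ x).2.2.1 :=
      (Φ.symm_apply_apply x).symm
    obtain ⟨c0, h0⟩ := hline a1 dd.1 e0.1 e0.2 he0v _ (Φ x).1.1.2
    obtain ⟨c1, h1⟩ := hline b1 d1 e1.1 e1.2 he1v _ (Φ x).1.2.2
    obtain ⟨c2, h2'⟩ := hline b2 dd.2.1 _ hw2
      (fun h => he1v (hTinj (h.trans (map_zero T').symm))) _ (Φ x).2.1.2
    obtain ⟨c3, h3'⟩ := hline b3 dd.2.2 _ hw3
      (fun h => he1v (hTinj (hTinj ((h.trans (map_zero T').symm).trans
        (congrArg T' (map_zero T').symm))))) _ (Φ x).2.2.2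
    refine ⟨c0 • e0.1, c1 • e1.1 + c2 • T' e1.1 + c3 • T' (T' e1.1), ?_, ?_, ?_, c0, rfl⟩
    · conv_lhs => rw [hx, h0, h1, h2', h3']
      abel
    · rw [map_smul, hν', smul_comm]
    · simp only [map_add, map_smul, hμ', hμ2, hμ3, smul_add, smul_comm μ]
  have hνμ : ν ≠ μ := by
    intro he
    refine lift_not_scalar hker hns hπ hC c7_ne (mem_of_isScalarMat ⟨μ, ?_⟩)
    refine Matrix.ext_of_mulVec_single fun i => ?_
    rw [Matrix.smul_mulVec, Matrix.one_mulVec]
    obtain ⟨p, q, hpq, hp, hq2, -⟩ := hdec (Pi.single i 1)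
    show C' _ = _
    rw [hpq, map_add, hp, hq2, he, smul_add]
  have heig : ∀ (κ : F) (y : n → F), C' y = κ • y →
      y = 0 ∨ κ = ν ∨ κ = μ := by
    intro κ y hy
    obtain ⟨p, q, hpq, hp, hq2, -⟩ := hdec y
    have h1 := congrArg C' hy
    by_cases hκν : κ = ν
    · exact Or.inr (Or.inl hκν)
    by_cases hκμ : κ = μ
    · exact Or.inr (Or.inr hκμ)
    left
    rw [hpq, map_add, hp, hq2, smul_add] at hy
    have h3 := congrArg C' hy
    simp only [map_add, map_smul, hp, hq2, smul_smul] at h3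
    -- two equations: (ν-κ) p + (μ-κ) q = 0 and its image
    have e : (ν - κ) • p + (μ - κ) • q = 0 := by
      rw [sub_smul, sub_smul, sub_add_sub_comm, hy, sub_self]
    have e' : ((ν - κ) * ν) • p + ((μ - κ) * μ) • q = 0 := by
      have := congrArg C' e
      simpa [map_add, map_smul, hp, hq2, smul_smul] using this
    have hp0 : ((ν - κ) * (ν - μ)) • p = 0 := by
      have := congrArg (fun w => μ • w) e
      simp only [smul_add, smul_smul, smul_zero] at this
      calc ((ν - κ) * (ν - μ)) • p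
          = (((ν - κ) * ν) • p + ((μ - κ) * μ) • q) - ((μ * (ν - κ)) • p + (μ * (μ - κ)) • q) := by
            module
        _ = 0 := by rw [e', this, sub_self]
    have hpz : p = 0 := (smul_eq_zero.mp hp0).resolve_left
      (mul_ne_zero (sub_ne_zero.mpr (Ne.symm hκν)) (sub_ne_zero.mpr hνμ))
    rw [hpz, smul_zero, zero_add] at e
    have hqz : q = 0 := (smul_eq_zero.mp e).resolve_left (sub_ne_zero.mpr (Ne.symm hκμ))
    rw [hpq, hpz, hqz, add_zero]
  obtain ⟨ν3, hν3⟩ : ∃ c : F, ∀ x, C' (C' (C' x)) = c • x := by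
    obtain ⟨c, -, hcv⟩ := scal_mulVec (mem_scal_of_lift_one hker (c7_cube ▸ hC.pow 3))
    refine ⟨c, fun x => ?_⟩
    rw [← hcv x]
    simp only [hC', Matrix.mulVecLin_apply, Matrix.mulVec_mulVec, ← Units.val_mul, pow_succ,
      pow_zero, one_mul, mul_assoc]
  have hcubeeq : ν * ν * ν = μ * μ * μ := by
    have h1 := hν3 e0.1
    simp only [hν', map_smul, smul_smul] at h1
    have h2' := hν3 e1.1
    simp only [hμ', map_smul, smul_smul] at h2'
    rw [smul_left_injective F he0v h1, smul_left_injective F he1v h2']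
  obtain ⟨lam, hlam0, hlam⟩ : ∃ c : F, c ≠ 0 ∧
      ∀ x, C' (Matrix.mulVecLin (X : Matrix n n F) (C' x)) =
        c • Matrix.mulVecLin (X : Matrix n n F) x := by
    have hk : C * X * C * X⁻¹ ∈ scal n F := by
      refine mem_scal_of_lift_one hker ?_
      have h := ((hC.mul hX).mul hC).mul hX.inv
      rwa [show c7 * x7 * c7 * x7⁻¹ = c7 * (x7 * c7 * x7⁻¹) by group, x7_inverts,
        mul_inv_cancel] at h
    obtain ⟨c, hc, hcv⟩ := scal_mulVec hk
    refine ⟨c, hc, fun x => ?_⟩
    simp only [hC', Matrix.mulVecLin_apply, Matrix.mulVec_mulVec, ← Units.val_mul]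
    rw [show C * (X * C) = C * X * C * X⁻¹ * X by group, Units.val_mul, ← Matrix.mulVec_mulVec,
      hcv]
  set X' : (n → F) →ₗ[F] (n → F) := Matrix.mulVecLin (X : Matrix n n F) with hX'
  have hXinj : Function.Injective X' := inj_mulVec X
  have hμ0 : μ ≠ 0 := by
    intro h
    rw [h, zero_smul] at hμ'
    exact he1v (inj_mulVec C (hμ'.trans (map_zero C').symm))
  have himg : ∀ (κ : F) (w), κ ≠ 0 → C' w = κ • w → C' (X' w) = (lam / κ) • X' w := by
    intro κ w hκ hw
    have h := hlam w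
    rw [hw, map_smul, map_smul] at h
    rw [div_eq_mul_inv, mul_comm, ← smul_smul, ← h, inv_smul_smul₀ hκ]
  -- the eigenspace of dimension three
  have hq1 := himg μ e1.1 hμ0 hμ'
  have hq2 := himg μ _ hμ0 hμ2
  have hlamμ : lam = μ * μ := by
    rcases heig _ _ hq1 with h | h | h
    · exact absurd (hXinj (h.trans (map_zero X').symm)) he1v
    · -- both images would lie in the line
      exfalso
      have hp : ∀ y, C' y = ν • y → ∃ c : F, y = c • e0.1 := by
        intro y hy
        obtain ⟨p, q, hpq, hp, hq3, c, hc⟩ := hdec y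
        rw [hpq, map_add, hp, hq3, smul_add] at hy
        have hq0 : q = 0 := by
          have := add_left_cancel hy
          rw [← sub_eq_zero, ← sub_smul] at this
          exact (smul_eq_zero.mp this).resolve_left (sub_ne_zero.mpr (Ne.symm hνμ))
        exact ⟨c, by rw [hpq, hq0, add_zero, hc]⟩
      obtain ⟨c1, hc1⟩ := hp _ (h ▸ hq1)
      obtain ⟨c2, hc2⟩ := hp _ (h ▸ hq2)
      have hz : X' (c2 • e1.1 - c1 • T' e1.1) = 0 := by
        rw [map_sub, map_smul, map_smul, hc1, hc2, smul_smul, smul_smul, mul_comm, sub_self]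
      have hz' : c2 • e1.1 = c1 • T' e1.1 := sub_eq_zero.mp (hXinj (hz.trans (map_zero X').symm))
      have hm : c2 • e1.1 ∈ b2 := hz' ▸ b2.smul_mem c1 hw2
      have hm1 := hm.1
      rw [map_smul, (e1.2.1 : u e1.1 = (1 : F) • e1.1), one_smul] at hm1
      have : (2 : F) • (c2 • e1.1) = 0 := by
        rw [two_smul]
        nth_rewrite 1 [hm1]
        rw [neg_smul, one_smul, neg_add_cancel]
      have hc20 : c2 = 0 := (smul_eq_zero.mp
        ((smul_eq_zero.mp this).resolve_left h2)).resolve_right he1v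
      rw [hc20, zero_smul] at hc2
      exact he1v (hTinj ((hXinj (hc2.trans (map_zero X').symm)).trans (map_zero T').symm))
    · rw [div_eq_iff hμ0] at h
      exact h
  rcases heig _ _ (himg ν e0.1 hν0 hν') with h | h | h
  · exact he0v (hXinj (h.trans (map_zero X').symm))
  · rw [div_eq_iff hν0] at h
    -- squares and cubes agree
    have : ν * ν * (ν - μ) = 0 := by
      linear_combination hcubeeq + μ * (h.symm.trans hlamμ) * (-1)
    rcases mul_eq_zero.mp this with h3 | h3
    · exact mul_ne_zero hν0 hν0 h3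
    · exact hνμ (sub_eq_zero.mp h3)
  · rw [div_eq_iff hν0, hlamμ] at h
    exact hνμ (mul_left_cancel₀ hμ0 h).symm

theorem dcom_u7_v7 (h2 : (2 : F) ≠ 0) (hn : Fintype.card n = 4) [Nonempty n]
    {π : H →* ↥(alternatingGroup (Fin 7))} (hπ : Function.Surjective π) {ρ : H →* GL n F}
    (hker : ∀ k ∈ π.ker, IsScalarMat (ρ k)) (hns : ∃ h, ¬ IsScalarMat (ρ h)) :
    dcom hπ ρ u7 v7 = -1 := by
  have hne := seven_dcom_ne_one h2 hn hπ hker hns
  have hsq : dcom hπ ρ u7 v7 ^ 2 = 1 := by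
    rw [← dcom_pow_left hπ hker uv7, u7_sq]
    simpa using dcom_pow_left hπ hker (a := u7) (b := v7) uv7 0
  obtain ⟨w, hw⟩ := dcom_mem hπ hker uv7
  rw [← hw, ← map_pow, ← map_one (Matrix.GeneralLinearGroup.scalar (R := F) n)] at hsq
  have h1 : (w : F) * (w : F) = 1 := by
    obtain ⟨i⟩ := ‹Nonempty n›
    have := congrArg (fun g : GL n F => (g : Matrix n n F) i i) hsq
    simpa [Matrix.GeneralLinearGroup.coe_scalar, Matrix.scalar_apply, sq] using this
  rcases mul_self_eq_one_iff.mp h1 with h | h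
  · exact absurd (by rw [← hw, show w = 1 from Units.ext h, map_one]) hne
  · rw [← hw]
    apply Units.ext
    rw [Matrix.GeneralLinearGroup.coe_scalar, h, map_neg, map_one]
    rfl

theorem seven_commutator (h2 : (2 : F) ≠ 0) (h3 : (3 : F) ≠ 0) {ω : F}
    (hω : ω ^ 2 + ω + 1 = 0) (π : H →* ↥(alternatingGroup (Fin 7)))
    (hπ : Function.Surjective π) (ρ : H →* GL n F) (hker : ∀ k ∈ π.ker, IsScalarMat (ρ k))
    (hn : Fintype.card n = 4) (hns : ∃ h, ¬ IsScalarMat (ρ h)) :
    ∀ X Y : H, π X = u7 → π Y = v7 →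
      (ρ (X * Y) : Matrix n n F) = - (ρ (Y * X) : Matrix n n F) := by
  intro X Y hX hY
  haveI : Nonempty n := Fintype.card_pos_iff.mp (by omega)
  have h := dcom_eq hπ hker (Lift.of (ρ := ρ) hX) (Lift.of (ρ := ρ) hY)
  rw [dcom_u7_v7 h2 hn hπ hker hns, commutatorElement_def, mul_inv_eq_iff_eq_mul,
    mul_inv_eq_iff_eq_mul] at h
  rw [map_mul, map_mul, h, neg_one_mul, neg_mul]
  rfl

theorem seven_three (h2 : (2 : F) ≠ 0) (h3 : (3 : F) ≠ 0) {ω : F}
    (hω : ω ^ 2 + ω + 1 = 0) (π : H →* ↥(alternatingGroup (Fin 7)))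
    (hπ : Function.Surjective π) (ρ : H →* GL n F) (hker : ∀ k ∈ π.ker, IsScalarMat (ρ k))
    (hn : Fintype.card n = 4) (hns : ∃ h, ¬ IsScalarMat (ρ h)) :
    ∀ C X : H, π C = c7 → π X = x7 → ∀ s : F, (s • (ρ C : Matrix n n F)) ^ 3 = 1 →
      (ρ X : Matrix n n F) * (s • (ρ C : Matrix n n F)) * (ρ X : Matrix n n F) *
        (s • (ρ C : Matrix n n F)) = (ρ X : Matrix n n F) ^ 2 →
      ∀ v : n → F, (s • (ρ C : Matrix n n F)) *ᵥ v = v → v = 0 := by
  intro C X hC hX s hcube hrel
  haveI : Nonempty n := Fintype.card_pos_iff.mp (by omega)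
  set M : Matrix n n F := s • (ρ C : Matrix n n F) with hM
  set D : (n → F) →ₗ[F] (n → F) := Matrix.mulVecLin M with hD
  have hD3 : ∀ x, D (D (D x)) = x := by
    intro x
    simp only [hD, Matrix.mulVecLin_apply, Matrix.mulVec_mulVec]
    rw [show M * (M * M) = M ^ 3 by rw [pow_succ, pow_two, mul_assoc], hcube, Matrix.one_mulVec]
  have hω0 : ω ≠ 0 := by
    intro h; rw [h] at hω; norm_num at hω
  have hω3 : ω ^ 3 = 1 := by linear_combination (ω - 1) * hω
  have hω1 : ω ≠ 1 := by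
    intro h; rw [h] at hω; apply h3; linear_combination hω
  have hω21 : ω ^ 2 ≠ 1 := by
    intro h
    apply hω1
    linear_combination hω3 - ω * h
  have hωω : ω ≠ ω ^ 2 := by
    intro h
    apply hω1
    exact mul_left_cancel₀ hω0 (by linear_combination -h)
  let K : F → Submodule F (n → F) := fun c =>
    { carrier := {x | D x = c • x}
      zero_mem' := by simp
      add_mem' := fun {x y} (hx : D x = c • x) (hy : D y = c • y) =>
        show D (x + y) = c • (x + y) by rw [map_add, hx, hy, smul_add]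
      smul_mem' := fun e x (hx : D x = c • x) =>
        show D (e • x) = c • e • x by rw [map_smul, hx, smul_comm] }
  have hP : ∀ c : F, c * c * c = 1 → ∀ x, x + (c * c) • D x + c • D (D x) ∈ K c := by
    intro c hc x
    show D _ = _
    simp only [map_add, map_smul, hD3, smul_add, smul_smul]
    match_scalars <;> first | ring1 | linear_combination hc | linear_combination -hc
  let Φ : (n → F) ≃ₗ[F] ↥(K 1) × (↥(K ω) × ↥(K (ω ^ 2))) :=
    { toFun := fun x =>
        (⟨(3 : F)⁻¹ • (x + ((1 : F) * 1) • D x + (1 : F) • D (D x)),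
            (K 1).smul_mem _ (hP 1 (by ring) x)⟩,
          (⟨(3 : F)⁻¹ • (x + (ω * ω) • D x + ω • D (D x)),
            (K ω).smul_mem _ (hP ω (by linear_combination hω3) x)⟩,
          ⟨(3 : F)⁻¹ • (x + (ω ^ 2 * ω ^ 2) • D x + ω ^ 2 • D (D x)),
            (K (ω ^ 2)).smul_mem _ (hP (ω ^ 2) (by linear_combination (ω ^ 3 + 1) * hω3) x)⟩))
      map_add' := fun x y => by
        ext <;> simp only [map_add, Submodule.coe_add, Prod.fst_add, Prod.snd_add, Pi.add_apply,
          Pi.smul_apply, smul_eq_mul] <;> ring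
      map_smul' := fun c x => by
        ext <;> simp only [map_smul, SetLike.val_smul, Prod.smul_fst, Prod.smul_snd, RingHom.id_apply,
          Pi.add_apply, Pi.smul_apply, smul_eq_mul] <;> ring
      invFun := fun p => p.1.1 + p.2.1.1 + p.2.2.1
      left_inv := fun x => by
        funext i
        simp only [Pi.add_apply, Pi.smul_apply, smul_eq_mul]
        field_simp
        linear_combination (D x i + D (D x) i) * hω + ω * D x i * hω3
      right_inv := by
        rintro ⟨⟨p, hp⟩, ⟨q, hq⟩, ⟨r, hr⟩⟩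
        have hp' : D p = (1 : F) • p := hp
        have hq' : D q = ω • q := hq
        have hr' : D r = ω ^ 2 • r := hr
        ext i
        all_goals
          simp only [map_add, map_smul, hp', hq', hr', Pi.add_apply, Pi.smul_apply, smul_eq_mul]
          field_simp
        · linear_combination (q i + r i) * hω + r i * ω * hω3
        · linear_combination (p i + r i) * hω + (2 * q i + r i * ω + r i * ω ^ 2) * hω3
        · linear_combination (p i + q i) * hω +
            (p i * ω + q i * ω + q i * ω ^ 2 + 2 * r i * (ω ^ 3 + 1)) * hω3 }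
  have htot : Module.finrank F ↥(K 1) + (Module.finrank F ↥(K ω) +
      Module.finrank F ↥(K (ω ^ 2))) = 4 := by
    rw [← Module.finrank_prod, ← Module.finrank_prod, ← Φ.finrank_eq, Module.finrank_pi, hn]
  -- even dimensions
  obtain ⟨U, hU⟩ := hπ u7
  obtain ⟨V, hV⟩ := hπ v7
  have hanti := seven_commutator h2 h3 hω π hπ ρ hker hn hns U V hU hV
  have hfix : ∀ (Y : H) (y : ↥(alternatingGroup (Fin 7))), π Y = y → Commute y c7 → y ^ 2 = 1 →
      ∀ c : F, ∀ x ∈ K c, (ρ Y : Matrix n n F) *ᵥ x ∈ K c := by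
    intro Y y hY hyc hy2 c x hx
    have h1 := dcom_eq_one_of_coprime hπ hker hyc hy2 c7_cube (by norm_num)
    rw [← dcom_eq hπ hker (Lift.of (ρ := ρ) hY) (Lift.of (ρ := ρ) hC)] at h1
    have h4 := mulVec_comm (commutatorElement_eq_one_iff_commute.mp h1).eq x
    show D _ = _
    have hx' : (s • (ρ C : Matrix n n F)) *ᵥ x = c • x := hx
    simp only [hD, hM, Matrix.mulVecLin_apply, Matrix.smul_mulVec] at hx' ⊢
    rw [← h4, ← Matrix.mulVec_smul, hx', Matrix.mulVec_smul]
  have heven : ∀ c : F, Even (Module.finrank F ↥(K c)) := by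
    intro c
    refine even_finrank_of_anticomm h2
      ((Matrix.mulVecLin (ρ U : Matrix n n F)).restrict (hfix U u7 hU uc7 u7_sq c))
      ((Matrix.mulVecLin (ρ V : Matrix n n F)).restrict (hfix V v7 hV vc7 v7_sq c))
      (fun x y h => Subtype.ext (inj_mulVec _ (congrArg Subtype.val h)))
      (fun x y h => Subtype.ext (inj_mulVec _ (congrArg Subtype.val h))) ?_
    intro x
    refine Subtype.ext ?_
    show (ρ U : Matrix n n F) *ᵥ ((ρ V : Matrix n n F) *ᵥ x.1) =
      -((ρ V : Matrix n n F) *ᵥ ((ρ U : Matrix n n F) *ᵥ x.1))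
    rw [Matrix.mulVec_mulVec, Matrix.mulVec_mulVec, ← Units.val_mul, ← map_mul, hanti,
      map_mul, Units.val_mul, Matrix.neg_mulVec]
  -- the inverting element exchanges the eigenspaces
  have hswap : ∀ c d : F, d * c = 1 → ∀ x ∈ K c, (ρ X : Matrix n n F) *ᵥ x ∈ K d := by
    intro c d hdc x hx
    have h1 : M * ((ρ X : Matrix n n F) * M) = (ρ X : Matrix n n F) := by
      have := congrArg (fun N => ((ρ X)⁻¹ : GL n F).1 * N) hrel
      simpa [pow_two, ← mul_assoc] using this
    have h2' := congrArg (fun N => N *ᵥ x) h1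
    simp only [← Matrix.mulVec_mulVec] at h2'
    have hx' : M *ᵥ x = c • x := hx
    rw [hx', Matrix.mulVec_smul, Matrix.mulVec_smul] at h2'
    show M *ᵥ _ = d • _
    calc M *ᵥ ((ρ X : Matrix n n F) *ᵥ x)
        = (d * c) • (M *ᵥ ((ρ X : Matrix n n F) *ᵥ x)) := by rw [hdc, one_smul]
      _ = d • ((ρ X : Matrix n n F) *ᵥ x) := by rw [← smul_smul, h2']
  have hle : ∀ c d : F, d * c = 1 → Module.finrank F ↥(K c) ≤ Module.finrank F ↥(K d) :=
    fun c d h => LinearMap.finrank_le_finrank_of_injective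
      (f := (Matrix.mulVecLin (ρ X : Matrix n n F)).restrict (hswap c d h))
      (fun x y h => Subtype.ext (inj_mulVec _ (congrArg Subtype.val h)))
  have e1 := hle ω (ω ^ 2) (by linear_combination hω3)
  have e2 := hle (ω ^ 2) ω (by linear_combination hω3)
  have hne : Module.finrank F ↥(K 1) ≠ 4 := by
    intro h4
    have hbot1 : K ω = ⊥ := Submodule.finrank_eq_zero.mp (by omega)
    have hbot2 : K (ω ^ 2) = ⊥ := Submodule.finrank_eq_zero.mp (by omega)
    have hMone : M = 1 := by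
      refine Matrix.ext_of_mulVec_single fun i => ?_
      rw [Matrix.one_mulVec]
      set x : n → F := Pi.single i 1
      have hx : x = (Φ x).1.1 + (Φ x).2.1.1 + (Φ x).2.2.1 := (Φ.symm_apply_apply x).symm
      have z1 : (Φ x).2.1.1 = 0 := (Submodule.eq_bot_iff _).mp hbot1 _ (Φ x).2.1.2
      have z2 : (Φ x).2.2.1 = 0 := (Submodule.eq_bot_iff _).mp hbot2 _ (Φ x).2.2.2
      rw [z1, z2, add_zero, add_zero] at hx
      have h5 : D (Φ x).1.1 = (1 : F) • (Φ x).1.1 := (Φ x).1.2
      rw [← hx, one_smul] at h5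
      exact h5
    have hs : s ≠ 0 := by
      intro hs0
      rw [hM, hs0, zero_smul] at hMone
      exact zero_ne_one hMone
    refine lift_not_scalar hker hns hπ (Lift.of (ρ := ρ) hC) c7_ne (mem_of_isScalarMat ⟨s⁻¹, ?_⟩)
    rw [← hMone, hM, smul_smul, inv_mul_cancel₀ hs, one_smul]
  obtain ⟨a, ha⟩ := heven 1
  obtain ⟨b, hb⟩ := heven ω
  have h0 : Module.finrank F ↥(K 1) = 0 := by omega
  intro v hv
  have hmem : v ∈ K 1 := show D v = (1 : F) • v by rw [one_smul]; exact hv
  exact (Submodule.eq_bot_iff _).mp (Submodule.finrank_eq_zero.mp h0) v hmem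

end Seven

section Sixteen

variable {F : Type*} [Field F] {H : Type*} [Group H] {n : Type*} [Fintype n] [DecidableEq n]

/-- The alternating group of degree twelve. -/
abbrev A12 : Type := ↥(alternatingGroup (Fin 12))

/-- Moves `9,10,11,5,6` to `1,2,0,7,8`. -/
def sigC : A12 :=
  ⟨⟨![4, 3, 5, 6, 9, 7, 8, 10, 11, 1, 2, 0], ![11, 9, 10, 1, 0, 2, 3, 5, 6, 4, 7, 8],
      by decide, by decide⟩,
    Equiv.Perm.mem_alternatingGroup.mpr (by decide +kernel)⟩

/-- Moves `5,6,7,8` to `i, i+3, i+6, i+9` for `i = 0`. -/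
def sig0 : A12 :=
  ⟨⟨![1, 2, 4, 5, 7, 0, 3, 6, 9, 8, 10, 11], ![5, 0, 1, 6, 2, 3, 7, 4, 9, 8, 10, 11],
      by decide, by decide⟩,
    Equiv.Perm.mem_alternatingGroup.mpr (by decide +kernel)⟩

/-- Moves `5,6,7,8` to `1,4,7,10`. -/
def sig1 : A12 :=
  ⟨⟨![0, 2, 3, 5, 6, 1, 4, 7, 10, 8, 9, 11], ![0, 5, 1, 2, 6, 3, 4, 7, 9, 10, 8, 11],
      by decide, by decide⟩,
    Equiv.Perm.mem_alternatingGroup.mpr (by decide +kernel)⟩

/-- Moves `5,6,7,8` to `2,5,8,11`. -/
def sig2 : A12 :=
  ⟨⟨![0, 1, 3, 4, 6, 2, 5, 8, 11, 7, 9, 10], ![0, 1, 5, 2, 3, 6, 4, 9, 7, 10, 11, 8],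
      by decide, by decide⟩,
    Equiv.Perm.mem_alternatingGroup.mpr (by decide +kernel)⟩

/-- The first double transposition of a block. -/
def blkA (i : Fin 3) : A12 :=
  match i with
  | 0 => sig0 * u12 * sig0⁻¹
  | 1 => sig1 * u12 * sig1⁻¹
  | 2 => sig2 * u12 * sig2⁻¹

/-- The second double transposition of a block. -/
def blkB (i : Fin 3) : A12 :=
  match i with
  | 0 => sig0 * v12 * sig0⁻¹
  | 1 => sig1 * v12 * sig1⁻¹
  | 2 => sig2 * v12 * sig2⁻¹

/-- A three-cycle inside a block. -/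
def blkT (i : Fin 3) : A12 :=
  match i with
  | 0 => ⟨Equiv.swap 0 3 * Equiv.swap 3 6, Equiv.Perm.mem_alternatingGroup.mpr (by decide)⟩
  | 1 => ⟨Equiv.swap 1 4 * Equiv.swap 4 7, Equiv.Perm.mem_alternatingGroup.mpr (by decide)⟩
  | 2 => ⟨Equiv.swap 2 5 * Equiv.swap 5 8, Equiv.Perm.mem_alternatingGroup.mpr (by decide)⟩

theorem blk_comm (i j : Fin 3) :
    blkA i * blkB j = blkB j * blkA i ∧ blkA i * blkA j = blkA j * blkA i ∧
      blkB i * blkB j = blkB j * blkB i := by
  revert i j; decide +kernel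

theorem blkT_conj (i : Fin 3) :
    blkT i * blkB i * (blkT i)⁻¹ = blkA i ∧
      blkT i * blkA i * (blkT i)⁻¹ = blkA i * blkB i := by
  revert i; decide +kernel

theorem blkT_fix (i j : Fin 3) (h : i ≠ j) : blkT j * blkA i * (blkT j)⁻¹ = blkA i := by
  revert i j; decide +kernel

/-- `(03)(14)(25)(69)(7 10)(8 11)`. -/
def gOne : A12 := blkA 0 * blkA 1 * blkA 2

/-- `(06)(17)(28)(39)(4 10)(5 11)`. -/
def gTwo : A12 := blkB 0 * blkB 1 * blkB 2

/-- The four three-cycles. -/
def cyc (i : Fin 4) : A12 :=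
  match i with
  | 0 => sigC * c12 * sigC⁻¹
  | 1 => gOne * (sigC * c12 * sigC⁻¹) * gOne⁻¹
  | 2 => gTwo * (sigC * c12 * sigC⁻¹) * gTwo⁻¹
  | 3 => gOne * (gTwo * (sigC * c12 * sigC⁻¹) * gTwo⁻¹) * gOne⁻¹

/-- Elements inverting the three-cycles. -/
def invl (i : Fin 4) : A12 :=
  match i with
  | 0 => sigC * x12 * sigC⁻¹
  | 1 => gOne * (sigC * x12 * sigC⁻¹) * gOne⁻¹
  | 2 => gTwo * (sigC * x12 * sigC⁻¹) * gTwo⁻¹
  | 3 => gOne * (gTwo * (sigC * x12 * sigC⁻¹) * gTwo⁻¹) * gOne⁻¹

/-- `(12)(45)`. -/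
def swA : A12 :=
  ⟨Equiv.swap 1 2 * Equiv.swap 4 5, Equiv.Perm.mem_alternatingGroup.mpr (by decide)⟩

/-- `(12)(78)`. -/
def swB : A12 :=
  ⟨Equiv.swap 1 2 * Equiv.swap 7 8, Equiv.Perm.mem_alternatingGroup.mpr (by decide)⟩

/-- `(12)(10 11)`. -/
def swC : A12 :=
  ⟨Equiv.swap 1 2 * Equiv.swap 10 11, Equiv.Perm.mem_alternatingGroup.mpr (by decide)⟩

/-- `(12)(7 10)(8 11)(69)`. -/
def swD : A12 :=
  ⟨Equiv.swap 1 2 * Equiv.swap 7 10 * Equiv.swap 8 11 * Equiv.swap 6 9,
    Equiv.Perm.mem_alternatingGroup.mpr (by decide +kernel)⟩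

/-- An element inverting one cycle and centralising another. -/
def sep (i j : Fin 4) : A12 :=
  match i, j with
  | 0, 1 => swB | 0, _ => swA
  | 1, 0 => ⟨Equiv.swap 4 5 * Equiv.swap 7 8, Equiv.Perm.mem_alternatingGroup.mpr (by decide)⟩
  | 1, _ => swA
  | 2, 0 => ⟨Equiv.swap 4 5 * Equiv.swap 7 8, Equiv.Perm.mem_alternatingGroup.mpr (by decide)⟩
  | 2, _ => swB
  | 3, 0 => ⟨Equiv.swap 4 5 * Equiv.swap 10 11, Equiv.Perm.mem_alternatingGroup.mpr (by decide)⟩
  | 3, _ => swC

theorem cyc_facts (i : Fin 4) :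
    cyc i ^ 3 = 1 ∧ invl i * cyc i * (invl i)⁻¹ = (cyc i)⁻¹ := by
  revert i; decide +kernel

theorem sep_facts (i j : Fin 4) (h : i ≠ j) :
    sep i j * cyc i * (sep i j)⁻¹ = (cyc i)⁻¹ ∧ sep i j * cyc j = cyc j * sep i j ∧
      cyc i * cyc j = cyc j * cyc i := by
  revert i j; decide +kernel

theorem uv12 : Commute u12 v12 := by unfold Commute SemiconjBy; decide +kernel

theorem g_sq : gOne ^ 2 = 1 ∧ gTwo ^ 2 = 1 := by decide +kernel

theorem weight_line {ι : Type*} [Fintype ι] [DecidableEq ι] {A' : Type*}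
    (T : A' → (n → F) →ₗ[F] (n → F)) (χ : ι → A' → F) (hinj : Function.Injective χ)
    (w : ι → n → F) (hw : ∀ i a, T a (w i) = χ i a • w i) (hw0 : ∀ i, w i ≠ 0)
    (hcard : Fintype.card ι = Fintype.card n) (i0 : ι) (x : n → F)
    (hx : ∀ a, T a x = χ i0 a • x) : ∃ c : F, x = c • w i0 := by
  have hli : LinearIndependent F w := by
    rw [linearIndependent_iff']
    intro s c hc i hi
    have := weight_indep T χ s (fun a => c a • w a)
      (fun a _ b => by rw [map_smul, hw, smul_comm]) hinj.injOn hc i hi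
    exact (smul_eq_zero.mp this).resolve_right (hw0 i)
  haveI : Nonempty ι := ⟨i0⟩
  have hsp : Submodule.span F (Set.range w) = ⊤ :=
    hli.span_eq_top_of_card_eq_finrank (by rw [Module.finrank_pi, hcard])
  have hxm : x ∈ Submodule.span F (Set.range w) := by rw [hsp]; trivial
  obtain ⟨c, hc⟩ := (Submodule.mem_span_range_iff_exists_fun F).mp hxm
  let v : ι → n → F := fun i => if i = i0 then c i • w i - x else c i • w i
  have hv : ∀ i ∈ (Finset.univ : Finset ι), ∀ a, T a (v i) = χ i a • v i := by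
    intro i _ a
    by_cases h : i = i0
    · subst h
      simp only [v, if_true, map_sub, map_smul, hw, hx, smul_sub, smul_comm (χ i a)]
    · simp only [v, if_neg h, map_smul, hw, smul_comm (χ i a)]
  have hsum : ∑ i, v i = 0 := by
    have : ∑ i, v i = ∑ i, c i • w i - ∑ i, (if i = i0 then x else 0) := by
      rw [← Finset.sum_sub_distrib]
      refine Finset.sum_congr rfl fun i _ => ?_
      by_cases h : i = i0 <;> simp [v, h]
    rw [this, hc, Finset.sum_ite_eq' Finset.univ i0 (fun _ => x), if_pos (Finset.mem_univ _),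
      sub_self]
  have := weight_indep T χ Finset.univ v hv hinj.injOn hsum i0 (Finset.mem_univ _)
  simp only [v, if_true] at this
  exact ⟨c i0, (sub_eq_zero.mp this).symm⟩

theorem no_sixteen (h2 : (2 : F) ≠ 0) (h3 : (3 : F) ≠ 0) {ω : F}
    (hω : ω ^ 2 + ω + 1 = 0) (π : H →* ↥(alternatingGroup (Fin 12)))
    (hπ : Function.Surjective π) (ρ : H →* GL n F)
    (hker : ∀ k ∈ π.ker, IsScalarMat (ρ k)) (hn : Fintype.card n = 16)
    (hV : ∀ X Y : H, π X = u12 → π Y = v12 →
      (ρ (X * Y) : Matrix n n F) = - (ρ (Y * X) : Matrix n n F))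
    (hthree : ∀ C X : H, π C = c12 → π X = x12 → ∀ s : F,
      (s • (ρ C : Matrix n n F)) ^ 3 = 1 →
      (ρ X : Matrix n n F) * (s • (ρ C : Matrix n n F)) * (ρ X : Matrix n n F) *
        (s • (ρ C : Matrix n n F)) = (ρ X : Matrix n n F) ^ 2 →
      ∀ v : n → F, (s • (ρ C : Matrix n n F)) *ᵥ v = v → v = 0) : False := by
  classical
  haveI : Nonempty n := Fintype.card_pos_iff.mp (by omega)
  set δ := dcom hπ ρ with hδ
  have hneg : δ u12 v12 = -1 := by
    obtain ⟨X, hX⟩ := hπ u12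
    obtain ⟨Y, hY⟩ := hπ v12
    have h := hV X Y hX hY
    rw [hδ, ← dcom_eq hπ hker (Lift.of (ρ := ρ) hX) (Lift.of (ρ := ρ) hY), commutatorElement_def,
      mul_inv_eq_iff_eq_mul, mul_inv_eq_iff_eq_mul, ← map_mul, mul_assoc, ← map_mul]
    apply Units.ext
    rw [h, neg_one_mul, Units.val_neg]
  have hsame : ∀ i, δ (blkA i) (blkB i) = -1 := by
    intro i
    fin_cases i
    · exact (dcom_conj hπ hker uv12 sig0).trans hneg
    · exact (dcom_conj hπ hker uv12 sig1).trans hneg
    · exact (dcom_conj hπ hker uv12 sig2).trans hneg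
  have hdiff : ∀ i j, i ≠ j → δ (blkA i) (blkB j) = 1 := by
    intro i j hij
    have hAB : Commute (blkA i) (blkB j) := (blk_comm i j).1
    have hAA : Commute (blkA i) (blkA j) := (blk_comm i j).2.1
    have e1 : δ (blkA i) (blkA j) = δ (blkA i) (blkB j) := by
      have := dcom_conj hπ hker hAB (blkT j)
      rwa [blkT_fix i j hij, (blkT_conj j).1] at this
    have e2 : δ (blkA i) (blkA j * blkB j) = δ (blkA i) (blkA j) := by
      have := dcom_conj hπ hker hAA (blkT j)
      rwa [blkT_fix i j hij, (blkT_conj j).2] at this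
    rw [hδ, dcom_mul_right hπ hker hAB] at e2
    exact mul_eq_left.mp e2
  -- lifts
  obtain ⟨G1, hG1⟩ := exists_lift (ρ := ρ) hπ gOne
  obtain ⟨G2, hG2⟩ := exists_lift (ρ := ρ) hπ gTwo
  have hG12 : ⁅G1, G2⁆ = -1 := by
    rw [dcom_eq hπ hker hG1 hG2]
    have hcA : ∀ i, Commute (blkA i) gTwo := fun i =>
      ((Commute.mul_right (blk_comm i 0).1 (blk_comm i 1).1).mul_right (blk_comm i 2).1)
    have hone : ∀ i, δ (blkA i) gTwo = -1 := by
      intro i
      unfold gTwo
      rw [hδ, dcom_mul_right hπ hker (blk_comm i 2).1, dcom_mul_right hπ hker (blk_comm i 1).1]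
      fin_cases i <;>
      · simp only [← hδ]
        simp [hsame, hdiff]
    unfold gOne
    rw [dcom_mul_left hπ hker (hcA 2), dcom_mul_left hπ hker (hcA 1), ← hδ, hone, hone, hone]
    simp
  -- the first normalised lift
  obtain ⟨C0h, hC0⟩ := hπ c12
  obtain ⟨X0h, hX0⟩ := hπ x12
  have hC03 : ρ C0h ^ 3 ∈ scal n F := by
    refine mem_scal_of_lift_one hker ?_
    have := (Lift.of (ρ := ρ) hC0).pow 3
    rwa [show c12 ^ 3 = 1 by decide +kernel] at this
  have hrel0 : ρ X0h * ρ C0h * (ρ X0h)⁻¹ * ρ C0h ∈ scal n F := by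
    refine mem_scal_of_lift_one hker ?_
    have := (((Lift.of (ρ := ρ) hX0).conj (Lift.of (ρ := ρ) hC0))).mul (Lift.of (ρ := ρ) hC0)
    rwa [x12_inverts, inv_mul_cancel] at this
  obtain ⟨a, ha⟩ := hC03
  obtain ⟨l, hl⟩ := hrel0
  set su : Fˣ := l * a⁻¹ with hsu
  have hsc := fun u : Fˣ => fun g : GL n F => Matrix.GeneralLinearGroup.scalar_commute u g
  set sS : Fˣ →* GL n F := Matrix.GeneralLinearGroup.scalar n with hsS
  have hla : l * l * l = a * a := by
    have h1 : (ρ X0h * ρ C0h * (ρ X0h)⁻¹) ^ 3 = sS a := by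
      rw [conj_pow, ← ha, ← (scal_commute ⟨a, rfl⟩ _).eq, mul_inv_cancel_right]
    have h2' : ρ X0h * ρ C0h * (ρ X0h)⁻¹ = sS l * (ρ C0h)⁻¹ := by
      rw [hl]; group
    rw [h2', Commute.mul_pow (hsc l _), inv_pow, ← ha, mul_inv_eq_iff_eq_mul, ← map_mul,
      ← map_pow] at h1
    have := congrArg (fun g : GL n F => (g : Matrix n n F)
      (Classical.arbitrary n) (Classical.arbitrary n)) h1
    apply Units.ext
    simpa [hsS, Matrix.GeneralLinearGroup.coe_scalar, Matrix.scalar_apply, pow_succ] using this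
  set D0 : GL n F := sS su * ρ C0h with hD0
  have hD03 : D0 ^ 3 = 1 := by
    rw [hD0, Commute.mul_pow (hsc su _), ← ha, ← map_pow, ← map_mul]
    have : su ^ 3 * a = 1 := by
      rw [hsu, mul_pow, show l ^ 3 = a * a by rw [← hla, pow_succ, pow_two]]
      simp [pow_succ, mul_assoc]
    rw [this, map_one]
  have hD0inv : ρ X0h * D0 * (ρ X0h)⁻¹ = D0⁻¹ := by
    rw [eq_inv_iff_mul_eq_one, hD0]
    have e1 : ρ X0h * (sS su * ρ C0h) * (ρ X0h)⁻¹ =
        sS su * (ρ X0h * ρ C0h * (ρ X0h)⁻¹) := by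
      rw [← mul_assoc (ρ X0h), (hsc su (ρ X0h)).symm]
      simp only [mul_assoc]
    rw [e1, mul_assoc, ← mul_assoc (ρ X0h * ρ C0h * (ρ X0h)⁻¹), ← (hsc su _), mul_assoc (sS su),
      ← hl, ← map_mul, ← map_mul]
    have : su * (su * l) = 1 := by
      rw [hsu, show l * a⁻¹ * (l * a⁻¹ * l) = (l * l * l) * (a⁻¹ * a⁻¹) by ac_rfl, hla]
      simp [mul_assoc]
    rw [this, map_one]
  have hD0l : Lift π ρ D0 c12 := (Lift.of hC0).smul ⟨su, rfl⟩
  have hfix0 : ∀ v : n → F, (D0 : Matrix n n F) *ᵥ v = v → v = 0 := by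
    have hcoe : (D0 : Matrix n n F) = (su : F) • (ρ C0h : Matrix n n F) := by
      rw [hD0, hsS, Units.val_mul, Matrix.GeneralLinearGroup.coe_scalar, Matrix.scalar_apply,
        ← Matrix.smul_one_eq_diagonal, smul_mul_assoc, one_mul]
    rw [hcoe]
    refine hthree C0h X0h hC0 hX0 (su : F) ?_ ?_
    · rw [← hcoe, ← Units.val_pow_eq_pow_val, hD03, Units.val_one]
    · rw [← hcoe, ← Units.val_mul, ← Units.val_mul, ← Units.val_mul, ← Units.val_pow_eq_pow_val]
      congr 1
      rw [eq_inv_iff_mul_eq_one] at hD0inv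
      calc ρ X0h * D0 * ρ X0h * D0
          = (ρ X0h * D0 * (ρ X0h)⁻¹) * ((ρ X0h) ^ 2 * D0 * ((ρ X0h) ^ 2)⁻¹) * (ρ X0h) ^ 2 := by
            group
        _ = (ρ X0h) ^ 2 := by
          have hx2 : (ρ X0h) ^ 2 ∈ scal n F := by
            refine mem_scal_of_lift_one hker ?_
            have := (Lift.of (ρ := ρ) hX0).pow 2
            rwa [show x12 ^ 2 = 1 by decide +kernel] at this
          rw [(scal_commute hx2 D0).eq, mul_inv_cancel_right, hD0inv, one_mul]
  obtain ⟨S, hS⟩ := exists_lift (ρ := ρ) hπ sigC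
  let D : Fin 4 → GL n F := fun i => match i with
    | 0 => S * D0 * S⁻¹
    | 1 => G1 * (S * D0 * S⁻¹) * G1⁻¹
    | 2 => G2 * (S * D0 * S⁻¹) * G2⁻¹
    | 3 => G1 * (G2 * (S * D0 * S⁻¹) * G2⁻¹) * G1⁻¹
  let Xi : Fin 4 → GL n F := fun i => match i with
    | 0 => S * ρ X0h * S⁻¹
    | 1 => G1 * (S * ρ X0h * S⁻¹) * G1⁻¹
    | 2 => G2 * (S * ρ X0h * S⁻¹) * G2⁻¹
    | 3 => G1 * (G2 * (S * ρ X0h * S⁻¹) * G2⁻¹) * G1⁻¹
  have hDl : ∀ i, Lift π ρ (D i) (cyc i) := by
    intro i
    fin_cases i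
    · exact hS.conj hD0l
    · exact hG1.conj (hS.conj hD0l)
    · exact hG2.conj (hS.conj hD0l)
    · exact hG1.conj (hG2.conj (hS.conj hD0l))
  have hXl : ∀ i, Lift π ρ (Xi i) (invl i) := by
    intro i
    fin_cases i
    · exact hS.conj (Lift.of hX0)
    · exact hG1.conj (hS.conj (Lift.of hX0))
    · exact hG2.conj (hS.conj (Lift.of hX0))
    · exact hG1.conj (hG2.conj (hS.conj (Lift.of hX0)))
  have hconjinv : ∀ (g x d : GL n F), x * d * x⁻¹ = d⁻¹ →
      g * x * g⁻¹ * (g * d * g⁻¹) * (g * x * g⁻¹)⁻¹ = (g * d * g⁻¹)⁻¹ := by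
    intro g x d h
    calc g * x * g⁻¹ * (g * d * g⁻¹) * (g * x * g⁻¹)⁻¹ = g * (x * d * x⁻¹) * g⁻¹ := by group
      _ = g * d⁻¹ * g⁻¹ := by rw [h]
      _ = (g * d * g⁻¹)⁻¹ := by group
  have hXinv : ∀ i, Xi i * D i * (Xi i)⁻¹ = (D i)⁻¹ := by
    intro i
    fin_cases i
    · exact hconjinv _ _ _ hD0inv
    · exact hconjinv _ _ _ (hconjinv _ _ _ hD0inv)
    · exact hconjinv _ _ _ (hconjinv _ _ _ hD0inv)
    · exact hconjinv _ _ _ (hconjinv _ _ _ (hconjinv _ _ _ hD0inv))
  have hcube : ∀ i, D i ^ 3 = 1 := by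
    intro i
    fin_cases i <;> simp [D, conj_pow, hD03]
  have hfixG : ∀ (g d : GL n F), (∀ v : n → F, (d : Matrix n n F) *ᵥ v = v → v = 0) →
      ∀ v : n → F, ((g * d * g⁻¹ : GL n F) : Matrix n n F) *ᵥ v = v → v = 0 := by
    intro g d hd v hv
    have h1 : (d : Matrix n n F) *ᵥ (((g⁻¹ : GL n F) : Matrix n n F) *ᵥ v) =
        ((g⁻¹ : GL n F) : Matrix n n F) *ᵥ v := by
      conv_rhs => rw [← hv]
      simp only [Matrix.mulVec_mulVec, ← Units.val_mul]
      congr 2; group
    have h4 := hd _ h1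
    exact inj_mulVec g⁻¹ (h4.trans (Matrix.mulVec_zero _).symm)
  have hnofix : ∀ i, ∀ v : n → F, (D i : Matrix n n F) *ᵥ v = v → v = 0 := by
    intro i
    fin_cases i
    · exact hfixG _ _ hfix0
    · exact hfixG _ _ (hfixG _ _ hfix0)
    · exact hfixG _ _ (hfixG _ _ hfix0)
    · exact hfixG _ _ (hfixG _ _ (hfixG _ _ hfix0))
  have hDcomm : ∀ i j, D i * D j = D j * D i := by
    intro i j
    by_cases hij : i = j
    · rw [hij]
    obtain ⟨hs1, hs2, hs3⟩ := sep_facts i j hij
    have hcc : Commute (cyc i) (cyc j) := hs3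
    have h1 := dcom_conj hπ hker hcc (sep i j)
    rw [hs1, hs2, mul_inv_cancel_right] at h1
    -- inversion kills the commutator
    have h4 : dcom hπ ρ ((cyc i)⁻¹) (cyc j) * dcom hπ ρ (cyc i) (cyc j) = 1 := by
      rw [← dcom_mul_left hπ hker hcc, inv_mul_cancel,
        ← dcom_eq hπ hker Lift.one (hDl j)]
      exact commutatorElement_one_left _
    rw [h1, ← sq] at h4
    have h5 : dcom hπ ρ (cyc i) (cyc j) ^ 3 = 1 := by
      rw [← dcom_pow_left hπ hker hcc, (cyc_facts i).1,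
        ← dcom_eq hπ hker Lift.one (hDl j)]
      exact commutatorElement_one_left _
    have h6 : dcom hπ ρ (cyc i) (cyc j) = 1 := by
      rw [pow_succ, h4, one_mul] at h5
      exact h5
    rw [← dcom_eq hπ hker (hDl i) (hDl j)] at h6
    exact (commutatorElement_eq_one_iff_commute.mp h6).eq
  -- signs
  let val : Bool → F := fun b => if b then ω ^ 2 else ω
  let χ : (Fin 4 → Bool) → Fin 4 → F := fun e i => val (e i)
  let T : Fin 4 → (n → F) →ₗ[F] (n → F) := fun i => Matrix.mulVecLin (D i : Matrix n n F)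
  have hω3 : ω ^ 3 = 1 := by linear_combination (ω - 1) * hω
  have hω0 : ω ≠ 0 := by
    intro h; rw [h] at hω; norm_num at hω
  have hωω : ω ≠ ω ^ 2 := by
    intro h
    apply h3
    have h1 : ω = 1 := (mul_left_cancel₀ hω0 (by linear_combination -h : ω * ω = ω * 1))
    rw [h1] at hω
    linear_combination hω
  have hχinj : Function.Injective χ := by
    intro e e' he
    funext i
    have := congrFun he i
    simp only [χ, val] at this
    cases hei : e i <;> cases hei' : e' i <;> simp_all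
  have hTcomm : ∀ i j x, T i (T j x) = T j (T i x) := fun i j x => mulVec_comm (hDcomm i j) x
  have hsplit : ∀ (i : Fin 4) (W : Submodule F (n → F)), (∀ x ∈ W, T i x ∈ W) → W ≠ ⊥ →
      ∃ b, ∃ x ∈ W, x ≠ 0 ∧ T i x = val b • x := by
    intro i W hW hne
    obtain ⟨x, hx, hx0⟩ := Submodule.exists_mem_ne_zero_of_ne_bot hne
    set y : n → F := T i x - ω ^ 2 • x with hy
    by_cases hy0 : y = 0
    · exact ⟨true, x, hx, hx0, by simpa [val] using sub_eq_zero.mp hy0⟩
    · refine ⟨false, y, W.sub_mem (hW x hx) (W.smul_mem _ hx), hy0, ?_⟩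
      have hz : T i (T i x) + T i x + x = 0 := by
        apply hnofix i
        show T i _ = _
        rw [map_add, map_add]
        have h3x : T i (T i (T i x)) = x := by
          simp only [T, Matrix.mulVecLin_apply, Matrix.mulVec_mulVec, ← Units.val_mul]
          rw [show D i * (D i * D i) = D i ^ 3 by rw [pow_succ, pow_two, mul_assoc], hcube,
            Units.val_one, Matrix.one_mulVec]
        rw [h3x]; abel
      show T i y = ω • y
      rw [hy, map_sub, map_smul]
      have hzz : T i (T i x) = -T i x - x := by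
        rw [← sub_eq_zero, ← hz]; abel
      rw [hzz]
      funext k
      simp only [Pi.sub_apply, Pi.neg_apply, Pi.smul_apply, smul_eq_mul]
      linear_combination (-(T i x k)) * hω + x k * hω3
  have hexists : ∃ e : Fin 4 → Bool, ∃ x : n → F, x ≠ 0 ∧ ∀ i, T i x = χ e i • x := by
    have step : ∀ S : Finset (Fin 4), ∃ e : Fin 4 → Bool, ∃ x : n → F, x ≠ 0 ∧
        ∀ i ∈ S, T i x = χ e i • x := by
      intro S
      induction S using Finset.induction with
      | empty =>
        exact ⟨fun _ => false, fun _ => 1,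
          fun h => one_ne_zero (congrFun h (Classical.arbitrary n)), fun i hi => by simp at hi⟩
      | @insert j S hj IH =>
        obtain ⟨e, x, hx0, hx⟩ := IH
        let W : Submodule F (n → F) :=
          { carrier := {y | ∀ i ∈ S, T i y = χ e i • y}
            zero_mem' := by intro i _; simp
            add_mem' := fun {y y'} hy hy' i hi => by rw [map_add, hy i hi, hy' i hi, smul_add]
            smul_mem' := fun c y hy i hi => by rw [map_smul, hy i hi, smul_comm] }
        obtain ⟨b, y, hy, hy0, hyb⟩ := hsplit j W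
          (fun y hy i hi => by rw [hTcomm, hy i hi, map_smul])
          (fun hb => hx0 ((Submodule.eq_bot_iff _).mp hb x hx))
        refine ⟨Function.update e j b, y, hy0, fun i hi => ?_⟩
        rcases Finset.mem_insert.mp hi with rfl | hi
        · simpa [χ] using hyb
        · simp only [χ, Function.update_of_ne (fun h : i = j => hj (h ▸ hi))]
          exact hy i hi
    obtain ⟨e, x, hx0, hx⟩ := step Finset.univ
    exact ⟨e, x, hx0, fun i => hx i (Finset.mem_univ i)⟩
  -- the action on signs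
  let P : (Fin 4 → Bool) → Prop := fun e => ∃ x : n → F, x ≠ 0 ∧ ∀ i, T i x = χ e i • x
  have hmove : ∀ (K : GL n F) (σ : Fin 4 → Fin 4) (fl : Fin 4 → Bool),
      (∀ i, K * D i * K⁻¹ = if fl i then (D (σ i))⁻¹ else D (σ i)) →
      ∀ e : Fin 4 → Bool, ∀ x, (∀ i, T i x = χ e i • x) →
        ∀ i, T (σ i) ((K : Matrix n n F) *ᵥ x) =
          val (if fl i then !(e i) else e i) • ((K : Matrix n n F) *ᵥ x) := by
    intro K σ fl hK e x hx i
    have h1 : ((K * D i * K⁻¹ : GL n F) : Matrix n n F) *ᵥ ((K : Matrix n n F) *ᵥ x) =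
        val (e i) • ((K : Matrix n n F) *ᵥ x) := by
      rw [Matrix.mulVec_mulVec, ← Units.val_mul, inv_mul_cancel_right, Units.val_mul,
        ← Matrix.mulVec_mulVec, show (D i : Matrix n n F) *ᵥ x = _ from hx i, Matrix.mulVec_smul]
    rw [hK] at h1
    by_cases hf : fl i = true
    · rw [if_pos hf] at h1 ⊢
      have h4 : (K : Matrix n n F) *ᵥ x =
          val (e i) • ((D (σ i) : Matrix n n F) *ᵥ ((K : Matrix n n F) *ᵥ x)) := by
        rw [← Matrix.mulVec_smul, ← h1, Matrix.mulVec_mulVec _ _ (((D (σ i))⁻¹ : GL n F) : Matrix n n F),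
          ← Units.val_mul, mul_inv_cancel, Units.val_one, Matrix.one_mulVec]
      show (D (σ i) : Matrix n n F) *ᵥ _ = _
      have hvv : val (!e i) * val (e i) = 1 := by
        cases e i <;> simp [val] <;> linear_combination hω3
      calc (D (σ i) : Matrix n n F) *ᵥ ((K : Matrix n n F) *ᵥ x)
          = (val (!e i) * val (e i)) •
              ((D (σ i) : Matrix n n F) *ᵥ ((K : Matrix n n F) *ᵥ x)) := by
            rw [hvv, one_smul]
        _ = _ := by rw [← smul_smul, ← h4]
    · rw [if_neg hf] at h1 ⊢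
      exact h1
  have hK1 : ∀ (f : A12) (K : GL n F), Lift π ρ K f → ∀ i, ∀ (m : ℕ),
      ((1 : A12)⁻¹ * f) ^ m = 1 → Nat.Coprime m 3 → Commute ((1 : A12)⁻¹ * f) (cyc i) →
      K * D i * K⁻¹ = D i := fun f K hK i m hm hco hcm =>
    conj_transfer hπ hker (hDl i) Lift.one hK (by simp) (cyc_facts i).1 m hm hco hcm
  have hK2 : ∀ (f : A12) (K : GL n F), Lift π ρ K f → ∀ i, ∀ (m : ℕ),
      ((invl i)⁻¹ * f) ^ m = 1 → Nat.Coprime m 3 → Commute ((invl i)⁻¹ * f) (cyc i) →
      K * D i * K⁻¹ = (D i)⁻¹ := fun f K hK i m hm hco hcm =>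
    conj_transfer hπ hker (hDl i) (hXl i) hK (hXinv i) (cyc_facts i).1 m hm hco hcm
  have hG1sq : G1 ^ 2 ∈ scal n F := mem_scal_of_lift_one hker (g_sq.1 ▸ hG1.pow 2)
  have hG2sq : G2 ^ 2 ∈ scal n F := mem_scal_of_lift_one hker (g_sq.2 ▸ hG2.pow 2)
  have hback : ∀ (G d : GL n F), G ^ 2 ∈ scal n F → G * (G * d * G⁻¹) * G⁻¹ = d := by
    intro G d hG
    calc G * (G * d * G⁻¹) * G⁻¹ = G ^ 2 * d * (G ^ 2)⁻¹ := by rw [sq]; group
      _ = d := by rw [(scal_commute hG d).eq, mul_inv_cancel_right]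
  have hg1D : ∀ i, G1 * D i * G1⁻¹ = D (![1, 0, 3, 2] i) := by
    intro i
    fin_cases i
    · rfl
    · exact hback _ _ hG1sq
    · rfl
    · exact hback _ _ hG1sq
  have hswap : G2 * G1 = -(G1 * G2) := by
    rw [commutatorElement_def, mul_inv_eq_iff_eq_mul, mul_inv_eq_iff_eq_mul] at hG12
    rw [hG12]
    simp
  have hnegconj : ∀ g d : GL n F, -g * d * (-g)⁻¹ = g * d * g⁻¹ := by
    intro g d; simp
  have hg2D : ∀ i, G2 * D i * G2⁻¹ = D (![2, 3, 0, 1] i) := by
    intro i
    fin_cases i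
    · rfl
    · show G2 * (G1 * (S * D0 * S⁻¹) * G1⁻¹) * G2⁻¹ = G1 * (G2 * (S * D0 * S⁻¹) * G2⁻¹) * G1⁻¹
      calc G2 * (G1 * (S * D0 * S⁻¹) * G1⁻¹) * G2⁻¹
          = (G2 * G1) * (S * D0 * S⁻¹) * (G2 * G1)⁻¹ := by group
        _ = (G1 * G2) * (S * D0 * S⁻¹) * (G1 * G2)⁻¹ := by rw [hswap, hnegconj]
        _ = _ := by group
    · exact hback _ _ hG2sq
    · show G2 * (G1 * (G2 * (S * D0 * S⁻¹) * G2⁻¹) * G1⁻¹) * G2⁻¹ = G1 * (S * D0 * S⁻¹) * G1⁻¹
      calc G2 * (G1 * (G2 * (S * D0 * S⁻¹) * G2⁻¹) * G1⁻¹) * G2⁻¹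
          = (G2 * G1) * (G2 * (S * D0 * S⁻¹) * G2⁻¹) * (G2 * G1)⁻¹ := by group
        _ = (G1 * G2) * (G2 * (S * D0 * S⁻¹) * G2⁻¹) * (G1 * G2)⁻¹ := by rw [hswap, hnegconj]
        _ = G1 * (G2 * (G2 * (S * D0 * S⁻¹) * G2⁻¹) * G2⁻¹) * G1⁻¹ := by group
        _ = _ := by rw [hback _ _ hG2sq]
  obtain ⟨KA, hKA⟩ := exists_lift (ρ := ρ) hπ swA
  obtain ⟨KB, hKB⟩ := exists_lift (ρ := ρ) hπ swB
  obtain ⟨KC, hKC⟩ := exists_lift (ρ := ρ) hπ swC
  obtain ⟨KD, hKD⟩ := exists_lift (ρ := ρ) hπ swD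
  have hA : ∀ i, KA * D i * KA⁻¹ =
      if (![true, true, false, false] : Fin 4 → Bool) i then (D (id i))⁻¹ else D (id i) := by
    intro i
    fin_cases i
    · exact hK2 swA KA hKA 0 4 (by decide +kernel) (by norm_num)
        (by unfold Commute SemiconjBy; decide +kernel)
    · exact hK2 swA KA hKA 1 4 (by decide +kernel) (by norm_num)
        (by unfold Commute SemiconjBy; decide +kernel)
    · exact hK1 swA KA hKA 2 4 (by decide +kernel) (by norm_num)
        (by unfold Commute SemiconjBy; decide +kernel)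
    · exact hK1 swA KA hKA 3 4 (by decide +kernel) (by norm_num)
        (by unfold Commute SemiconjBy; decide +kernel)
  have hB : ∀ i, KB * D i * KB⁻¹ =
      if (![true, false, true, false] : Fin 4 → Bool) i then (D (id i))⁻¹ else D (id i) := by
    intro i
    fin_cases i
    · exact hK2 swB KB hKB 0 4 (by decide +kernel) (by norm_num)
        (by unfold Commute SemiconjBy; decide +kernel)
    · exact hK1 swB KB hKB 1 4 (by decide +kernel) (by norm_num)
        (by unfold Commute SemiconjBy; decide +kernel)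
    · exact hK2 swB KB hKB 2 4 (by decide +kernel) (by norm_num)
        (by unfold Commute SemiconjBy; decide +kernel)
    · exact hK1 swB KB hKB 3 4 (by decide +kernel) (by norm_num)
        (by unfold Commute SemiconjBy; decide +kernel)
  have hC : ∀ i, KC * D i * KC⁻¹ =
      if (![true, false, false, true] : Fin 4 → Bool) i then (D (id i))⁻¹ else D (id i) := by
    intro i
    fin_cases i
    · exact hK2 swC KC hKC 0 4 (by decide +kernel) (by norm_num)
        (by unfold Commute SemiconjBy; decide +kernel)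
    · exact hK1 swC KC hKC 1 4 (by decide +kernel) (by norm_num)
        (by unfold Commute SemiconjBy; decide +kernel)
    · exact hK1 swC KC hKC 2 4 (by decide +kernel) (by norm_num)
        (by unfold Commute SemiconjBy; decide +kernel)
    · exact hK2 swC KC hKC 3 4 (by decide +kernel) (by norm_num)
        (by unfold Commute SemiconjBy; decide +kernel)
  have hDD : ∀ i, KD * D i * KD⁻¹ =
      if (![true, false, false, false] : Fin 4 → Bool) i then (D (![0, 1, 3, 2] i))⁻¹
        else D (![0, 1, 3, 2] i) := by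
    intro i
    fin_cases i
    · exact hK2 swD KD hKD 0 4 (by decide +kernel) (by norm_num)
        (by unfold Commute SemiconjBy; decide +kernel)
    · exact hK1 swD KD hKD 1 4 (by decide +kernel) (by norm_num)
        (by unfold Commute SemiconjBy; decide +kernel)
    · exact conj_transfer hπ hker (hDl 2) hG1 hKD (hg1D 2) (cyc_facts 2).1 4 (by decide +kernel)
        (by norm_num) (by unfold Commute SemiconjBy; decide +kernel)
    · exact conj_transfer hπ hker (hDl 3) hG1 hKD (hg1D 3) (cyc_facts 3).1 4 (by decide +kernel)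
        (by norm_num) (by unfold Commute SemiconjBy; decide +kernel)
  have hstep : ∀ (K : GL n F) (σ : Fin 4 → Fin 4) (fl : Fin 4 → Bool), (∀ i, σ (σ i) = i) →
      (∀ i, K * D i * K⁻¹ = if fl i then (D (σ i))⁻¹ else D (σ i)) →
      ∀ e, P e → P (fun j => if fl (σ j) then !(e (σ j)) else e (σ j)) := by
    intro K σ fl hσ hK e he
    obtain ⟨x, hx0, hx⟩ := he
    refine ⟨(K : Matrix n n F) *ᵥ x, fun h => hx0 (inj_mulVec K (h.trans (Matrix.mulVec_zero _).symm)),
      fun j => ?_⟩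
    have := hmove K σ fl hK e x hx (σ j)
    rwa [hσ] at this
  have sA := hstep KA id _ (fun i => rfl) hA
  have sB := hstep KB id _ (fun i => rfl) hB
  have sC := hstep KC id _ (fun i => rfl) hC
  have sD := hstep KD ![0, 1, 3, 2] _ (by decide) hDD
  have hall : ∀ e, P e := by
    have hb4 : ∀ a b c d : Bool, P ![a, b, c, d] → P ![!a, !b, c, d] ∧ P ![!a, b, !c, d] ∧
        P ![!a, b, c, !d] ∧ P ![!a, b, d, c] := by
      intro a b c d h
      refine ⟨?_, ?_, ?_, ?_⟩
      · convert sA _ h using 1; funext j; fin_cases j <;> rfl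
      · convert sB _ h using 1; funext j; fin_cases j <;> rfl
      · convert sC _ h using 1; funext j; fin_cases j <;> rfl
      · convert sD _ h using 1; funext j; fin_cases j <;> rfl
    have heta : ∀ e : Fin 4 → Bool, e = ![e 0, e 1, e 2, e 3] := fun e => by
      funext j; fin_cases j <;> rfl
    obtain ⟨e0, he0⟩ := hexists
    have hbase : ∀ a b c d : Bool, P ![a, b, c, d] → P ![false, false, false, false] := by
      intro a b c d h
      have hswap' : ∀ a b c d : Bool, P ![a, b, c, d] → P ![a, false, c, d] ∨ P ![!a, false, c, d] := by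
        intro a b c d h
        cases b
        · exact Or.inl h
        · exact Or.inr (hb4 _ _ _ _ h).1
      have h1 : ∃ a, P ![a, false, c, d] := by
        rcases hswap' a b c d h with h | h <;> exact ⟨_, h⟩
      obtain ⟨a1, h1⟩ := h1
      have h2' : ∃ a, P ![a, false, false, d] := by
        cases c
        · exact ⟨_, h1⟩
        · exact ⟨_, (hb4 _ _ _ _ h1).2.1⟩
      obtain ⟨a2, h2'⟩ := h2'
      have h3' : ∃ a, P ![a, false, false, false] := by
        cases d
        · exact ⟨_, h2'⟩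
        · exact ⟨_, (hb4 _ _ _ _ h2').2.2.1⟩
      obtain ⟨a3, h3'⟩ := h3'
      cases a3
      · exact h3'
      · exact (hb4 _ _ _ _ h3').2.2.2
    have h0 : P ![false, false, false, false] := by
      refine hbase (e0 0) (e0 1) (e0 2) (e0 3) ?_
      rw [← heta]
      exact he0
    have h1 : P ![true, false, false, false] := (hb4 _ _ _ _ h0).2.2.2
    intro e
    rw [heta e]
    generalize e 0 = a, e 1 = b, e 2 = c, e 3 = d
    have hany : ∀ a, P ![a, false, false, false] := fun a => by cases a <;> assumption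
    have s1 : ∀ a b, P ![a, b, false, false] := by
      intro a b
      cases b
      · exact hany a
      · simpa using (hb4 _ _ _ _ (hany (!a))).1
    have s2 : ∀ a b c, P ![a, b, c, false] := by
      intro a b c
      cases c
      · exact s1 a b
      · simpa using (hb4 _ _ _ _ (s1 (!a) b)).2.1
    cases d
    · exact s2 a b c
    · simpa using (hb4 _ _ _ _ (s2 (!a) b c)).2.2.1
  choose w hw0 hw using hall
  have hline := fun (x : n → F) (hx : ∀ j, T j x = χ (fun _ => false) j • x) => weight_line T χ hχinj w hw hw0 (by rw [hn, ← Nat.card_eq_fintype_card]; simp)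
    (fun _ => false) x hx
  have hfl : ∀ (G : GL n F) (σ : Fin 4 → Fin 4), (∀ i, σ (σ i) = i) →
      (∀ i, G * D i * G⁻¹ = D (σ i)) →
      ∃ c : F, (G : Matrix n n F) *ᵥ w (fun _ => false) = c • w (fun _ => false) := by
    intro G σ hσ hG
    refine hline _ fun j => ?_
    have := hmove G σ (fun _ => false) (fun i => by simpa using hG i) (fun _ => false)
      (w (fun _ => false)) (hw (fun _ => false)) (σ j)
    rw [hσ] at this
    simpa [χ] using this
  obtain ⟨c1, hc1⟩ := hfl G1 ![1, 0, 3, 2] (by decide) hg1D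
  obtain ⟨c2, hc2⟩ := hfl G2 ![2, 3, 0, 1] (by decide) hg2D
  have h := congrArg (fun g : GL n F => (g : Matrix n n F) *ᵥ w (fun _ => false)) hswap
  simp only [Units.val_neg, Matrix.neg_mulVec, Units.val_mul, ← Matrix.mulVec_mulVec, hc1, hc2,
    Matrix.mulVec_smul, smul_smul] at h
  have h0 : ((2 : F) * (c1 * c2)) • w (fun _ => false) = 0 := by
    simp only [mul_comm c2 c1] at h
    rw [two_mul, add_smul]
    exact eq_neg_iff_add_eq_zero.mp h
  have hcne : ∀ (G : GL n F) (c : F),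
      (G : Matrix n n F) *ᵥ w (fun _ => false) = c • w (fun _ => false) → c ≠ 0 := by
    intro G c hc hc0
    rw [hc0, zero_smul] at hc
    exact hw0 _ (inj_mulVec G (hc.trans (Matrix.mulVec_zero _).symm))
  exact (smul_ne_zero (mul_ne_zero h2 (mul_ne_zero (hcne _ _ hc1) (hcne _ _ hc2))) (hw0 _)) h0

end Sixteen

end CfsgLib.E6Alt65
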