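import Cfsg.Agent.E6AltSection65.Local
import Cfsg.Agent.E6AltSection65.Projective
import Cfsg.Agent.E6AltSection65.Five
import Mathlib.GroupTheory.Frattini

/-!
The alternating group of degree twelve is no section of the groups of type E6 outside the
characteristics two, three and five.
-/

set_option autoImplicit false
set_option linter.unusedSectionVars false

namespace CfsgLib.E6Alt65

open Cfsg.Lie CfsgLib.Chevalley
open scoped Matrix

local notation "S" => sysE6

variable {F : Type*} [Field F] [Fintype F] {H : Type*} [Group H] [Finite H] {ζ : Fˣ}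
  {π : H →* ↥(alternatingGroup (Fin 12))} {κ : H →* GL chevE6.Idx F} {z z' : H}

/-- The second table of values. -/
def bTab (k : Fin 16) : ℕ := [2, 3, 1, 4, 1, 4, 2, 3, 1, 4, 2, 3, 2, 3, 1, 4].getD k 0

theorem sixteen_table : ∀ k l : Fin 16,
    (((k : ℕ) / 4 + 1) % 5 = ((l : ℕ) / 4 + 1) % 5 → bTab k % 5 = bTab l % 5 → k = l) ∧
    (∃ m : Fin 4, ((l : ℕ) / 4 + 1) % 5 = 3 ^ (m : ℕ) * ((k : ℕ) / 4 + 1) % 5) ∧
    (∃ m : Fin 4, bTab l % 5 = 3 ^ (m : ℕ) * bTab k % 5) ∧ ((k : ℕ) / 4 + 1) % 5 ≠ 0 := by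
  decide +kernel

/-- The action on the sixteen coordinates. -/
noncomputable def ρ16 (κ : H →* GL chevE6.Idx F) (hP : ∀ h, κ h ∈ Pres ix16) :
    H →* GL (Fin 16) F :=
  (res ix16 ix16_injective).comp (κ.codRestrict _ hP)

theorem ρ16_val (hP : ∀ h, κ h ∈ Pres ix16) (h : H) :
    (ρ16 κ hP h : Matrix (Fin 16) (Fin 16) F) = blk16 (κ h) := rfl

theorem conj_pow_three {G : Type*} [Group G] {y a : G} (h : y * a * y⁻¹ = a ^ 2) (ha : a ^ 5 = 1) :
    y⁻¹ * a * y = a ^ 3 := by
  have h3 : y * a ^ 3 * y⁻¹ = a := by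
    rw [← conj_pow, h, ← pow_mul, pow_eq_pow_mod (2 * 3) ha, pow_one]
  calc y⁻¹ * a * y = y⁻¹ * (y * a ^ 3 * y⁻¹) * y := by rw [h3]
    _ = a ^ 3 := by group

theorem irred16 (st : Std ζ π κ z z') (hζ : orderOf ζ = 5) (hπ : Function.Surjective π)
    (hK5 : ¬ 5 ∣ Nat.card ↥π.ker) {x : H} (hxz : x * z * x⁻¹ = z)
    (hxz' : x * z' * x⁻¹ = z' ^ 2) (hP : ∀ h, κ h ∈ Pres ix16) : Irred (ρ16 κ hP) := by
  classical
  have : Fact (Nat.Prime 5) := ⟨by norm_num⟩
  intro W hW
  by_cases hb : W = ⊥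
  · exact Or.inl hb
  refine Or.inr ?_
  obtain ⟨-, -, hsaa, -, -, -, -, hane, -⟩ := table12
  obtain ⟨y, -, hy⟩ := exists_lift_pow π hπ hK5 st.za (st.pza ▸ hane) (q := sa12) (j := 2)
    (by rw [st.pza]; exact hsaa)
  let zs : Bool → H := fun a => bif a then z' else z
  let χ : Fin 16 → Bool → F := fun k a => (ζ : F) ^ (bif a then bTab k else (k : ℕ) / 4 + 1)
  have hχ : Function.Injective χ := fun k l h =>
    (sixteen_table k l).1 (zeta_pow_eq hζ (congrFun h false)) (zeta_pow_eq hζ (congrFun h true))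
  have hz : ∀ a, (ρ16 κ hP (zs a) : Matrix (Fin 16) (Fin 16) F) =
      Matrix.diagonal fun k => χ k a := by
    intro a
    cases a
    · rw [ρ16_val]
      show blk16 (κ z) = _
      rw [blk16_isLog st.la]
      exact congrArg Matrix.diagonal (funext fun k => by rw [fA_r16]; rfl)
    · rw [ρ16_val]
      show blk16 (κ z') = _
      rw [blk16_isLog st.lb]
      exact congrArg Matrix.diagonal (funext fun k => by rw [fB_r16]; rfl)
  obtain ⟨w, hw, hw0⟩ := Submodule.exists_mem_ne_zero_of_ne_bot hb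
  obtain ⟨k₀, hk₀⟩ := Function.ne_iff.mp hw0
  have hstart : Pi.single k₀ 1 ∈ W := by
    refine coord_mem W χ hχ (fun a v hv => ?_) hw hk₀
    have e : (fun k => χ k a * v k) = (Matrix.diagonal fun k => χ k a) *ᵥ v :=
      funext fun m => (Matrix.mulVec_diagonal (fun k => χ k a) v m).symm
    rw [e, ← hz a]
    exact hW _ v hv
  have hx1 : x⁻¹ * z * x = z ^ 1 := by
    rw [pow_one]
    calc x⁻¹ * z * x = x⁻¹ * (x * z * x⁻¹) * x := by rw [hxz]
      _ = z := by group
  have hstepA : ∀ m : ℕ, ∃ l, Pi.single l 1 ∈ W ∧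
      ((l : ℕ) / 4 + 1) % 5 = 3 ^ m * ((k₀ : ℕ) / 4 + 1) % 5 := by
    intro m
    induction m with
    | zero => exact ⟨k₀, hstart, by rw [pow_zero, one_mul]⟩
    | succ m ih =>
      obtain ⟨l, hl, hlm⟩ := ih
      obtain ⟨l', hl', hrel⟩ := exists_coord _ W hW zs χ hχ hz hl y
      refine ⟨l', hl', ?_⟩
      have e : ((l' : ℕ) / 4 + 1) % 5 = ((l : ℕ) / 4 + 1) * 3 % 5 :=
        zeta_pow_eq hζ ((hrel false 3 (conj_pow_three hy st.za)).trans (pow_mul _ _ _).symm)
      rw [e, Nat.mul_mod, hlm, pow_succ, ← Nat.mul_mod]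
      ring_nf
  refine eq_top_of_coord W fun k => ?_
  obtain ⟨m, hm⟩ := (sixteen_table k₀ k).2.1
  obtain ⟨l, hl, hlm⟩ := hstepA m
  have hla : ((k : ℕ) / 4 + 1) % 5 = ((l : ℕ) / 4 + 1) % 5 := hm.trans hlm.symm
  have hstepB : ∀ n : ℕ, ∃ l', Pi.single l' 1 ∈ W ∧
      ((l' : ℕ) / 4 + 1) % 5 = ((l : ℕ) / 4 + 1) % 5 ∧
      bTab l' % 5 = 3 ^ n * bTab l % 5 := by
    intro n
    induction n with
    | zero => exact ⟨l, hl, rfl, by rw [pow_zero, one_mul]⟩
    | succ n ih =>
      obtain ⟨l', hl', ha', hb'⟩ := ih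
      obtain ⟨l'', hl'', hrel⟩ := exists_coord _ W hW zs χ hχ hz hl' x
      refine ⟨l'', hl'', ?_, ?_⟩
      · exact (zeta_pow_eq hζ ((hrel false 1 hx1).trans (pow_one _))).trans ha'
      · have e : bTab l'' % 5 = bTab l' * 3 % 5 :=
          zeta_pow_eq hζ ((hrel true 3 (conj_pow_three hxz' st.zb)).trans (pow_mul _ _ _).symm)
        rw [e, Nat.mul_mod, hb', pow_succ, ← Nat.mul_mod]
        ring_nf
  obtain ⟨n, hn⟩ := (sixteen_table l k).2.2.1
  obtain ⟨l', hl', ha', hb'⟩ := hstepB n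
  rwa [(sixteen_table k l').1 (hla.trans ha'.symm) (hn.trans hb'.symm)]

/-- The whole group preserves the sixteen coordinates. -/
theorem all_mem_pres16 (st : Std ζ π κ z z') (hζ : orderOf ζ = 5) (hπ : Function.Surjective π)
    (hmin : ∀ U : Subgroup H, U.map π = ⊤ → U = ⊤) (hK5 : ¬ 5 ∣ Nat.card ↥π.ker) (h : H) :
    κ h ∈ Pres ix16 := by
  have htop : (Pres ix16).comap κ = ⊤ := by
    refine hmin _ (eq_top_of_mem (b := b12) (fun q => ?_) (fun j => ?_) fun q hq => ?_)
    · obtain ⟨g, hg⟩ := exists_L7 st hπ hK5 q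
      exact ⟨g, mem_pres16_a st hζ (commute_of_mem_L7 g), by rw [← ι7_π7, hg]⟩
    · revert j; decide +kernel
    · obtain ⟨-, -, -, -, -, -, -, -, hbne⟩ := table12
      obtain ⟨y, hy, hyz⟩ := exists_lift_pow π hπ hK5 st.zb (st.pzb ▸ hbne) (q := q) (j := 1)
        (by rw [st.pzb, pow_one, hq.eq, mul_inv_cancel_right])
      rw [pow_one, mul_inv_eq_iff_eq_mul] at hyz
      exact ⟨y, mem_pres16_b st hζ hyz, hy⟩
  exact (htop ▸ Subgroup.mem_top h : h ∈ (Pres ix16).comap κ)

/-- No minimal covering group of degree twelve lies in the group. -/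
theorem no_twelve_min (p : ℕ) [Fact p.Prime] [CharP F p] (h2 : (2 : F) ≠ 0) (h3 : (3 : F) ≠ 0)
    (hq : 25 ∣ Fintype.card F - 1) (hq3 : 3 ∣ Fintype.card F - 1) (i : H →* GL chevE6.Idx F)
    (hi : Function.Injective i) (hig : ∀ h, i h ∈ chevE6.group F) (hπ : Function.Surjective π)
    (hmin : ∀ U : Subgroup H, U.map π = ⊤ → U = ⊤) (hK : Group.IsNilpotent ↥π.ker)
    (hsplit : ∀ h : H, (orderOf h).Coprime p → orderOf h ∣ Fintype.card F - 1) : False := by
  classical
  have : Fact (Nat.Prime 5) := ⟨by norm_num⟩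
  have : Fact (Nat.Prime 3) := ⟨by norm_num⟩
  obtain ⟨ζ, hζ⟩ := exists_prime_orderOf_dvd_card (G := Fˣ) 5
    (by rw [Fintype.card_units]; exact dvd_trans (by norm_num) hq)
  obtain ⟨w, hw⟩ := exists_prime_orderOf_dvd_card (G := Fˣ) 3 (by rwa [Fintype.card_units])
  have hω : (w : F) ^ 2 + (w : F) + 1 = 0 := by
    have h1 : (w : F) ^ 3 = 1 := by
      rw [← Units.val_pow_eq_pow_val, ← hw, pow_orderOf_eq_one, Units.val_one]
    have h2 : (w : F) - 1 ≠ 0 := fun h => by
      rw [sub_eq_zero, Units.val_eq_one] at h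
      rw [h, orderOf_one] at hw
      norm_num at hw
    exact (mul_eq_zero.mp (by linear_combination h1 :
      ((w : F) - 1) * ((w : F) ^ 2 + (w : F) + 1) = 0)).resolve_left h2
  have hK5 := kernel_five hq i hi hig π hπ hmin
  obtain ⟨κ, hκ, hκg, z, z', x, hza, hzb, hz5, hz5', hzz, hxz, hxz', hla, hlb⟩ :=
    exists_setup hq hζ i hi hig π hπ hK5
  have st : Std ζ π κ z z' := ⟨hκ, hκg, hza, hzb, hz5, hz5', hzz, hla, hlb⟩
  have hP := all_mem_pres16 st hζ hπ hmin hK5
  set ρ := ρ16 κ hP with hρ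
  have hker : ∀ k ∈ π.ker, IsScalarMat (ρ k) := by
    refine scalar_kernel_twelve p (by simp) hsplit π hπ hmin hK hK5 ρ
      (irred16 st hζ hπ hK5 hxz hxz' hP) z z' x hz5 hz5' hzz hxz hxz'
      (by rw [hza]; exact table12.2.2.2.2.2.2.2.1) (fun v hv => ?_)
      (fun k hk hc => ?_) (fun k hk hc => ?_)
    · funext k
      have h := congrFun hv k
      rw [hρ, ρ16_val, blk16_isLog hla, Matrix.mulVec_diagonal] at h
      by_contra hne
      refine (sixteen_table k k).2.2.2 (zeta_pow_eq hζ (n := 0) ?_)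
      rw [pow_zero, ← fA_r16]
      exact mul_right_cancel₀ hne (h.trans (one_mul _).symm)
    · exact ker_scalar_first p st hζ hπ hK hK5 hsplit hk hc
    · exact ker_scalar_second p st hζ hπ hK hK5 hsplit hk hc
  -- elements over the copy of degree seven are block diagonal up to scalars
  have hL : ∀ g : ↥(L7 π z), (ρ g : Matrix (Fin 16) (Fin 16) F) =
      Φ fun i => (ρE st hζ i g : Matrix (Fin 4) (Fin 4) F) := fun g =>
    blk16_L7 st hζ (commute_of_mem_L7 g)
  have hdec : ∀ (X : H) (q : ↥(alternatingGroup (Fin 7))), π X = ι7 q →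
      ∃ (g : ↥(L7 π z)) (c : F), π7 π z g = q ∧ c ≠ 0 ∧ (ρ X : Matrix (Fin 16) (Fin 16) F) =
        c • Φ fun i => (ρE st hζ i g : Matrix (Fin 4) (Fin 4) F) := by
    intro X q hX
    obtain ⟨g, hg⟩ := exists_L7 st hπ hK5 q
    obtain ⟨c, hc⟩ := hker (X * (g : H)⁻¹) (by
      rw [MonoidHom.mem_ker, map_mul, map_inv, hX, ← ι7_π7, hg, mul_inv_cancel])
    have e : (ρ X : Matrix (Fin 16) (Fin 16) F) =
        c • Φ fun i => (ρE st hζ i g : Matrix (Fin 4) (Fin 4) F) := by
      rw [← hL g]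
      calc (ρ X : Matrix (Fin 16) (Fin 16) F)
          = ((ρ (X * (g : H)⁻¹) * ρ g : GL (Fin 16) F) : Matrix (Fin 16) (Fin 16) F) := by
            rw [← map_mul, inv_mul_cancel_right]
        _ = _ := by rw [Units.val_mul, hc, smul_mul_assoc, one_mul]
    refine ⟨g, c, hg, fun h0 => (ρ X).ne_zero ?_, e⟩
    rw [e, h0, zero_smul]
  have hker7 : ∀ i, ∀ k ∈ (π7 π z).ker, IsScalarMat (ρE st hζ i k) := fun i k hk =>
    ker_scalar_block p st hζ hπ hK hK5 hsplit i k hk
  have hns7 : ∀ i, ∃ h, ¬ IsScalarMat (ρE st hζ i h) := fun i => ⟨zE st, fun ⟨c, hc⟩ => by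
    rw [ρE_zE] at hc
    have hd : ∀ a : Fin 4, (ζ : F) ^ (fB (r16 (pos4 i a))).val = c := fun a => by
      simpa using congrFun (congrFun hc a) a
    exact absurd (fB_inj i (zeta_pow_eq hζ ((hd 0).trans (hd 1).symm))) (by decide)⟩
  have hπ7 : Function.Surjective (π7 π z) := fun q => exists_L7 st hπ hK5 q
  refine no_sixteen h2 h3 hω π hπ ρ hker (by simp) (fun X Y hX hY => ?_)
    fun C X hC hX s hs hrel v hv => ?_
  · obtain ⟨gX, cX, hgX, -, eX⟩ := hdec X u7 (hX.trans ι7_table.2.1.symm)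
    obtain ⟨gY, cY, hgY, -, eY⟩ := hdec Y v7 (hY.trans ι7_table.2.2.1.symm)
    have h : ∀ i, (ρE st hζ i gX : Matrix (Fin 4) (Fin 4) F) * ρE st hζ i gY =
        -((ρE st hζ i gY : Matrix (Fin 4) (Fin 4) F) * ρE st hζ i gX) := fun i => by
      have := seven_commutator h2 h3 hω (π7 π z) hπ7 (ρE st hζ i) (hker7 i) (by simp) (hns7 i)
        gX gY hgX hgY
      simpa [map_mul] using this
    rw [map_mul, map_mul, Units.val_mul, Units.val_mul, eX, eY]
    simp only [smul_mul_assoc, mul_smul_comm, smul_smul, ← Φ_mul, h, Φ_neg, smul_neg]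
    rw [mul_comm cY cX]
  · obtain ⟨gC, cC, hgC, -, eC⟩ := hdec C c7 (hC.trans ι7_table.2.2.2.1.symm)
    obtain ⟨gX, cX, hgX, hX0, eX⟩ := hdec X x7 (hX.trans ι7_table.2.2.2.2.symm)
    let N : Fin 4 → Matrix (Fin 4) (Fin 4) F := fun i =>
      (s * cC) • (ρE st hζ i gC : Matrix (Fin 4) (Fin 4) F)
    let R : Fin 4 → Matrix (Fin 4) (Fin 4) F := fun i =>
      (ρE st hζ i gX : Matrix (Fin 4) (Fin 4) F)
    have eM : s • (ρ C : Matrix (Fin 16) (Fin 16) F) = Φ N := by
      rw [eC, smul_smul, ← Φ_smul]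
    have h3' : ∀ i, N i ^ 3 = 1 := fun i => by
      rw [eM, ← Φ_pow, ← Φ_one] at hs
      exact congrFun (Φ_injective hs) i
    have hrel' : ∀ i, R i * N i * R i * N i = R i ^ 2 := fun i => by
      rw [eM, eX] at hrel
      simp only [smul_mul_assoc, mul_smul_comm, smul_smul, smul_pow, ← Φ_mul, ← Φ_pow] at hrel
      rw [← sq] at hrel
      exact congrFun (Φ_injective (smul_right_injective _ (pow_ne_zero 2 hX0) hrel)) i
    have hv0 : ∀ j, (fun b => v (pos4 j b)) = 0 := fun j =>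
      seven_three h2 h3 hω (π7 π z) hπ7 (ρE st hζ j) (hker7 j) (by simp) (hns7 j) gC gX hgC hgX
        (s * cC) (h3' j) (hrel' j) _ (funext fun a => by
          have := congrFun hv (pos4 j a)
          rw [eM, Φ_mulVec] at this
          exact this)
    funext t
    obtain ⟨⟨a, j⟩, rfl⟩ := e16.surjective t
    exact congrFun (hv0 j) a

/-- The alternating group of degree twelve is no section outside characteristics two, three and
five. -/
theorem no_twelve {F : Type*} [Field F] [Fintype F] (p : ℕ) [Fact p.Prime] [CharP F p] (hp2 : p ≠ 2)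
    (hp3 : p ≠ 3) (hp5 : p ≠ 5) {H : Type*} [Group H] (i : H →* ↥(chevE6.group F))
    (hi : Function.Injective i) (π : H →* ↥(alternatingGroup (Fin 12)))
    (hπ : Function.Surjective π) : False := by
  classical
  have : Finite H := Finite.of_injective i hi
  -- a minimal subgroup mapping onto
  obtain ⟨U, hU, hUmin⟩ := (Set.toFinite {U : Subgroup H | U.map π = ⊤}).exists_minimal
    ⟨⊤, Subgroup.map_top_of_surjective π hπ⟩
  set π' : ↥U →* ↥(alternatingGroup (Fin 12)) := π.comp U.subtype with hπ'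
  have hsur : Function.Surjective π' := by
    rw [← MonoidHom.range_eq_top, hπ', MonoidHom.range_comp, Subgroup.range_subtype]
    exact hU
  have hmin : ∀ V : Subgroup ↥U, V.map π' = ⊤ → V = ⊤ := fun V hV => by
    have hVU : V.map U.subtype = U := le_antisymm (Subgroup.map_subtype_le V)
      (hUmin (show (V.map U.subtype).map π = ⊤ by rwa [Subgroup.map_map])
        (Subgroup.map_subtype_le V))
    refine Subgroup.map_injective U.subtype_injective ?_
    rw [hVU, ← MonoidHom.range_eq_map, Subgroup.range_subtype]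
  have hK : Group.IsNilpotent ↥π'.ker := by
    have hle : π'.ker ≤ frattini ↥U := by
      rw [frattini, Order.radical]
      refine le_iInf₂ fun M hM => ?_
      by_contra hKM
      refine hM.1 (hmin M ?_)
      have hsup : M ⊔ π'.ker = ⊤ := hM.2 _ (lt_of_le_of_ne le_sup_left fun e =>
        hKM (e ▸ le_sup_right))
      rw [← Subgroup.map_top_of_surjective π' hsur, ← hsup, Subgroup.map_sup,
        (Subgroup.map_eq_bot_iff _).mpr le_rfl, sup_bot_eq]
    have := frattini_nilpotent (G := ↥U)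
    exact Subgroup.isNilpotent_of_ker_le_center (Subgroup.inclusion hle)
      (by rw [(MonoidHom.ker_eq_bot_iff _).mpr (Subgroup.inclusion_injective hle)]; exact bot_le)
  have hp : p.Prime := Fact.out
  set N := 75 * Nat.card ↥U with hN
  have hN0 : N ≠ 0 := Nat.mul_ne_zero (by norm_num) Nat.card_pos.ne'
  obtain ⟨E, _, _, _, f, hf, hm⟩ := exists_baseChange (F := F) p (Nat.coprime_ordCompl hp hN0)
  have hdvd : ∀ n, n.Coprime p → n ∣ N → n ∣ Fintype.card E - 1 := fun n hn hd => by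
    refine dvd_trans ?_ hm
    rw [← Nat.ordProj_mul_ordCompl_eq_self N p] at hd
    exact (hn.pow_right _).dvd_of_dvd_mul_left hd
  have hne : ∀ n : ℕ, n.Coprime p → (n : E) ≠ 0 := fun n hn h => by
    rw [CharP.cast_eq_zero_iff E p] at h
    exact hp.ne_one (Nat.dvd_one.mp (hn ▸ Nat.dvd_gcd h dvd_rfl))
  have hc : ∀ n : ℕ, n.Prime → n ≠ p → n.Coprime p := fun n hn h => (Nat.coprime_primes hn hp).mpr h
  refine no_twelve_min (π := π') p (by simpa using hne 2 (hc 2 Nat.prime_two hp2.symm))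
    (by simpa using hne 3 (hc 3 Nat.prime_three hp3.symm))
    (hdvd 25 ((show (25 : ℕ) = 5 ^ 2 by norm_num) ▸ (hc 5 (by norm_num) hp5.symm).pow_left 2)
      (dvd_mul_of_dvd_left (by norm_num) _))
    (hdvd 3 (hc 3 Nat.prime_three hp3.symm) (dvd_mul_of_dvd_left (by norm_num) _))
    ((chevE6.group E).subtype.comp (f.comp (i.comp U.subtype)))
    (Subtype.val_injective.comp (hf.comp (hi.comp U.subtype_injective)))
    (fun h => Subtype.coe_prop _) hsur hmin hK
    (fun h hh => hdvd _ hh (dvd_mul_of_dvd_right (orderOf_dvd_natCard h) _))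

end CfsgLib.E6Alt65
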