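import Cfsg.Agent.E6AltSection65.WeylDefs

/-! The certified searches in the Weyl group of type E6. -/

set_option autoImplicit false

namespace CfsgLib.E6Alt65

open Cfsg.Lie CfsgLib.Chevalley

theorem coef_eq : ∀ r : Fin 72, ∀ j : Fin 6, (coef r j : ℤ) = tabE6.coord 6 j r + 4 := by
  decide +kernel

theorem pT_eq : ∀ r t : Fin 72, (pT r t : ℤ) = chevE6.pairing r t + 4 := by decide +kernel

theorem sp_eq : ∀ i : Fin 6, sp i = chevE6.simple i := by decide +kernel

theorem wsI_eq : ∀ i j : Fin 6, wsI i j = chevE6.reflectRoot i (sp j) := by decide +kernel

theorem wInv_gen : (List.range 6).all (fun i => wInv ((List.range 6).map (wsI i))) = true := by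
  decide +kernel

/-- A scaling by two forces the orbit of the base function: first non-zero value one, short codes. -/
theorem searchA : (List.range 5).all (fun k => (List.range (5 ^ k)).all fun m => okA (5 ^ k + m)) = true := by
  decide +kernel

/-- The same for the long codes. -/
theorem searchA5 : (List.range 3125).all (fun m => okA (3125 + m)) = true := by decide +kernel

theorem walk_multiples : [1, 2, 3, 4].all (fun c => walk walkA (List.range 6) 30 (scl 5 c a0) == a0) = true := by
  decide +kernel

theorem walk_b0 : walk walkA (List.range 6) 30 b0 = a0 := by decide +kernel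

/-- The stabiliser of the base function. -/
theorem searchStab : ((maps 5 a0 1).filter wInv).all (fun σ => stabImgs.contains σ) = true := by
  decide +kernel

theorem stab_exponent : stabWords.all (fun L =>
    imgs (List.replicate 12 L).flatten == (List.range 6).map sp) = true := by decide +kernel

theorem stabImgs_eq : stabWords.map imgs = stabImgs := by decide +kernel

theorem stab_out : stabImgs.all (fun σ => [0, 1, 5].all fun j => [0, 1, 5].all fun k =>
    coef (σ.getD j 0) k == if j = k then 5 else 4) = true := by decide +kernel

/-- The second function is determined up to the stabiliser of the base function. -/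
theorem searchB : (List.range 125).all okB = true := by decide +kernel

/-- Representatives of the functions modulo eleven scaled by an element of order five. -/
def elevenList : List (ℕ × List ℕ) :=
  [(3, [1, 1, 3, 9, 5, 9]), (4, [1, 7, 4, 5, 9, 10]), (5, [1, 5, 5, 3, 4, 6]), (9, [1, 10, 9, 4, 3, 9])]

theorem searchEleven : elevenList.all (fun e => ((maps 11 e.2 2).filter wInv).isEmpty) = true := by decide +kernel

/-- Eigenfunctions modulo eleven of the element of order five. -/
theorem searchEigen : ([3, 4, 5, 9].all fun η => (List.range 121).all fun n =>
    !(via 11 [1, n / 11, η, η * η % 11, η * η * η % 11, n % 11] (imgs [0, 2, 3, 4]) ==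
        scl 11 η [1, n / 11, η, η * η % 11, η * η * η % 11, n % 11]) ||
      elevenList.contains (η, [1, n / 11, η, η * η % 11, η * η * η % 11, n % 11])) = true := by
  decide +kernel

theorem five_pow : imgs (List.replicate 5 [0, 2, 3, 4]).flatten = (List.range 6).map sp := by
  decide +kernel

theorem five_ne : imgs [0, 2, 3, 4] ≠ (List.range 6).map sp := by decide +kernel

end CfsgLib.E6Alt65
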