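import Cfsg.Agent.E6AltSection65.WeylCheck
import Cfsg.Agent.Chevalley.Weights.E6
import Cfsg.Agent.F4AltSection.Torus
import Mathlib.Data.ZMod.Basic
import Mathlib.GroupTheory.Sylow
import Mathlib.Tactic

/-!
Soundness of the searches in the Weyl group of type E6.
-/

set_option autoImplicit false
set_option maxRecDepth 4000

namespace CfsgLib.E6Alt65

open Cfsg.Lie CfsgLib.Chevalley

local notation "S" => sysE6

/-- The fundamental roots, indexed by `Fin 6`. -/
noncomputable abbrev sf (i : Fin 6) : Fin chevE6.nroots := Sys.simpleF S i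

theorem sf_val (i : Fin 6) : (sf i : ℕ) = sp i := (sp_eq i).symm

theorem vec_eq (j : Fin 6) (s : Fin chevE6.nroots) :
    Sys.vec S j s = (coef s j : ℤ) - 4 := by
  have h := coef_eq s j
  show tabE6.coord 6 j s = _
  omega

variable {ℓ : ℕ}

/-- Linear functions on the roots. -/
def IsLin (f : Fin chevE6.nroots → ZMod ℓ) : Prop :=
  ∀ s, f s = ∑ m : Fin 6, (Sys.vec S m s : ZMod ℓ) * f (sf m)

/-- The values on the fundamental roots. -/
noncomputable def vals (f : Fin chevE6.nroots → ZMod ℓ) : List ℕ :=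
  [(f (sf 0)).val, (f (sf 1)).val, (f (sf 2)).val, (f (sf 3)).val, (f (sf 4)).val, (f (sf 5)).val]

theorem vals_getD (f : Fin chevE6.nroots → ZMod ℓ) (i : Fin 6) :
    (vals f).getD i 0 = (f (sf i)).val := by fin_cases i <;> rfl

theorem map_range_six {α : Type*} (g : ℕ → α) :
    (List.range 6).map g = [g 0, g 1, g 2, g 3, g 4, g 5] := rfl

theorem vec_sf (j i : Fin 6) : Sys.vec S j (sf i) = if (j : ℕ) = i then 1 else 0 :=
  Sys.vec_simple S i i.isLt j j.isLt

section
variable [NeZero ℓ]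

theorem vmod_vals {f : Fin chevE6.nroots → ZMod ℓ} (hf : IsLin f) (s : Fin chevE6.nroots) :
    vmod ℓ (vals f) s = (f s).val := by
  have hlt : vmod ℓ (vals f) s < ℓ := Nat.mod_lt _ (NeZero.pos ℓ)
  rw [← ZMod.val_natCast_of_lt hlt]
  congr 1
  have hsh : ∀ j : ℕ, coef s j = (coefTab >>> (24 * (s : ℕ))) >>> (4 * j) % 16 := fun j => by
    rw [coef, ← Nat.shiftRight_add]
    congr 2
    ring
  simp only [vals, vmod, val6, ZMod.natCast_mod, Nat.cast_add, Nat.cast_mul, ZMod.natCast_val,
    ZMod.cast_id', id]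
  rw [hf s]
  simp only [fun m : Fin 6 => vec_eq m s, Int.cast_sub, Int.cast_natCast, Int.cast_ofNat]
  rw [Fin.sum_univ_six]
  simp only [hsh, Fin.isValue, Fin.val_zero, Fin.val_one, Fin.val_two,
    show ((3 : Fin 6) : ℕ) = 3 from rfl, show ((4 : Fin 6) : ℕ) = 4 from rfl,
    show ((5 : Fin 6) : ℕ) = 5 from rfl, mul_zero, Nat.shiftRight_zero]
  push_cast [show 4 * ℓ - 4 = 4 * (ℓ - 1) by omega, Nat.cast_sub (NeZero.one_le (n := ℓ))]
  simp only [show (ℓ : ZMod ℓ) = 0 from ZMod.natCast_self ℓ]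
  norm_num
  ring

theorem vals_inj {f g : Fin chevE6.nroots → ZMod ℓ} (hf : IsLin f) (hg : IsLin g)
    (h : vals f = vals g) : f = g := by
  funext s
  refine ZMod.val_injective ℓ ?_
  rw [← vmod_vals hf, ← vmod_vals hg, h]

theorem isLin_smul {f : Fin chevE6.nroots → ZMod ℓ} (hf : IsLin f) (k : ZMod ℓ) :
    IsLin fun s => k * f s := by
  intro s
  show k * f s = _
  rw [hf s, Finset.mul_sum]
  exact Finset.sum_congr rfl fun m _ => by ring

theorem vals_smul (f : Fin chevE6.nroots → ZMod ℓ) (k : ℕ) :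
    vals (fun s => (k : ZMod ℓ) * f s) = scl ℓ k (vals f) := by
  simp [vals, scl, ZMod.val_mul, ZMod.val_natCast, Nat.mod_mul_mod]

theorem isLin_wperm {f : Fin chevE6.nroots → ZMod ℓ} (hf : IsLin f)
    (L : List (Fin chevE6.rank)) : IsLin fun s => f (Sys.wperm S L s) := by
  intro s
  show f (Sys.wperm S L s) = ∑ m : Fin 6, (Sys.vec S m s : ZMod ℓ) * f (Sys.wperm S L (sf m))
  rw [hf (Sys.wperm S L s)]
  have h : ∀ j : Fin 6, (Sys.vec S j (Sys.wperm S L s) : ZMod ℓ) =
      ∑ m : Fin 6, (Sys.vec S m s : ZMod ℓ) * (Sys.vec S j (Sys.wperm S L (sf m)) : ZMod ℓ) :=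
    fun j => by
      rw [Sys.vec_wperm S L s j j.isLt]
      push_cast
      rfl
  simp only [h, Finset.sum_mul]
  rw [Finset.sum_comm]
  refine Finset.sum_congr rfl fun m _ => ?_
  rw [hf (Sys.wperm S L (sf m)), Finset.mul_sum]
  exact Finset.sum_congr rfl fun j _ => mul_assoc _ _ _

end

/-- The images of the fundamental roots. -/
noncomputable def imgW (L : List (Fin chevE6.rank)) : List ℕ :=
  [(Sys.wperm S L (sf 0) : ℕ), (Sys.wperm S L (sf 1) : ℕ), (Sys.wperm S L (sf 2) : ℕ),
    (Sys.wperm S L (sf 3) : ℕ), (Sys.wperm S L (sf 4) : ℕ), (Sys.wperm S L (sf 5) : ℕ)]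

theorem wperm_val (L : List (Fin chevE6.rank)) (s : Fin chevE6.nroots) :
    (Sys.wperm S L s : ℕ) = (L.map Fin.val).foldr (fun i r => chevE6.reflectRoot i r) s := by
  induction L with
  | nil => rfl
  | cons i L ih =>
    rw [Sys.wperm_cons, Equiv.Perm.mul_apply, Sys.srefl_val, List.map_cons, List.foldr_cons, ih]

theorem imgs_val (L : List (Fin chevE6.rank)) : imgs (L.map Fin.val) = imgW L := by
  simp only [imgs, map_range_six, imgW, wperm_val, sf_val]
  rfl

theorem imgW_inj {L M : List (Fin chevE6.rank)} (h : imgW L = imgW M) :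
    Sys.wperm S L = Sys.wperm S M := by
  simp only [imgW, List.cons.injEq, and_true] at h
  obtain ⟨h0, h1, h2, h3, h4, h5⟩ := h
  refine Sys.wperm_ext S fun m => Fin.ext ?_
  have : ∀ m : Fin 6, (Sys.wperm S L (sf m) : ℕ) = Sys.wperm S M (sf m) := by
    intro m
    fin_cases m <;> assumption
  exact this m

theorem imgW_eq_sp {L : List (Fin chevE6.rank)} (h : imgW L = (List.range 6).map sp) :
    Sys.wperm S L = 1 := by
  have h0 : imgW [] = (List.range 6).map sp := by
    rw [← imgs_val]; rfl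
  exact imgW_inj (h.trans h0.symm)

theorem vals_wperm [NeZero ℓ] {f : Fin chevE6.nroots → ZMod ℓ} (hf : IsLin f)
    (L : List (Fin chevE6.rank)) :
    vals (fun s => f (Sys.wperm S L s)) = via ℓ (vals f) (imgW L) := by
  simp only [via, imgW, List.map_cons, List.map_nil, vmod_vals hf]
  rfl

theorem rf_vals [NeZero ℓ] {f : Fin chevE6.nroots → ZMod ℓ} (hf : IsLin f) (i : Fin 6) :
    rf ℓ (vals f) i = vals (fun s => f (Sys.wperm S [i] s)) := by
  rw [vals_wperm hf, rf, map_range_six, via, imgW]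
  simp only [List.map_cons, List.map_nil, wperm_val, sf_val]
  have e : ∀ j : Fin 6, wsI i j = chevE6.reflectRoot i (sp j) := wsI_eq i
  simp only [List.cons.injEq, and_true]
  exact ⟨congrArg _ (e 0), congrArg _ (e 1), congrArg _ (e 2), congrArg _ (e 3), congrArg _ (e 4),
    congrArg _ (e 5)⟩

theorem walk_sound {f : Fin chevE6.nroots → ZMod 5} (hf : IsLin f) (T : ℕ) {J : List ℕ}
    (hJ : ∀ i ∈ J, i < 6) (k : ℕ) :
    ∃ M : List (Fin chevE6.rank), (∀ i ∈ M, (i : ℕ) ∈ J) ∧
      vals (fun s => f (Sys.wperm S M s)) = walk T J k (vals f) := by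
  induction k generalizing f with
  | zero => exact ⟨[], fun i h => absurd h (List.not_mem_nil), rfl⟩
  | succ k ih =>
    simp only [walk]
    split_ifs with h
    · set i := (T >>> (4 * code (vals f))) % 16
      have hi : i ∈ J := List.contains_iff_mem.mp h
      rw [show i = ((⟨i, hJ i hi⟩ : Fin 6) : ℕ) from rfl, rf_vals hf ⟨i, hJ i hi⟩]
      obtain ⟨M, hM, e⟩ := ih (f := fun s => f (Sys.wperm S [⟨i, hJ i hi⟩] s)) (isLin_wperm hf _)
      refine ⟨⟨i, hJ i hi⟩ :: M, fun a ha => ?_, ?_⟩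
      · rcases List.mem_cons.mp ha with rfl | ha
        · exact hi
        · exact hM a ha
      · refine Eq.trans (congrArg vals (funext fun s => ?_)) e
        rw [show (⟨i, hJ i hi⟩ :: M : List (Fin chevE6.rank)) = [⟨i, hJ i hi⟩] ++ M from rfl,
          Sys.wperm_append]
        rfl
    · exact ⟨[], fun i h => absurd h (List.not_mem_nil), rfl⟩

theorem mem_ext (cd : ℕ → List ℕ) (σ : ℕ → ℕ) :
    ∀ (is : List ℕ) (acc : List (ℕ × ℕ)), (∀ i ∈ is, i < 6 ∧ σ i ∈ cd i) →
      (∀ i < 6, ∀ j < 6, comp i j (σ i) (σ j) = true) → (∀ e ∈ acc, e.1 < 6 ∧ e.2 = σ e.1) →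
        ((is.map fun i => (i, σ i)).reverse ++ acc) ∈ ext cd is acc := by
  intro is
  induction is with
  | nil => intro acc _ _ _; simp [ext]
  | cons i is ih =>
    intro acc hcd hc hacc
    rw [ext, List.mem_flatMap]
    refine ⟨σ i, List.mem_filter.mpr ⟨(hcd i (by simp)).2, ?_⟩, ?_⟩
    · rw [List.all_eq_true]
      exact fun e he => by rw [(hacc e he).2]; exact hc i (hcd i (by simp)).1 e.1 (hacc e he).1
    · have h := ih ((i, σ i) :: acc) (fun j hj => hcd j (by simp [hj])) hc
        (fun e he => by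
          rcases List.mem_cons.mp he with rfl | he
          · exact ⟨(hcd _ (by simp)).1, rfl⟩
          · exact hacc e he)
      simpa using h

theorem pairing_wperm (L : List (Fin chevE6.rank)) (r t : Fin chevE6.nroots) :
    chevE6.pairing (Sys.wperm S L r) (Sys.wperm S L t) = chevE6.pairing r t := by
  induction L with
  | nil => rfl
  | cons i L ih =>
    rw [Sys.wperm_cons, Equiv.Perm.mul_apply, Equiv.Perm.mul_apply, Sys.srefl_val, Sys.srefl_val,
      Sys.pairing_w S i.isLt (Fin.isLt _) (Fin.isLt _), ih]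

theorem pT_wperm (L : List (Fin chevE6.rank)) (r t : Fin chevE6.nroots) :
    pT (Sys.wperm S L r) (Sys.wperm S L t) = pT r t := by
  have h1 := pT_eq (Sys.wperm S L r) (Sys.wperm S L t)
  have h2 := pT_eq r t
  rw [pairing_wperm] at h1
  omega

theorem mem_maps [NeZero ℓ] {f : Fin chevE6.nroots → ZMod ℓ} (hf : IsLin f)
    (L : List (Fin chevE6.rank)) (k : ℕ)
    (h : ∀ s, f (Sys.wperm S L s) = (k : ZMod ℓ) * f s) : imgW L ∈ maps ℓ (vals f) k := by
  set σ : ℕ → ℕ := fun i => if hi : i < 6 then (Sys.wperm S L (sf ⟨i, hi⟩) : ℕ) else sp i with hσ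
  have hσ' : ∀ i : Fin 6, σ i = Sys.wperm S L (sf i) := fun i => dif_pos i.isLt
  have hcd : ∀ i ∈ ([0, 2, 3, 1, 4, 5] : List ℕ), i < 6 ∧ σ i ∈ cand ℓ (vals f) k i := by
    intro i hi
    have hi6 : i < 6 := by
      simp only [List.mem_cons, List.not_mem_nil, or_false] at hi
      omega
    rw [show i = ((⟨i, hi6⟩ : Fin 6) : ℕ) from rfl, hσ', cand, List.mem_filter, List.mem_range,
      beq_iff_eq]
    simp only [Fin.eta]
    refine ⟨hi6, Fin.isLt _, ?_⟩
    rw [vmod_vals hf, h, show (vals f).getD i 0 = (f (sf ⟨i, hi6⟩)).val from vals_getD f ⟨i, hi6⟩,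
      ZMod.val_mul, ZMod.val_natCast, Nat.mod_mul_mod]
  have hc : ∀ i < 6, ∀ j < 6, comp i j (σ i) (σ j) = true := by
    intro i hi j hj
    simp only [comp, beq_iff_eq, hσ, dif_pos hi, dif_pos hj, pT_wperm, sf_val]
  have := mem_ext (cand ℓ (vals f) k) σ [0, 2, 3, 1, 4, 5] [] hcd hc (by simp)
  refine List.mem_map.mpr ⟨_, this, ?_⟩
  have e : ∀ i (hi : i < 6), σ i = Sys.wperm S L (sf ⟨i, hi⟩) := fun i hi => dif_pos hi
  simp only [List.map_cons, List.map_nil, List.reverse_cons, List.reverse_nil, List.nil_append,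
    List.cons_append, List.append_nil, sortImg, imgW, e 0 (by norm_num), e 1 (by norm_num),
    e 2 (by norm_num), e 3 (by norm_num), e 4 (by norm_num), e 5 (by norm_num)]
  rfl

/-- The vector spanning the radical of the Cartan form modulo three. -/
def radThree : Fin 6 → ZMod 3 := ![1, 0, 2, 0, 1, 2]

theorem radThree_gen : ∀ i l : Fin 6, ∑ j : Fin 6, radThree j * ((coef (wsI i j) l : ZMod 3) - 4) =
    radThree l := by decide +kernel

theorem radThree_wperm (L : List (Fin chevE6.rank)) (m : Fin 6) :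
    ∑ j : Fin 6, radThree j * (Sys.vec S m (Sys.wperm S L (sf j)) : ZMod 3) = radThree m := by
  induction L using List.reverseRecOn generalizing m with
  | nil =>
    show ∑ j : Fin 6, radThree j * (Sys.vec S m (sf j) : ZMod 3) = radThree m
    simp only [vec_sf]
    rw [Finset.sum_eq_single m (fun b _ hb => ?_) (fun h => absurd (Finset.mem_univ m) h)]
    · simp
    · rw [if_neg fun h => hb (Fin.ext h.symm)]
      simp
  | append_singleton L i ih =>
    have h : ∀ j : Fin 6, (Sys.vec S m (Sys.wperm S (L ++ [i]) (sf j)) : ZMod 3) =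
        ∑ l : Fin 6, ((coef (wsI i j) l : ZMod 3) - 4) *
          (Sys.vec S m (Sys.wperm S L (sf l)) : ZMod 3) := by
      intro j
      rw [Sys.wperm_append, Equiv.Perm.mul_apply, Sys.vec_wperm S L _ m m.isLt]
      push_cast
      refine Finset.sum_congr rfl fun l _ => ?_
      have e : (Sys.wperm S [i] (sf j) : ℕ) = wsI i j := by
        rw [wperm_val, sf_val, wsI_eq i j]
        rfl
      have e2 := vec_eq l (Sys.wperm S [i] (sf j))
      rw [e] at e2 ⊢
      rw [e2]
      push_cast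
      rfl
    simp only [h, Finset.mul_sum]
    rw [Finset.sum_comm]
    refine (Finset.sum_congr rfl fun l _ => ?_).trans (ih m)
    rw [← radThree_gen i l, Finset.sum_mul]
    exact Finset.sum_congr rfl fun j _ => (mul_assoc _ _ _).symm

theorem wInv_imgW (L : List (Fin chevE6.rank)) : wInv (imgW L) = true := by
  simp only [wInv, List.all_eq_true, List.mem_range, beq_iff_eq]
  intro m hm
  have hr : ∀ m : Fin 6, (radThree m).val = [1, 0, 2, 0, 1, 2].getD (m : ℕ) 0 := by decide
  rw [show [1, 0, 2, 0, 1, 2].getD m 0 = (radThree ⟨m, hm⟩).val from (hr ⟨m, hm⟩).symm,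
    ← ZMod.val_natCast]
  congr 1
  have h := radThree_wperm L ⟨m, hm⟩
  simp only [fun j : Fin 6 => vec_eq ⟨m, hm⟩ (Sys.wperm S L (sf j)), Int.cast_sub, Int.cast_natCast,
    Int.cast_ofNat] at h
  rw [Fin.sum_univ_six] at h
  simp only [imgW, List.getD_cons_zero, List.getD_cons_succ]
  rw [← h]
  simp only [radThree, Matrix.cons_val]
  push_cast
  have h30 : (3 : ZMod 3) = 0 := rfl
  linear_combination (8 : ZMod 3) * h30

theorem mem_stab {f : Fin chevE6.nroots → ZMod 5} (hf : IsLin f) (ha : vals f = a0)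
    {L : List (Fin chevE6.rank)} (h : ∀ s, f (Sys.wperm S L s) = f s) : imgW L ∈ stabImgs := by
  have h1 := mem_maps hf L 1 fun s => by rw [h, Nat.cast_one, one_mul]
  rw [ha] at h1
  have h2 := List.all_eq_true.mp searchStab _ (List.mem_filter.mpr ⟨h1, wInv_imgW L⟩)
  exact List.contains_iff_mem.mp h2

theorem stab_word {f : Fin chevE6.nroots → ZMod 5} (hf : IsLin f) (ha : vals f = a0)
    {L : List (Fin chevE6.rank)} (h : ∀ s, f (Sys.wperm S L s) = f s) :
    ∃ M : List (Fin chevE6.rank), (∀ i ∈ M, (i : ℕ) ∈ J0) ∧ Sys.wperm S L = Sys.wperm S M ∧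
      Sys.wperm S L ^ 12 = 1 := by
  have h1 := mem_stab hf ha h
  rw [← stabImgs_eq] at h1
  obtain ⟨W, hW, e⟩ := List.mem_map.mp h1
  have hW' : ∀ V ∈ stabWords, ∀ i ∈ V, i ∈ J0 := by decide
  have hJ : ∀ i ∈ W, i < chevE6.rank := fun i hi => by
    have := hW' W hW i hi
    simp only [J0, List.mem_cons, List.not_mem_nil, or_false] at this
    show i < 6
    omega
  set M : List (Fin chevE6.rank) := W.pmap (fun i hi => (⟨i, hi⟩ : Fin chevE6.rank)) hJ with hM
  have hMv : M.map Fin.val = W := by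
    rw [hM, List.map_pmap]
    simp [List.pmap_eq_map]
  have hLM : Sys.wperm S L = Sys.wperm S M := imgW_inj (by rw [← imgs_val M, hMv, e])
  refine ⟨M, fun i hi => hW' W hW i ?_, hLM, ?_⟩
  · rw [← hMv]
    exact List.mem_map_of_mem hi
  · have hpow : ∀ k : ℕ, Sys.wperm S M ^ k = Sys.wperm S (List.replicate k M).flatten := by
      intro k
      induction k with
      | zero => rfl
      | succ k ih => rw [pow_succ', ih, List.replicate_succ, List.flatten_cons, Sys.wperm_append]
    rw [hLM, hpow]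
    refine imgW_eq_sp ?_
    rw [← imgs_val, List.map_flatten, List.map_replicate, hMv]
    exact eq_of_beq (List.all_eq_true.mp stab_exponent W hW)

theorem qf_table : ∀ j k : Fin 6,
    ∑ s : Fin chevE6.nroots, ((coef s j : ZMod 5) + 1) * ((coef s k : ZMod 5) + 1) =
      (qfM.getD (6 * j + k) 0 : ZMod 5) := by decide +kernel

theorem qf_cast (a b c d e f : ZMod 5) :
    ∑ j : Fin 6, ∑ k : Fin 6, (qfM.getD (6 * j + k) 0 : ZMod 5) *
      (![a, b, c, d, e, f] j * ![a, b, c, d, e, f] k) =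
    (qf [a.val, b.val, c.val, d.val, e.val, f.val] : ZMod 5) := by
  rw [Fin.sum_univ_six]
  simp only [Fin.sum_univ_six]
  simp [qf, qfM]
  ring

theorem qf_vals {f : Fin chevE6.nroots → ZMod 5} (hf : IsLin f) :
    (qf (vals f) : ZMod 5) = ∑ s, f s ^ 2 := by
  have hpt : ∀ s, f s ^ 2 = ∑ j : Fin 6, ∑ k : Fin 6,
      ((coef s j : ZMod 5) + 1) * ((coef s k : ZMod 5) + 1) * (f (sf j) * f (sf k)) := by
    intro s
    have e : ∀ j : Fin 6, (Sys.vec S j s : ZMod 5) = (coef s j : ZMod 5) + 1 := by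
      intro j
      rw [vec_eq j s, Int.cast_sub, Int.cast_natCast, Int.cast_ofNat, sub_eq_add_neg]
      congr 1
    rw [sq, hf s, Finset.sum_mul_sum]
    simp only [e]
    exact Finset.sum_congr rfl fun j _ => Finset.sum_congr rfl fun k _ => by ring
  simp only [hpt]
  rw [Finset.sum_comm]
  simp_rw [Finset.sum_comm (s := (Finset.univ : Finset (Fin chevE6.nroots))), ← Finset.sum_mul,
    qf_table]
  rw [vals, ← qf_cast]
  refine Finset.sum_congr rfl fun j _ => Finset.sum_congr rfl fun k _ => ?_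
  fin_cases j <;> fin_cases k <;> rfl

theorem cnt_vals {f : Fin chevE6.nroots → ZMod 5} (hf : IsLin f) (v : ZMod 5) :
    cnt (vals f) v.val = (Finset.univ.filter fun s => f s = v).card := by
  have hcnt : cnt (vals f) v.val =
      ((List.finRange chevE6.nroots).filter fun s => decide (f s = v)).length := by
    rw [cnt, List.countP_eq_length_filter,
      show List.range 72 = (List.finRange chevE6.nroots).map Fin.val from List.map_coe_finRange_eq_range.symm,
      List.filter_map, List.length_map]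
    refine congrArg List.length (List.filter_congr fun s _ => ?_)
    rw [Function.comp_apply, vmod_vals hf]
    by_cases h : f s = v
    · rw [decide_eq_true h, h, beq_self_eq_true]
    · rw [decide_eq_false h, beq_eq_false_iff_ne]
      exact fun e => h (ZMod.val_injective 5 e)
  rw [hcnt, ← List.toFinset_card_of_nodup ((List.nodup_finRange _).filter _)]
  congr 1
  ext s
  simp

theorem okA_norm {a b c d e f : ℕ} (hb : b < 5) (hc : c < 5) (hd : d < 5) (he : e < 5) (hf : f < 5)
    (h : a = 1 ∨ a = 0 ∧ (b = 1 ∨ b = 0 ∧ (c = 1 ∨ c = 0 ∧ (d = 1 ∨ d = 0 ∧ (e = 1 ∨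
      e = 0 ∧ f = 1))))) : okA (code [a, b, c, d, e, f]) = true := by
  have hA := searchA
  simp only [List.all_eq_true, List.mem_range] at hA
  have hA5 := searchA5
  simp only [List.all_eq_true, List.mem_range] at hA5
  simp only [code, List.foldl_cons, List.foldl_nil]
  rcases h with rfl | ⟨rfl, rfl | ⟨rfl, rfl | ⟨rfl, rfl | ⟨rfl, rfl | ⟨rfl, rfl⟩⟩⟩⟩⟩
  · refine (congrArg okA ?_).trans (hA5 (b * 625 + c * 125 + d * 25 + e * 5 + f) (by omega))
    omega
  · refine (congrArg okA ?_).trans (hA 4 (by norm_num) (c * 125 + d * 25 + e * 5 + f) (by omega))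
    omega
  · refine (congrArg okA ?_).trans (hA 3 (by norm_num) (d * 25 + e * 5 + f) (by omega))
    omega
  · refine (congrArg okA ?_).trans (hA 2 (by norm_num) (e * 5 + f) (by omega))
    omega
  · refine (congrArg okA ?_).trans (hA 1 (by norm_num) f (by omega))
    omega
  · exact hA 0 (by norm_num) 0 (by norm_num)

theorem dig_code {l : List ℕ} (hl : l.length = 6) (hlt : ∀ a ∈ l, a < 5) : dig (code l) = l := by
  match l, hl with
  | [a, b, c, d, e, f], _ =>
    simp only [List.mem_cons, List.not_mem_nil, or_false, forall_eq_or_imp, forall_eq] at hlt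
    obtain ⟨ha, hb, hc, hd, he, hf⟩ := hlt
    simp only [code, dig, List.foldl_cons, List.foldl_nil, List.cons.injEq, and_true]
    omega

theorem vals_lt (f : Fin chevE6.nroots → ZMod 5) : ∀ a ∈ vals f, a < 5 := by
  intro a ha
  simp only [vals, List.mem_cons, List.not_mem_nil, or_false] at ha
  rcases ha with rfl | rfl | rfl | rfl | rfl | rfl <;> exact ZMod.val_lt _

theorem two_mul_eq_two : ∀ x : ZMod 5, 2 * x = 2 → x = 1 := by decide

theorem pow_ten_eleven : (2 : ZMod 11) ^ 10 = 1 := by decide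

theorem order_two_eleven : ∀ r < 10, (2 : ZMod 11) ^ r = 1 → r = 0 := by decide

theorem fifth_roots : ∀ x : ZMod 11, x ^ 5 = 1 → x ≠ 1 → x.val ∈ [3, 4, 5, 9] := by decide

theorem eigen_zero : ∀ x y : ZMod 11, ∀ η ∈ ([3, 4, 5, 9] : List ℕ),
    via 11 [0, x.val, 0, 0, 0, y.val] (imgs [0, 2, 3, 4]) =
      scl 11 η [0, x.val, 0, 0, 0, y.val] → x = 0 ∧ y = 0 := by decide +kernel

theorem dig_zero (i : Fin 6) : (dig 0).getD i 0 = 0 := by
  revert i
  decide

/-- A function scaled by two lies in the orbit of the base function. -/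
theorem orbit_five {f : Fin chevE6.nroots → ZMod 5} (hf : IsLin f) (hne : f ≠ 0)
    {L : List (Fin chevE6.rank)} (h : ∀ s, f (Sys.wperm S L s) = 2 * f s) :
    ∃ M : List (Fin chevE6.rank), vals (fun s => f (Sys.wperm S M s)) = a0 := by
  obtain ⟨i, hi, hmin⟩ : ∃ i : Fin 6, f (sf i) ≠ 0 ∧ ∀ j < i, f (sf j) = 0 := by
    have hex : ∃ i : Fin 6, f (sf i) ≠ 0 := by
      by_contra hc
      push Not at hc
      exact hne (funext fun s => by rw [hf s]; simp [hc])
    obtain ⟨i, hi, hm⟩ := wellFounded_lt.has_min {i : Fin 6 | f (sf i) ≠ 0} hex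
    exact ⟨i, hi, fun j hj => by_contra fun hc => hm j hc hj⟩
  set c := f (sf i) with hc
  set g : Fin chevE6.nroots → ZMod 5 := fun s => c⁻¹ * f s with hg
  have hgl : IsLin g := isLin_smul hf _
  have hgw : ∀ s, g (Sys.wperm S L s) = 2 * g s := fun s => by simp only [hg, h]; ring
  haveI : Fact (Nat.Prime 5) := ⟨by norm_num⟩
  have hq : qf (vals g) = 0 := by
    have hs : ∑ s, g s ^ 2 = 4 * ∑ s, g s ^ 2 := by
      conv_lhs => rw [← Equiv.sum_comp (Sys.wperm S L)]
      simp only [hgw, Finset.mul_sum]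
      exact Finset.sum_congr rfl fun s _ => by ring
    have hs0 : (qf (vals g) : ZMod 5) = 0 := by
      rw [qf_vals hgl]
      have h50 : (5 : ZMod 5) = 0 := rfl
      linear_combination (3 : ZMod 5) * hs + (2 * ∑ s, g s ^ 2) * h50
    have hlt : qf (vals g) < 5 := by
      simp only [qf, vals]
      exact Nat.mod_lt _ (by norm_num)
    rw [ZMod.natCast_eq_zero_iff] at hs0
    exact Nat.eq_zero_of_dvd_of_lt hs0 hlt
  have hcnt : cnt (vals g) 1 = cnt (vals g) 2 := by
    refine (cnt_vals hgl 1).trans (Eq.trans ?_ (cnt_vals hgl 2).symm)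
    refine Finset.card_equiv (Sys.wperm S L) fun s => ?_
    simp only [Finset.mem_filter, Finset.mem_univ, true_and, hgw]
    constructor
    · intro e; rw [e]; rfl
    · intro e
      exact two_mul_eq_two _ e
  have hgi : g (sf i) = 1 := inv_mul_cancel₀ hi
  have hg0 : ∀ j < i, g (sf j) = 0 := fun j hj => by simp only [hg, hmin j hj, mul_zero]
  have hok : okA (code (vals g)) = true := by
    refine okA_norm (ZMod.val_lt _) (ZMod.val_lt _) (ZMod.val_lt _) (ZMod.val_lt _) (ZMod.val_lt _) ?_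
    have h1 : (g (sf i)).val = 1 := by rw [hgi]; rfl
    have h0 : ∀ j < i, (g (sf j)).val = 0 := fun j hj => by rw [hg0 j hj]; rfl
    fin_cases i
    · exact Or.inl h1
    · exact Or.inr ⟨h0 0 (by decide), Or.inl h1⟩
    · exact Or.inr ⟨h0 0 (by decide), Or.inr ⟨h0 1 (by decide), Or.inl h1⟩⟩
    · exact Or.inr ⟨h0 0 (by decide), Or.inr ⟨h0 1 (by decide), Or.inr ⟨h0 2 (by decide), Or.inl h1⟩⟩⟩
    · exact Or.inr ⟨h0 0 (by decide), Or.inr ⟨h0 1 (by decide), Or.inr ⟨h0 2 (by decide),
        Or.inr ⟨h0 3 (by decide), Or.inl h1⟩⟩⟩⟩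
    · exact Or.inr ⟨h0 0 (by decide), Or.inr ⟨h0 1 (by decide), Or.inr ⟨h0 2 (by decide),
        Or.inr ⟨h0 3 (by decide), Or.inr ⟨h0 4 (by decide), h1⟩⟩⟩⟩⟩
  have hd : dig (code (vals g)) = vals g := dig_code rfl (vals_lt g)
  have hn0 : code (vals g) ≠ 0 := by
    intro e
    rw [e] at hd
    have := congrArg (fun l : List ℕ => l.getD i 0) hd
    simp only [vals_getD, hgi, dig_zero, ZMod.val_one] at this
    exact absurd this (by norm_num)
  simp only [okA, hd, hq, hcnt, beq_self_eq_true, Bool.not_true, Bool.false_or,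
    Bool.or_eq_true, decide_eq_true_eq, hn0, false_or, beq_iff_eq, Bool.false_eq_true] at hok
  obtain ⟨M, -, hM⟩ := walk_sound hgl walkA (J := List.range 6) (fun i hi => List.mem_range.mp hi) 30
  rw [hok] at hM
  set e := (fun s => f (Sys.wperm S M s)) with he
  have hel : IsLin e := isLin_wperm hf M
  have hev : vals e = scl 5 c.val a0 := by
    rw [← hM, ← vals_smul]
    congr 1
    funext s
    simp only [he, hg, ZMod.natCast_val, ZMod.cast_id', id]
    rw [mul_inv_cancel_left₀ hi]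
  obtain ⟨M', -, hM'⟩ := walk_sound hel walkA (J := List.range 6) (fun i hi => List.mem_range.mp hi) 30
  refine ⟨M ++ M', ?_⟩
  have hcv : c.val ∈ [1, 2, 3, 4] := by
    have h1 := ZMod.val_lt c
    have h2 : c.val ≠ 0 := fun e => hi ((ZMod.val_eq_zero c).mp e)
    simp only [List.mem_cons, List.not_mem_nil, or_false]
    omega
  rw [hev, eq_of_beq (List.all_eq_true.mp walk_multiples _ hcv)] at hM'
  rw [← hM']
  congr 1
  funext s
  rw [Sys.wperm_append, Equiv.Perm.mul_apply]

/-- The linear function with given values on the fundamental roots. -/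
noncomputable def mkLin (v : Fin 6 → ZMod ℓ) : Fin chevE6.nroots → ZMod ℓ :=
  fun s => ∑ m : Fin 6, (Sys.vec S m s : ZMod ℓ) * v m

theorem mkLin_sf (v : Fin 6 → ZMod ℓ) (i : Fin 6) : mkLin v (sf i) = v i := by
  rw [mkLin, Finset.sum_eq_single i (fun b _ hb => ?_) (fun h => absurd (Finset.mem_univ i) h)]
  · rw [vec_sf, if_pos rfl, Int.cast_one, one_mul]
  · rw [vec_sf, if_neg fun h => hb (Fin.ext h), Int.cast_zero, zero_mul]

theorem isLin_mkLin (v : Fin 6 → ZMod ℓ) : IsLin (mkLin v) := by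
  intro s
  simp only [mkLin_sf]
  rfl

/-- The second function is determined up to the stabiliser of the base function. -/
theorem second {f g : Fin chevE6.nroots → ZMod 5} (hf : IsLin f) (ha : vals f = a0) (hg : IsLin g)
    (hne : g ≠ 0) {L : List (Fin chevE6.rank)} (h1 : ∀ s, f (Sys.wperm S L s) = f s)
    (h2 : ∀ s, g (Sys.wperm S L s) = 2 * g s) :
    ∃ M : List (Fin chevE6.rank), (∀ i ∈ M, (i : ℕ) ∈ J0) ∧
      vals (fun s => g (Sys.wperm S M s)) = b0 := by
  have hσ := mem_stab hf ha h1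
  have hout : ∀ j ∈ ([0, 1, 5] : List (Fin 6)), ∀ k ∈ ([0, 1, 5] : List (Fin 6)),
      Sys.vec S k (Sys.wperm S L (sf j)) = if j = k then 1 else 0 := by
    intro j hj k hk
    have h := List.all_eq_true.mp stab_out _ hσ
    simp only [List.all_eq_true, beq_iff_eq] at h
    have hmem : ∀ j ∈ ([0, 1, 5] : List (Fin 6)), (j : ℕ) ∈ ([0, 1, 5] : List ℕ) := by decide
    have := h j (hmem j hj) k (hmem k hk)
    have e : (imgW L).getD j 0 = (Sys.wperm S L (sf j) : ℕ) := by fin_cases j <;> rfl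
    rw [e] at this
    rw [vec_eq, this]
    by_cases hjk : j = k
    · rw [if_pos hjk, if_pos (congrArg Fin.val hjk)]; rfl
    · rw [if_neg hjk, if_neg fun e => hjk (Fin.ext e)]; rfl
  set gJ := mkLin (fun m : Fin 6 => if m ∈ ([0, 1, 5] : List (Fin 6)) then (0 : ZMod 5) else g (sf m))
    with hgJ
  have hfill : ∀ j ∈ ([0, 1, 5] : List (Fin 6)), gJ (Sys.wperm S L (sf j)) = g (sf j) := by
    intro j hj
    have e := h2 (sf j)
    rw [hg] at e
    have hsplit : gJ (Sys.wperm S L (sf j)) + g (sf j) =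
        ∑ m : Fin 6, (Sys.vec S m (Sys.wperm S L (sf j)) : ZMod 5) * g (sf m) := by
      rw [hgJ, mkLin]
      simp only [Fin.sum_univ_six]
      rw [hout j hj 0 (by simp), hout j hj 1 (by simp), hout j hj 5 (by simp)]
      simp only [List.mem_cons, List.not_mem_nil, or_false] at hj
      rcases hj with rfl | rfl | rfl <;> (simp; try ring)
    linear_combination hsplit + e
  set n := (g (sf 2)).val * 25 + (g (sf 3)).val * 5 + (g (sf 4)).val with hn
  have hlt := vals_lt g
  simp only [vals, List.mem_cons, List.not_mem_nil, or_false, forall_eq_or_imp, forall_eq] at hlt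
  obtain ⟨-, -, hc, hd, he, -⟩ := hlt
  have hfB : fillB n (imgW L) = vals g := by
    have d2 : n / 25 = (g (sf 2)).val := by omega
    have d3 : n / 5 % 5 = (g (sf 3)).val := by omega
    have d4 : n % 5 = (g (sf 4)).val := by omega
    simp only [fillB, d2, d3, d4]
    rw [show [0, 0, (g (sf 2)).val, (g (sf 3)).val, (g (sf 4)).val, 0] = vals gJ by
      simp [vals, hgJ, mkLin_sf]]
    simp only [imgW, List.getD_cons_zero, List.getD_cons_succ,
      vmod_vals (hgJ ▸ isLin_mkLin _ : IsLin gJ), hfill 0 (by simp), hfill 1 (by simp),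
      hfill 5 (by simp)]
    rfl
  have hB := List.all_eq_true.mp searchB n (List.mem_range.mpr (by omega))
  simp only [okB, List.all_eq_true] at hB
  have hB' := hB _ hσ
  simp only [hfB, Bool.or_eq_true, Bool.not_eq_true', beq_eq_false_iff_ne, beq_iff_eq, ne_eq] at hB'
  have hvia : via 5 (vals g) (imgW L) = scl 5 2 (vals g) := by
    rw [← vals_wperm hg, ← vals_smul]
    congr 1
    funext s
    rw [h2, Nat.cast_ofNat]
  rcases hB' with (hB' | hB') | hB'
  · exact absurd hvia hB'
  · exfalso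
    refine hne (vals_inj hg (isLin_mkLin fun _ => (0 : ZMod 5)) ?_ |>.trans (funext fun s => ?_))
    · rw [hB']; simp [vals, mkLin_sf]
    · simp [mkLin]
  · obtain ⟨M, hM, hMv⟩ := walk_sound hg walkB (J := J0) (by decide) 6
    exact ⟨M, hM, hMv.trans hB'⟩

theorem natCard_weyl : Nat.card ↥(F4AltSection.weylPerms S) = 51840 := by
  rw [F4AltSection.natCard_weylPerms]
  have h := lenSumE6 (ZMod 2) 1
  simp only [Sys.lenSum, one_pow, Finset.sum_const, nsmul_eq_mul, mul_one] at h
  have h' := h.trans (show _ = ((51840 : ℕ) : ℤ) by rfl)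
  exact_mod_cast h'

/-- No element of the Weyl group scales a nonzero function modulo eleven by two. -/
theorem no_eleven_scaling {f : Fin chevE6.nroots → ZMod 11} (hf : IsLin f) (hne : f ≠ 0)
    {L : List (Fin chevE6.rank)} (h : ∀ s, f (Sys.wperm S L s) = 2 * f s) : False := by
  classical
  haveI : Fact (Nat.Prime 11) := ⟨by norm_num⟩
  haveI : Fact (Nat.Prime 5) := ⟨by norm_num⟩
  set G := F4AltSection.weylPerms S
  let w : ↥G := ⟨Sys.wperm S L, L, rfl⟩
  have hpow : ∀ (k : ℕ) s, f ((w ^ k : ↥G).1 s) = 2 ^ k * f s := by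
    intro k
    induction k with
    | zero => intro s; simp
    | succ k ih =>
      intro s
      rw [pow_succ', Subgroup.coe_mul, Equiv.Perm.mul_apply]
      show f (Sys.wperm S L _) = _
      rw [h, ih, pow_succ', mul_assoc]
  obtain ⟨s₀, hs₀⟩ : ∃ s, f s ≠ 0 := Function.ne_iff.mp hne
  have h2 : ∀ k : ℕ, (2 : ZMod 11) ^ k = 1 ↔ 10 ∣ k := by
    intro k
    constructor
    · intro hk
      rw [← Nat.div_add_mod k 10, pow_add, pow_mul, pow_ten_eleven,
        one_pow, one_mul] at hk
      exact Nat.dvd_of_mod_eq_zero (order_two_eleven _ (Nat.mod_lt _ (by norm_num)) hk)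
    · rintro ⟨c, rfl⟩
      rw [pow_mul, pow_ten_eleven, one_pow]
  set m := orderOf w with hm
  have hm10 : 10 ∣ m := by
    refine (h2 m).mp (mul_right_cancel₀ hs₀ ?_)
    rw [← hpow, hm, pow_orderOf_eq_one]
    simp
  have hmW : m ∣ 51840 := natCard_weyl ▸ orderOf_dvd_natCard w
  obtain ⟨d, hd⟩ : 5 ∣ m := (by norm_num : 5 ∣ 10).trans hm10
  have h5d : ¬ 5 ∣ d := fun h' => absurd ((hd ▸ Nat.mul_dvd_mul_left 5 h').trans hmW) (by norm_num)
  have hη : (2 : ZMod 11) ^ d ≠ 1 := fun e => h5d (((by norm_num : 5 ∣ 10)).trans ((h2 d).mp e))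
  have hη5 : ((2 : ZMod 11) ^ d) ^ 5 = 1 := by rw [← pow_mul, mul_comm, ← hd]; exact (h2 m).mpr hm10
  set u := w ^ d with hu
  have hu5 : orderOf u = 5 := by
    refine orderOf_eq_prime (by rw [hu, ← pow_mul, mul_comm, ← hd, hm, pow_orderOf_eq_one]) ?_
    intro e
    refine hη (mul_right_cancel₀ hs₀ ?_)
    rw [← hpow, ← hu, e]
    simp
  let C : List (Fin chevE6.rank) := [(0 : Fin 6), (2 : Fin 6), (3 : Fin 6), (4 : Fin 6)]
  let c : ↥G := ⟨Sys.wperm S C, C, rfl⟩
  have hC : C.map Fin.val = [0, 2, 3, 4] := rfl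
  have hc5 : orderOf c = 5 := by
    refine orderOf_eq_prime (Subtype.ext ?_) fun e => five_ne ?_
    · show Sys.wperm S C ^ 5 = 1
      rw [show Sys.wperm S C ^ 5 = Sys.wperm S (C ++ C ++ C ++ C ++ C) by
        simp only [Sys.wperm_append]; rfl]
      refine imgW_eq_sp ?_
      rw [← imgs_val]
      exact five_pow
    · rw [← hC, imgs_val]
      have e' : Sys.wperm S C = Sys.wperm S [] := congrArg Subtype.val e
      rw [show imgW C = imgW [] by simp only [imgW, e'], ← imgs_val]
      rfl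
  have hfac : (Nat.card ↥G).factorization 5 = 1 := by
    rw [natCard_weyl, show 51840 = 5 * 10368 by norm_num, Nat.factorization_mul (by norm_num)
      (by norm_num), Finsupp.add_apply, Nat.Prime.factorization_self (by norm_num),
      Nat.factorization_eq_zero_of_not_dvd (by norm_num)]
  let Pu := Sylow.ofCard (Subgroup.zpowers u) (p := 5) (by rw [hfac, Nat.card_zpowers, hu5]; rfl)
  let Pc := Sylow.ofCard (Subgroup.zpowers c) (p := 5) (by rw [hfac, Nat.card_zpowers, hc5]; rfl)
  obtain ⟨g, hg⟩ := MulAction.exists_smul_eq ↥G Pc Pu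
  have hcu : g * c * g⁻¹ ∈ Subgroup.zpowers u := by
    have h1 : c ∈ (Pc : Subgroup ↥G) := by
      rw [Sylow.coe_ofCard]; exact Subgroup.mem_zpowers c
    have h2' := Subgroup.smul_mem_pointwise_smul c (MulAut.conj g) _ h1
    rw [← Sylow.coe_subgroup_smul] at h2'
    change g * c * g⁻¹ ∈ ((g • Pc : Sylow 5 ↥G) : Subgroup ↥G) at h2'
    rw [hg, Sylow.coe_ofCard] at h2'
    exact h2'
  obtain ⟨k, hk⟩ := mem_powers_iff_mem_zpowers.mpr hcu
  simp only at hk
  have hk5 : ¬ 5 ∣ k := by
    rintro ⟨j, rfl⟩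
    rw [pow_mul, ← hu5, pow_orderOf_eq_one, one_pow] at hk
    have : c = 1 := conj_eq_one_iff.mp hk.symm
    rw [this, orderOf_one] at hc5
    norm_num at hc5
  obtain ⟨Lg, hLg⟩ := g.2
  obtain ⟨Lw, hLw⟩ := (g⁻¹ * w * g : ↥G).2
  set e := (fun s => f (Sys.wperm S Lg s)) with he
  have hel : IsLin e := isLin_wperm hf Lg
  have hefun : ∀ s, e s = f ((g : Equiv.Perm _) s) := fun s => by simp only [he, ← hLg]
  set η : ZMod 11 := ((2 : ZMod 11) ^ d) ^ k with hη'
  have hec : ∀ s, e (Sys.wperm S C s) = η * e s := by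
    intro s
    rw [hefun, hefun, hη', ← pow_mul, ← hpow (d * k) _, pow_mul w d k, ← hu, hk]
    simp [c]
  have hew : ∀ s, e (Sys.wperm S Lw s) = 2 * e s := by
    intro s
    rw [hefun, hefun, ← hLw, Subgroup.coe_mul, Subgroup.coe_mul, Equiv.Perm.mul_apply,
      Equiv.Perm.mul_apply, Subgroup.coe_inv, Equiv.Perm.inv_def, Equiv.apply_symm_apply]
    exact h _
  have hη1 : η ≠ 1 := by
    intro e1
    refine hη ?_
    obtain ⟨l, hl, hl1⟩ := Nat.exists_mul_mod_eq_one_of_coprime
      (((Nat.prime_five.coprime_iff_not_dvd).mpr hk5).symm) (by norm_num : 1 < 5)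
    have := congrArg (fun x => x ^ l) e1
    simp only [hη', one_pow] at this
    rw [← pow_mul, ← Nat.div_add_mod (k * l) 5, hl1, pow_add, pow_mul _ 5, hη5, one_pow, one_mul,
      pow_one] at this
    exact this
  have hηmem : η.val ∈ [3, 4, 5, 9] := by
    exact fifth_roots η (by rw [hη', ← pow_mul, mul_comm, pow_mul, hη5, one_pow]) hη1
  have e0 := hec (sf 0)
  have e2 := hec (sf 2)
  have e3 := hec (sf 3)
  have hC0 : Sys.wperm S C (sf 0) = sf 2 := Fin.ext (by rw [wperm_val, sf_val, sf_val, hC]; decide +kernel)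
  have hC2 : Sys.wperm S C (sf 2) = sf 3 := Fin.ext (by rw [wperm_val, sf_val, sf_val, hC]; decide +kernel)
  have hC3 : Sys.wperm S C (sf 3) = sf 4 := Fin.ext (by rw [wperm_val, sf_val, sf_val, hC]; decide +kernel)
  rw [hC0] at e0
  rw [hC2, e0] at e2
  rw [hC3, e2] at e3
  have hz : e (sf 0) ≠ 0 := by
    intro z
    have hv : vals e = [0, (e (sf 1)).val, 0, 0, 0, (e (sf 5)).val] := by
      simp [vals, e3, e2, e0, z]
    have hvia : via 11 (vals e) (imgs [0, 2, 3, 4]) = scl 11 η.val (vals e) := by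
      rw [← hC, imgs_val, ← vals_wperm hel, ← vals_smul]
      congr 1
      funext s
      rw [hec, ZMod.natCast_val, ZMod.cast_id', id]
    rw [hv] at hvia
    obtain ⟨h1, h5⟩ := eigen_zero _ _ η.val hηmem hvia
    refine hne (funext fun s => ?_)
    have hs : e ((g⁻¹ : ↥G).1 s) = f s := by
      rw [hefun, Subgroup.coe_inv, Equiv.Perm.inv_def, Equiv.apply_symm_apply]
    rw [← hs, hel]
    simp [Fin.sum_univ_six, z, h1, h5, e0, e2, e3]
  set v := (fun s => (e (sf 0))⁻¹ * e s) with hv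
  have hvl : IsLin v := isLin_smul hel _
  have hvv : vals v = [1, (v (sf 1)).val, η.val, η.val * η.val % 11, η.val * η.val * η.val % 11,
      (v (sf 5)).val] := by
    have i0 : v (sf 0) = 1 := inv_mul_cancel₀ hz
    have i2 : v (sf 2) = η := by
      simp only [hv, e0]; rw [mul_left_comm, inv_mul_cancel₀ hz, mul_one]
    have i3 : v (sf 3) = η * η := by
      simp only [hv, e2]
      linear_combination (η * η) * inv_mul_cancel₀ hz
    have i4 : v (sf 4) = η * η * η := by
      simp only [hv, e3]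
      linear_combination (η * η * η) * inv_mul_cancel₀ hz
    simp [vals, i0, i2, i3, i4, ZMod.val_mul, Nat.mul_mod, ZMod.val_one]
  have hvC : via 11 (vals v) (imgs [0, 2, 3, 4]) = scl 11 η.val (vals v) := by
    rw [← hC, imgs_val, ← vals_wperm hvl, ← vals_smul]
    congr 1
    funext s
    simp only [hv, hec, ZMod.natCast_val, ZMod.cast_id', id]
    ring
  have hE := searchEigen
  simp only [List.all_eq_true, List.mem_range] at hE
  have h1lt := ZMod.val_lt (v (sf 1))
  have h5lt := ZMod.val_lt (v (sf 5))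
  have hE' := hE η.val hηmem ((v (sf 1)).val * 11 + (v (sf 5)).val) (by omega)
  rw [show ((v (sf 1)).val * 11 + (v (sf 5)).val) / 11 = (v (sf 1)).val by omega,
    show ((v (sf 1)).val * 11 + (v (sf 5)).val) % 11 = (v (sf 5)).val by omega, ← hvv] at hE'
  simp only [hvC, beq_self_eq_true, Bool.not_true, Bool.false_or, List.contains_iff_mem] at hE'
  have hS := List.all_eq_true.mp searchEleven _ hE'
  rw [List.isEmpty_iff] at hS
  have hmem := mem_maps hvl Lw 2 fun s => by simp only [hv, hew]; push_cast; ring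
  have := (List.mem_filter (p := wInv)).mpr ⟨hmem, wInv_imgW Lw⟩
  rw [hS] at this
  exact absurd this (List.not_mem_nil)

end CfsgLib.E6Alt65
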